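import Cfsg.Agent.H1.FactHall
import Cfsg.Agent.H1.PGrp2
import Cfsg.Agent.H1.Ito
import Cfsg.Agent.H1.SSolv

set_option autoImplicit false
open Cfsg Subgroup
open scoped Pointwise commutatorElement

namespace CfsgH1

universe u v

theorem abelian_decomp {G : Type u} [Group G] [Finite G] {A : Subgroup G} (hab : ∀ x ∈ A, ∀ y ∈ A, x * y = y * x) (p : ℕ) [hp : Fact p.Prime] :
    ∃ Q S : Subgroup G, Q ≤ A ∧ S ≤ A ∧ IsPGroup p Q ∧ ¬ p ∣ Nat.card S ∧ ∀ a ∈ A, ∃ q ∈ Q, ∃ s ∈ S, a = q * s := by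
  obtain ⟨Q⟩ : Nonempty (Sylow p A) := inferInstance
  haveI : (Q : Subgroup A).Normal := by
    refine ⟨fun n hn g => ?_⟩
    have : g * n * g⁻¹ = n := by
      apply Subtype.ext
      push_cast
      rw [hab _ g.2 _ n.2, mul_assoc, mul_inv_cancel, mul_one]
    rwa [this]
  obtain ⟨S, hS⟩ := Subgroup.exists_right_complement'_of_coprime (Sylow.card_coprime_index Q)
  refine ⟨(Q : Subgroup A).map A.subtype, S.map A.subtype, Subgroup.map_subtype_le _, Subgroup.map_subtype_le _, Q.2.map _, ?_, ?_⟩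
  · rw [← Nat.card_congr (S.equivMapOfInjective A.subtype A.subtype_injective).toEquiv, ← hS.symm.index_eq_card]
    exact Q.not_dvd_index
  · intro a ha
    obtain ⟨⟨q, s⟩, hqs⟩ := hS.2 ⟨a, ha⟩
    exact ⟨(q : A), ⟨q, q.2, rfl⟩, (s : A), ⟨s, s.2, rfl⟩, (congrArg Subtype.val hqs).symm⟩

/-- if `K = G'` is abelian then `N ∩ C(Y)` is normal for `N ≤ K` normal -/
theorem inf_centralizer_normal_of_metabelian {G : Type u} [Group G] {N : Subgroup G} [hN : N.Normal] (hNK : N ≤ commutator G) 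
    (hK : ∀ x ∈ commutator G, ∀ y ∈ commutator G, x * y = y * x) (Y : Set G) : (N ⊓ centralizer Y : Subgroup G).Normal := by
  refine ⟨fun n hn g => ⟨hN.conj_mem n hn.1 g, ?_⟩⟩
  change g * n * g⁻¹ ∈ centralizer Y
  rw [Subgroup.mem_centralizer_iff]
  intro y hy
  have h1 : y * n = n * y := Subgroup.mem_centralizer_iff.1 hn.2 y hy
  have hc : ⁅y, g⁆ ∈ commutator G := Subgroup.commutator_mem_commutator (mem_top _) (mem_top _)
  have h2 := hK _ hc _ (hNK (hN.conj_mem n hn.1 g))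
  rw [commutatorElement_def] at h2
  calc y * (g * n * g⁻¹) = (y * g * y⁻¹ * g⁻¹) * (g * (y * n) * y⁻¹ * g⁻¹) * (y * g * y⁻¹ * g⁻¹)⁻¹ * y := by group
    _ = (y * g * y⁻¹ * g⁻¹) * (g * n * g⁻¹) * (y * g * y⁻¹ * g⁻¹)⁻¹ * y := by rw [h1]; group
    _ = (g * n * g⁻¹) * (y * g * y⁻¹ * g⁻¹) * (y * g * y⁻¹ * g⁻¹)⁻¹ * y := by rw [h2]
    _ = g * n * g⁻¹ * y := by group

theorem normal_of_le_center {G : Type u} [Group G] {N : Subgroup G} (h : N ≤ center G) : N.Normal := by
  refine ⟨fun n hn g => ?_⟩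
  have h1 := Subgroup.mem_center_iff.1 (h hn) g
  rw [h1, mul_inv_cancel_right]
  exact hn

theorem card_of_fact_le {G : Type u} [Group G] [Finite G] {H K T : Subgroup G} (hH : H ≤ T) (hK : K ≤ T) (h : ∀ t ∈ T, ∃ x ∈ H, ∃ y ∈ K, t = x * y) : 
    Nat.card T * Nat.card (H ⊓ K : Subgroup G) = Nat.card H * Nat.card K := by
  have h1 : IsFact (H.subgroupOf T) (K.subgroupOf T) := by
    rintro ⟨t, ht⟩
    obtain ⟨x, hx, y, hy, he⟩ := h t ht
    exact ⟨⟨x, hH hx⟩, hx, ⟨y, hK hy⟩, hy, Subtype.ext he⟩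
  have h2 := isFact_iff_card.1 h1
  have h3 : H.subgroupOf T ⊓ K.subgroupOf T = (H ⊓ K).subgroupOf T := rfl
  rw [h3, Nat.card_congr (Subgroup.subgroupOfEquivOfLe (inf_le_left.trans hH : H ⊓ K ≤ T)).toEquiv, 
    Nat.card_congr (Subgroup.subgroupOfEquivOfLe hH).toEquiv, Nat.card_congr (Subgroup.subgroupOfEquivOfLe hK).toEquiv] at h2
  exact h2

theorem abFact_normal {G : Type u} [Group G] [Finite G] [Nontrivial G] {A B : Subgroup G} (hA : ∀ x ∈ A, ∀ y ∈ A, x * y = y * x) 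
    (hB : ∀ x ∈ B, ∀ y ∈ B, x * y = y * x) (hf : IsFact A B) (hK : ∀ x ∈ commutator G, ∀ y ∈ commutator G, x * y = y * x) 
    [hs : Group.IsSolvable G] : 
    ∃ N : Subgroup G, N.Normal ∧ N ≠ ⊥ ∧ (N ≤ A ∨ N ≤ B) := by
  by_contra hcon
  push Not at hcon
  have hnot : ∀ N : Subgroup G, N.Normal → N ≤ A ∨ N ≤ B → N = ⊥ := by
    intro N hN h
    by_contra h1
    have := hcon N hN h1
    tauto
  have hzA : ∀ x, x ∈ center G → x ∈ A → x = 1 := by
    intro x h1 h2
    have := hnot (center G ⊓ A) (normal_of_le_center inf_le_left) (Or.inl inf_le_right)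
    rw [← Subgroup.mem_bot, ← this]; exact ⟨h1, h2⟩
  have hzB : ∀ x, x ∈ center G → x ∈ B → x = 1 := by
    intro x h1 h2
    have := hnot (center G ⊓ B) (normal_of_le_center inf_le_left) (Or.inr inf_le_right)
    rw [← Subgroup.mem_bot, ← this]; exact ⟨h1, h2⟩
  -- centralizers
  have hcomm : ∀ x : G, (∀ a ∈ A, a * x = x * a) → (∀ b ∈ B, b * x = x * b) → x ∈ center G := by
    intro x h1 h2
    rw [Subgroup.mem_center_iff]
    intro g
    obtain ⟨a, ha, b, hb, rfl⟩ := hf g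
    rw [mul_assoc, h2 b hb, ← mul_assoc, h1 a ha, mul_assoc]
  have hAB : ∀ x, x ∈ A → x ∈ B → x = 1 := by
    intro x h1 h2
    exact hzA x (hcomm x (fun a ha => hA _ ha _ h1) (fun b hb => hB _ hb _ h2)) h1
  have hCA : ∀ x : G, (∀ a ∈ A, a * x = x * a) → x ∈ A := by
    intro x hx
    obtain ⟨a, ha, b, hb, rfl⟩ := hf x
    have : b = 1 := by
      apply hzB b _ hb
      apply hcomm b _ (fun c hc => hB _ hc _ hb)
      intro c hc
      have h1 := hx c hc
      have h2 : a⁻¹ * (c * (a * b)) = a⁻¹ * (a * b * c) := by rw [h1]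
      rw [← mul_assoc c, hA c hc a ha] at h2
      have e1 : a⁻¹ * (a * c * b) = c * b := by group
      have e2 : a⁻¹ * (a * b * c) = b * c := by group
      rwa [e1, e2] at h2
    rw [this, mul_one]; exact ha
  have hCB : ∀ x : G, (∀ b ∈ B, b * x = x * b) → x ∈ B := by
    intro x hx
    obtain ⟨a, ha, b, hb, rfl⟩ := hf x
    have : a = 1 := by
      apply hzA a _ ha
      apply hcomm a (fun c hc => hA _ hc _ ha)
      intro c hc
      have h1 := hx c hc
      have h2 : (c * (a * b)) * b⁻¹ = (a * b * c) * b⁻¹ := by rw [h1]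
      rw [mul_assoc a b c, hB b hb c hc] at h2
      have e1 : (c * (a * b)) * b⁻¹ = c * a := by group
      have e2 : a * (c * b) * b⁻¹ = a * c := by group
      rwa [e1, e2] at h2
    rw [this, one_mul]; exact hb
  -- commutator is nontrivial
  have hKne : commutator G ≠ ⊥ := by
    intro h
    have hcen : ∀ x : G, x ∈ center G := by
      intro x
      rw [Subgroup.mem_center_iff]
      intro g
      have h1 : ⁅g, x⁆ ∈ commutator G := Subgroup.commutator_mem_commutator (mem_top _) (mem_top _)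
      rw [h, Subgroup.mem_bot] at h1
      exact commutatorElement_eq_one_iff_mul_comm.1 h1
    obtain ⟨x, hx⟩ := exists_ne (1 : G)
    apply hx
    obtain ⟨a, ha, b, hb, rfl⟩ := hf x
    rw [hzA a (hcen a) ha, hzB b (hcen b) hb, mul_one]
  obtain ⟨N, hN, hNK, hNne, hNmin⟩ := exists_minNormal_le hKne
  haveI := hN
  obtain ⟨hNab, p, hp, hNp⟩ := elemAb_of_minNormal hNne hNmin
  haveI : Fact p.Prime := ⟨hp⟩
  have hNpg : IsPGroup p N := isPGroup_of_forall_pow_eq_one hNp
  have hcen : ∀ Y : Subgroup G, N ⊓ centralizer (Y : Set G) ≠ ⊥ → N ≤ centralizer (Y : Set G) := by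
    intro Y hY
    rcases hNmin _ (inf_centralizer_normal_of_metabelian hNK hK (Y : Set G)) inf_le_left with h | h
    · exact absurd h hY
    · rw [← h]; exact inf_le_right
  -- N ∩ C(A) = 1, N ∩ C(B) = 1
  have hNA : N ⊓ centralizer (A : Set G) = ⊥ := by
    by_contra h
    have h1 := hcen A h
    apply hNne
    apply hnot N hN (Or.inl ?_)
    intro x hx
    exact hCA x (fun a ha => Subgroup.mem_centralizer_iff.1 (h1 hx) a ha)
  have hNB : N ⊓ centralizer (B : Set G) = ⊥ := by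
    by_contra h
    have h1 := hcen B h
    apply hNne
    apply hnot N hN (Or.inr ?_)
    intro x hx
    exact hCB x (fun a ha => Subgroup.mem_centralizer_iff.1 (h1 hx) a ha)
  -- p-subgroups centralize N
  have hNQ : ∀ Q : Subgroup G, IsPGroup p Q → N ≤ centralizer (Q : Set G) := by
    intro Q hQ
    apply hcen
    have h1 := isPGroup_sup hNpg hQ (le_normalizer_of_normal Q N)
    have h2 := inf_centralizer_ne_bot_of_nilpotent (N := N) (IsPGroup.isNilpotent h1) le_sup_left (le_normalizer_of_normal _ N) hNne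
    intro h3
    apply h2
    rw [eq_bot_iff, ← h3]
    exact inf_le_inf_left _ (Subgroup.centralizer_le (show (Q : Set G) ⊆ _ from fun x hx => mem_sup_right (S := N) hx))
  have hANi : A ⊓ N = ⊥ := by
    rw [eq_bot_iff, ← hNA]
    intro x hx
    exact ⟨hx.2, Subgroup.mem_centralizer_iff.2 (fun a ha => hA a ha x hx.1)⟩
  have hBNi : B ⊓ N = ⊥ := by
    rw [eq_bot_iff, ← hNB]
    intro x hx
    exact ⟨hx.2, Subgroup.mem_centralizer_iff.2 (fun a ha => hB a ha x hx.1)⟩
  -- A*, B*, X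
  set A' := A ⊓ (N ⊔ B) with hA'
  set B' := B ⊓ (N ⊔ A) with hB'
  have hX : N ⊔ A' = N ⊔ B' := by
    have h1 := modular_law (L := N ⊔ B) (le_normalizer_of_normal A N) le_sup_left
    have h2 := modular_law (L := N ⊔ A) (le_normalizer_of_normal B N) le_sup_left
    rw [hA', hB', inf_comm A, inf_comm B, ← h1, ← h2, inf_comm]
  have hcardA' : Nat.card A' = Nat.card N := by
    have h1 := card_sup_mul_card_inf (le_normalizer_of_normal B N)
    rw [hBNi, Subgroup.card_bot, mul_one] at h1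
    have h2 := card_of_fact_le (H := A') (K := B) (T := B ⊔ N) (by rw [sup_comm]; exact inf_le_right) le_sup_left (by
      intro t ht
      obtain ⟨a, ha, b, hb, rfl⟩ := hf t
      refine ⟨a, ⟨ha, ?_⟩, b, hb, rfl⟩
      have : a * b * b⁻¹ ∈ B ⊔ N := (B ⊔ N).mul_mem ht ((B ⊔ N).inv_mem (mem_sup_left hb))
      rw [mul_inv_cancel_right] at this
      rw [sup_comm]; exact this)
    have h3 : A' ⊓ B = ⊥ := by
      rw [eq_bot_iff]
      intro x hx
      exact hAB x hx.1.1 hx.2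
    rw [h3, Subgroup.card_bot, mul_one, h1, mul_comm] at h2
    exact (Nat.eq_of_mul_eq_mul_right Nat.card_pos h2).symm
  have hA'pg : IsPGroup p A' := by
    obtain ⟨k, hk⟩ := IsPGroup.iff_card.1 hNpg
    exact IsPGroup.of_card (hcardA'.trans hk)
  have hNA' : N ≤ centralizer (A' : Set G) := hNQ A' hA'pg
  -- X/N is central in G/N
  have hXc : ∀ x ∈ N ⊔ A', ∀ g : G, g * x * g⁻¹ * x⁻¹ ∈ N := by
    have hXA : ∀ x ∈ N ⊔ A', ∀ g ∈ A, g * x * g⁻¹ * x⁻¹ ∈ N := by
      intro x hx g hg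
      obtain ⟨n, hn, a, ha, rfl⟩ := (mem_sup_of_le_normalizer' (le_normalizer_of_normal A' N)).1 hx
      have e1 : g * (n * a) * g⁻¹ * (n * a)⁻¹ = (g * n * g⁻¹) * (g * a * g⁻¹ * a⁻¹) * n⁻¹ := by group
      rw [e1, hA g hg a ha.1]
      have e2 : a * g * g⁻¹ * a⁻¹ = 1 := by group
      rw [e2, mul_one]
      exact N.mul_mem (hN.conj_mem n hn g) (N.inv_mem hn)
    have hXB : ∀ x ∈ N ⊔ A', ∀ g ∈ B, g * x * g⁻¹ * x⁻¹ ∈ N := by
      intro x hx g hg
      rw [hX] at hx
      obtain ⟨n, hn, a, ha, rfl⟩ := (mem_sup_of_le_normalizer' (le_normalizer_of_normal B' N)).1 hx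
      have e1 : g * (n * a) * g⁻¹ * (n * a)⁻¹ = (g * n * g⁻¹) * (g * a * g⁻¹ * a⁻¹) * n⁻¹ := by group
      rw [e1, hB g hg a ha.1]
      have e2 : a * g * g⁻¹ * a⁻¹ = 1 := by group
      rw [e2, mul_one]
      exact N.mul_mem (hN.conj_mem n hn g) (N.inv_mem hn)
    intro x hx g
    obtain ⟨a, ha, b, hb, rfl⟩ := hf g
    have e : a * b * x * (a * b)⁻¹ * x⁻¹ = (a * (b * x * b⁻¹ * x⁻¹) * a⁻¹) * (a * x * a⁻¹ * x⁻¹) := by group
    rw [e]
    exact N.mul_mem (hN.conj_mem _ (hXB x hx b hb) a) (hXA x hx a ha)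
  have hXn : ∀ x ∈ N ⊔ A', ∀ g : G, g * x * g⁻¹ ∈ N ⊔ A' := by
    intro x hx g
    have := (N ⊔ A').mul_mem (mem_sup_left (hXc x hx g)) hx
    rwa [inv_mul_cancel_right] at this
  -- decompositions
  obtain ⟨QA, SA, hQA, hSA, hQAp, hSAp, hdA⟩ := abelian_decomp hA p
  obtain ⟨QB, SB, hQB, hSB, hQBp, hSBp, hdB⟩ := abelian_decomp hB p
  have hCSA : ∀ x ∈ N ⊔ A', (∀ s ∈ SA, s * x = x * s) → x ∈ A' := by
    intro x hx hxs
    obtain ⟨n, hn, a, ha, rfl⟩ := (mem_sup_of_le_normalizer' (le_normalizer_of_normal A' N)).1 hx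
    have hn1 : n = 1 := by
      rw [← Subgroup.mem_bot, ← hNA]
      refine ⟨hn, Subgroup.mem_centralizer_iff.2 ?_⟩
      intro y hy
      obtain ⟨q, hq, s, hs', rfl⟩ := hdA y hy
      have h1 : q * n = n * q := Subgroup.mem_centralizer_iff.1 (hNQ QA hQAp hn) q hq
      have h2 : s * n = n * s := by
        have h3 := hxs s hs'
        have h4 : (s * (n * a)) * a⁻¹ = (n * a * s) * a⁻¹ := by rw [h3]
        rw [mul_assoc n a s, hA a ha.1 s (hSA hs')] at h4
        have e1 : s * (n * a) * a⁻¹ = s * n := by group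
        have e2 : n * (s * a) * a⁻¹ = n * s := by group
        rwa [e1, e2] at h4
      rw [mul_assoc, h2, ← mul_assoc, h1, mul_assoc]
    rw [hn1, one_mul]; exact ha
  have hCSB : ∀ x ∈ N ⊔ A', (∀ s ∈ SB, s * x = x * s) → x ∈ B := by
    intro x hx hxs
    rw [hX] at hx
    obtain ⟨n, hn, a, ha, rfl⟩ := (mem_sup_of_le_normalizer' (le_normalizer_of_normal B' N)).1 hx
    have hn1 : n = 1 := by
      rw [← Subgroup.mem_bot, ← hNB]
      refine ⟨hn, Subgroup.mem_centralizer_iff.2 ?_⟩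
      intro y hy
      obtain ⟨q, hq, s, hs', rfl⟩ := hdB y hy
      have h1 : q * n = n * q := Subgroup.mem_centralizer_iff.1 (hNQ QB hQBp hn) q hq
      have h2 : s * n = n * s := by
        have h3 := hxs s hs'
        have h4 : (s * (n * a)) * a⁻¹ = (n * a * s) * a⁻¹ := by rw [h3]
        rw [mul_assoc n a s, hB a ha.1 s (hSB hs')] at h4
        have e1 : s * (n * a) * a⁻¹ = s * n := by group
        have e2 : n * (s * a) * a⁻¹ = n * s := by group
        rwa [e1, e2] at h4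
      rw [mul_assoc, h2, ← mul_assoc, h1, mul_assoc]
    rw [hn1, one_mul]; exact ha.1
  -- a common p'-subgroup
  obtain ⟨T, hT, hSAT, hSBT⟩ : ∃ T : Subgroup G, ¬ p ∣ Nat.card T ∧ SA ≤ T ∧ SB ≤ T := by
    obtain ⟨E, hE1, hE2, hE3⟩ := hallD_of_solvable (G := G) ({p}ᶜ : Set ℕ)
    have hpi : ∀ Y : Subgroup G, ¬ p ∣ Nat.card Y → PiNum ({p}ᶜ : Set ℕ) (Nat.card Y) := by
      intro Y hY q hq hqd
      rintro rfl
      exact hY hqd
    obtain ⟨x, hx⟩ := hE3 SA (hpi SA hSAp)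
    obtain ⟨y, hy⟩ := hE3 SB (hpi SB hSBp)
    obtain ⟨z, hz1, hz2⟩ := fact_sim_conj (A := SA) (B := SB) hf (by
        rw [le_normalizer_iff_conj]
        intro a ha s hs'
        rw [hA a ha s (hSA hs'), mul_inv_cancel_right]; exact hs') (by
        rw [le_normalizer_iff_conj]
        intro a ha s hs'
        rw [hB a ha s (hSB hs'), mul_inv_cancel_right]; exact hs') x y
    refine ⟨MulAut.conj z⁻¹ • E, ?_, ?_, ?_⟩
    · rw [card_conj_smul]
      intro h
      exact hE1 p hp h rfl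
    · have h1 := conj_smul_mono z⁻¹ (hz1.le.trans hx)
      rwa [← mul_smul, ← map_mul, inv_mul_cancel, map_one, one_smul] at h1
    · have h1 := conj_smul_mono z⁻¹ (hz2.le.trans hy)
      rwa [← mul_smul, ← map_mul, inv_mul_cancel, map_one, one_smul] at h1
  -- p'-elements of K centralize X
  have hcX : ∀ c ∈ commutator G, ¬ p ∣ orderOf c → ∀ x ∈ N ⊔ A', c * x = x * c := by
    intro c hc hcp x hx
    set m := c * x * c⁻¹ * x⁻¹ with hm
    have hmN : m ∈ N := hXc x hx c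
    have hcm : ∀ k : ℕ, c ^ k * x * (c ^ k)⁻¹ = m ^ k * x := by
      intro k
      induction k with
      | zero => simp
      | succ k ih =>
        have h1 : c * m = m * c := hK c hc m (hNK hmN)
        have h2 : c * m ^ k = m ^ k * c := (Commute.pow_right (show Commute c m from h1) k).eq
        calc c ^ (k + 1) * x * (c ^ (k + 1))⁻¹ = c * (c ^ k * x * (c ^ k)⁻¹) * c⁻¹ := by rw [pow_succ']; group
          _ = c * m ^ k * x * c⁻¹ := by rw [ih]; group
          _ = m ^ k * (c * x * c⁻¹ * x⁻¹) * x := by rw [h2]; group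
          _ = m ^ (k + 1) * x := by rw [← hm, pow_succ]
    have h3 := hcm (orderOf c)
    rw [pow_orderOf_eq_one, one_mul, inv_one, mul_one] at h3
    have h4 : m ^ orderOf c = 1 := by
      have := mul_right_cancel (h3.symm.trans (one_mul x).symm)
      exact this
    have h5 : m ^ p = 1 := hNp m hmN
    have h6 : orderOf m ∣ 1 := by
      have : Nat.Coprime (orderOf c) p := ((Nat.Prime.coprime_iff_not_dvd hp).2 hcp).symm
      rw [← this]
      exact Nat.dvd_gcd (orderOf_dvd_of_pow_eq_one h4) (orderOf_dvd_of_pow_eq_one h5)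
    have h7 : m = 1 := orderOf_eq_one_iff.1 (Nat.dvd_one.1 h6)
    rw [hm] at h7
    have h8 : c * x * c⁻¹ = x := mul_inv_eq_one.1 h7
    exact mul_inv_eq_iff_eq_mul.1 h8
  -- conclusion: A' = 1
  have hA'bot : A' = ⊥ := by
    rw [eq_bot_iff]
    intro x hx
    have hxX : x ∈ N ⊔ A' := mem_sup_right hx
    rw [Subgroup.mem_bot]
    apply hAB x hx.1
    apply hCSB x hxX
    intro b hb
    -- b x b⁻¹ ∈ A'
    have h1 : b * x * b⁻¹ ∈ A' := by
      apply hCSA _ (hXn x hxX b)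
      intro s hs'
      have hc : ⁅s, b⁆ ∈ commutator G := Subgroup.commutator_mem_commutator (mem_top _) (mem_top _)
      have hcp : ¬ p ∣ orderOf ⁅s, b⁆ := by
        intro h
        apply hT
        have hcT : ⁅s, b⁆ ∈ T := by
          rw [commutatorElement_def]
          exact T.mul_mem (T.mul_mem (T.mul_mem (hSAT hs') (hSBT hb)) (T.inv_mem (hSAT hs'))) (T.inv_mem (hSBT hb))
        exact h.trans (Subgroup.orderOf_dvd_natCard T hcT)
      have h2 := hcX _ hc hcp _ (hXn x hxX b)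
      have h3 : s * x = x * s := hA s (hSA hs') x hx.1
      rw [commutatorElement_def] at h2
      calc s * (b * x * b⁻¹) = (s * b * s⁻¹ * b⁻¹) * (b * (s * x) * s⁻¹ * b⁻¹) * (s * b * s⁻¹ * b⁻¹)⁻¹ * s := by group
        _ = (s * b * s⁻¹ * b⁻¹) * (b * x * b⁻¹) * (s * b * s⁻¹ * b⁻¹)⁻¹ * s := by rw [h3]; group
        _ = (b * x * b⁻¹) * (s * b * s⁻¹ * b⁻¹) * (s * b * s⁻¹ * b⁻¹)⁻¹ * s := by rw [h2]
        _ = b * x * b⁻¹ * s := by group
    have h2 : b * x * b⁻¹ * x⁻¹ ∈ A ⊓ N := ⟨A.mul_mem h1.1 (A.inv_mem hx.1), hXc x hxX b⟩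
    rw [hANi, Subgroup.mem_bot] at h2
    exact mul_inv_eq_iff_eq_mul.1 (mul_inv_eq_one.1 h2)
  apply hNne
  rw [← Subgroup.card_eq_one, ← hcardA', hA'bot, Subgroup.card_bot]

end CfsgH1

namespace CfsgH1

open Subgroup Cfsg

theorem abFact_normal' {G : Type*} [Group G] [Finite G] [Nontrivial G] {A B : Subgroup G} (hA : ∀ x ∈ A, ∀ y ∈ A, x * y = y * x) 
    (hB : ∀ x ∈ B, ∀ y ∈ B, x * y = y * x) (hf : IsFact A B) : 
    ∃ N : Subgroup G, N.Normal ∧ N ≠ ⊥ ∧ (N ≤ A ∨ N ≤ B) := by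
  have h1 := ito_derived hA hB hf
  haveI : Group.IsSolvable G := ⟨⟨2, h1⟩⟩
  refine abFact_normal hA hB hf ?_
  intro x hx y hy
  have h2 : ⁅x, y⁆ ∈ derivedSeries G 2 := by
    rw [derivedSeries_succ]
    rw [← derivedSeries_one] at hx hy
    exact Subgroup.commutator_mem_commutator hx hy
  rw [h1, Subgroup.mem_bot] at h2
  exact commutatorElement_eq_one_iff_mul_comm.1 h2

theorem cyclic_prod_supersolvable (n : ℕ) : ∀ (G : Type*) [Group G] [Finite G], Nat.card G = n → ∀ A B : Subgroup G, IsCyclic A → IsCyclic B → 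
    IsFact A B → IsSupersolvable G := by
  induction n using Nat.strong_induction_on with
  | _ n IH =>
  intro G _ _ hn A B hA hB hf
  rcases subsingleton_or_nontrivial G with h | h
  · haveI : IsCyclic G := ⟨(1 : G), fun x => ⟨0, Subsingleton.elim _ _⟩⟩
    exact supersolvable_of_isCyclic
  have hcA : ∀ x ∈ A, ∀ y ∈ A, x * y = y * x := by
    intro x hx y hy
    exact congrArg Subtype.val (IsCyclic.commGroup.mul_comm (⟨x, hx⟩ : A) ⟨y, hy⟩)
  have hcB : ∀ x ∈ B, ∀ y ∈ B, x * y = y * x := by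
    intro x hx y hy
    exact congrArg Subtype.val (IsCyclic.commGroup.mul_comm (⟨x, hx⟩ : B) ⟨y, hy⟩)
  obtain ⟨N, hN, hNne, hNAB⟩ := abFact_normal' hcA hcB hf
  haveI := hN
  have hcyc : ∀ C : Subgroup G, IsCyclic C → N ≤ C → IsCyclic N := by
    intro C hC h
    haveI := hC
    exact isCyclic_of_injective (Subgroup.inclusion h) (Subgroup.inclusion_injective h)
  haveI : IsCyclic N := by
    rcases hNAB with h | h
    · exact hcyc A hA h
    · exact hcyc B hB h
  apply supersolvable_of_cyclic_normal N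
  refine IH (Nat.card (G ⧸ N)) (by rw [← hn]; exact card_quotient_lt hNne) (G ⧸ N) rfl (A.map (QuotientGroup.mk' N)) (B.map (QuotientGroup.mk' N)) 
    ?_ ?_ (hf.map _ (QuotientGroup.mk'_surjective N))
  · exact isCyclic_of_surjective _ ((QuotientGroup.mk' N).subgroupMap_surjective A)
  · exact isCyclic_of_surjective _ ((QuotientGroup.mk' N).subgroupMap_surjective B)

end CfsgH1
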