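import Cfsg.Agent.H7.Critical
import Cfsg.Agent.H1.Meta

set_option autoImplicit false

/-! Prime divisors of automorphism groups of p-groups of rank two. -/

open Cfsg Subgroup
open scoped Pointwise commutatorElement

namespace CfsgH1

universe u v

theorem card_fixed_modEq {H : Type u} [Group H] [Finite H] {q : ℕ} [hq : Fact q.Prime] (ψ : MulAut H) (hψ : ψ ^ q = 1) : 
    Nat.card H ≡ Nat.card (MonoidHom.eqLocus ψ.toMonoidHom (MonoidHom.id H)) [MOD q] := by
  have hp : IsPGroup q (Subgroup.zpowers ψ) := by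
    rintro ⟨_, i, rfl⟩
    refine ⟨1, ?_⟩
    apply Subtype.ext
    change (ψ ^ i) ^ q ^ 1 = 1
    rw [pow_one, ← zpow_natCast, ← _root_.zpow_mul, mul_comm, _root_.zpow_mul, zpow_natCast, hψ, _root_.one_zpow]
  have h1 := hp.card_modEq_card_fixedPoints H
  have h2 : Nat.card (MulAction.fixedPoints (Subgroup.zpowers ψ) H) = Nat.card (MonoidHom.eqLocus ψ.toMonoidHom (MonoidHom.id H)) := by
    apply Nat.card_congr
    refine Equiv.subtypeEquivRight fun x => ?_
    constructor
    · intro h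
      exact h ⟨ψ, Subgroup.mem_zpowers ψ⟩
    · intro h
      have h3 : Subgroup.zpowers ψ ≤ MulAction.stabilizer (MulAut H) x := by
        rw [Subgroup.zpowers_le]
        exact h
      intro g
      exact h3 g.2
  rw [h2] at h1
  exact h1

/-- the same for an invariant subgroup -/
theorem card_fixed_modEq_sub {R : Type u} [Group R] [Finite R] {q : ℕ} [hq : Fact q.Prime] (φ : MulAut R) (hφ : φ ^ q = 1) (H : Subgroup R) (hH : ∀ x ∈ H, φ x ∈ H) : 
    Nat.card H ≡ Nat.card (H ⊓ MonoidHom.eqLocus φ.toMonoidHom (MonoidHom.id R) : Subgroup R) [MOD q] := by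
  have hmap : H.map φ.toMonoidHom = H := by
    apply Subgroup.eq_of_le_of_card_ge
    · rintro _ ⟨x, hx, rfl⟩; exact hH x hx
    · rw [Subgroup.card_map_of_injective φ.injective]
  let ψ : MulAut H := (φ.subgroupMap H).trans (MulEquiv.subgroupCongr hmap)
  have hψx : ∀ x : H, ((ψ x : H) : R) = φ x := fun x => rfl
  have hψ : ψ ^ q = 1 := by
    have h1 : ∀ (n : ℕ) (x : H), (((ψ ^ n) x : H) : R) = (φ ^ n) x := by
      intro n
      induction n with
      | zero => intro x; rfl
      | succ n ih =>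
        intro x
        rw [pow_succ', pow_succ', MulAut.mul_apply, MulAut.mul_apply, hψx, ih]
    ext x
    rw [h1, hφ]; rfl
  have h1 := card_fixed_modEq ψ hψ
  have h2 : Nat.card (H ⊓ MonoidHom.eqLocus φ.toMonoidHom (MonoidHom.id R) : Subgroup R) = Nat.card (MonoidHom.eqLocus ψ.toMonoidHom (MonoidHom.id H)) := by
    rw [← Subgroup.card_map_of_injective (Subgroup.subtype_injective H)]
    congr 1
    have : (MonoidHom.eqLocus ψ.toMonoidHom (MonoidHom.id H)).map H.subtype = H ⊓ MonoidHom.eqLocus φ.toMonoidHom (MonoidHom.id R) := by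
      ext x
      constructor
      · rintro ⟨y, hy, rfl⟩
        refine ⟨y.2, ?_⟩
        have : ψ y = y := hy
        change φ (y : R) = y
        rw [← hψx, this]
      · rintro ⟨hx, hx2⟩
        refine ⟨⟨x, hx⟩, ?_, rfl⟩
        change ψ ⟨x, hx⟩ = ⟨x, hx⟩
        apply Subtype.ext
        rw [hψx]
        exact hx2
    rw [this]
  rw [h2]; exact h1

/-- **S0640** -/
theorem aut_prime_rank_two {R : Type u} [Group R] [Finite R] {p : ℕ} [hp : Fact p.Prime] (hp2 : p ≠ 2) (hR : IsPGroup p R) (hrk : PRankLE p 2 R) (q : ℕ) (hq : q.Prime) (hqp : q ≠ p) (hdvd : q ∣ Nat.card (MulAut R)) : 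
    q ∣ p ^ 2 - 1 := by
  haveI : Fact q.Prime := ⟨hq⟩
  obtain ⟨φ, hφ⟩ := exists_prime_orderOf_dvd_card' (G := MulAut R) q hdvd
  have hφq : φ ^ q = 1 := by rw [← hφ]; exact pow_orderOf_eq_one φ
  have hφ1 : φ ≠ 1 := by
    rintro rfl
    rw [orderOf_one] at hφ
    exact hq.one_lt.ne hφ
  have hcop : (orderOf φ).Coprime p := by rw [hφ]; exact (Nat.coprime_primes hq hp.out).2 hqp
  obtain ⟨A, hAc, hAp, hAA, -, -, hAφ⟩ := CfsgH7.exists_critical hR
  have hAφ' : ∀ x ∈ A, φ x ∈ A := by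
    intro x hx
    have := Subgroup.characteristic_iff_map_le.1 hAc φ
    exact this ⟨x, hx, rfl⟩
  -- the power map on A
  have hcomm : ∀ x ∈ A, ∀ y ∈ A, ∀ z ∈ A, Commute ⁅x, y⁆ z := by
    intro x hx y hy z hz
    have := hAA (Subgroup.commutator_mem_commutator hx hy)
    exact (Subgroup.mem_centralizer_iff.1 this z hz).symm
  have hcp : ∀ x ∈ A, ∀ y ∈ A, ⁅x, y⁆ ^ p = 1 := by
    intro x hx y hy
    have h1 : ∀ n : ℕ, ⁅x ^ n, y⁆ = ⁅x, y⁆ ^ n := by
      intro n
      induction n with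
      | zero => simp
      | succ n ih =>
        have e : ⁅x ^ (n + 1), y⁆ = x * ⁅x ^ n, y⁆ * x⁻¹ * ⁅x, y⁆ := by rw [pow_succ']; simp only [commutatorElement_def]; group
        have h2 : Commute (⁅x, y⁆ ^ n) x := (hcomm x hx y hy x hx).pow_left n
        rw [e, ih, ← h2.eq, mul_inv_cancel_right, pow_succ]
    rw [← h1]
    have h2 := hAp x hx
    exact commutatorElement_eq_one_iff_mul_comm.2 ((Subgroup.mem_centralizer_iff.1 h2.2 y hy).symm)
  have hmul : ∀ x ∈ A, ∀ y ∈ A, (x * y) ^ p = x ^ p * y ^ p := by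
    intro x hx y hy
    have key := pow_p_class_two (X := A) hp.out hp2 (x := ⟨x, hx⟩) (y := ⟨y, hy⟩) (fun z => by
      apply Subtype.ext
      exact hcomm y⁻¹ (inv_mem hy) x⁻¹ (inv_mem hx) z z.2) (by
      apply Subtype.ext
      exact hcp y⁻¹ (inv_mem hy) x⁻¹ (inv_mem hx))
    exact congrArg Subtype.val key
  let B : Subgroup R := 
    { carrier := {x | x ∈ A ∧ x ^ p = 1}
      one_mem' := ⟨one_mem _, one_pow _⟩
      mul_mem' := by
        rintro x y ⟨hx1, hx2⟩ ⟨hy1, hy2⟩
        exact ⟨mul_mem hx1 hy1, by rw [hmul x hx1 y hy1, hx2, hy2, one_mul]⟩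
      inv_mem' := by
        rintro x ⟨hx1, hx2⟩
        exact ⟨inv_mem hx1, by rw [inv_pow, hx2, inv_one]⟩ }
  have hBA : B ≤ A := fun x hx => hx.1
  have hBφ : ∀ x ∈ B, φ x ∈ B := by
    rintro x ⟨hx1, hx2⟩
    exact ⟨hAφ' x hx1, by rw [← map_pow, hx2, map_one]⟩
  -- φ nontrivial on B
  have hBnt : ¬ ∀ x ∈ B, φ x = x := by
    intro hB
    apply hφ1
    apply hAφ φ hcop
    have key : ∀ k, ∀ a ∈ A, a ^ p ^ k = 1 → φ a = a := by
      intro k
      induction k with
      | zero =>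
        intro a ha h
        rw [pow_zero, pow_one] at h
        rw [h, map_one]
      | succ k ih =>
        intro a ha h
        have h1 : φ (a ^ p) = a ^ p := ih (a ^ p) (pow_mem ha p) (by rw [← pow_mul, ← pow_succ']; exact h)
        have h2 : (a⁻¹ * φ a) ^ p = 1 := by
          rw [hmul _ (inv_mem ha) _ (hAφ' a ha), ← map_pow, h1, inv_pow, inv_mul_cancel]
        have h3 : φ (a⁻¹ * φ a) = a⁻¹ * φ a := hB _ ⟨mul_mem (inv_mem ha) (hAφ' a ha), h2⟩
        exact CfsgH7.aut_fix_of_mul hR hcop (t := a) (z := a⁻¹ * φ a) (by group) h3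
    intro a ha
    obtain ⟨k, hk⟩ := hR a
    exact key k a ha hk
  set F := MonoidHom.eqLocus φ.toMonoidHom (MonoidHom.id R) with hF
  obtain ⟨m, hm⟩ := IsPGroup.iff_card.1 (hR.to_subgroup B)
  obtain ⟨j, hj⟩ := IsPGroup.iff_card.1 (hR.to_subgroup (B ⊓ F))
  have hlt : Nat.card (B ⊓ F : Subgroup R) < Nat.card B := by
    refine lt_of_le_of_ne (Subgroup.card_le_of_le inf_le_left) fun h => hBnt ?_
    have h1 : B ⊓ F = B := Subgroup.eq_of_le_of_card_ge inf_le_left h.ge
    intro x hx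
    have : x ∈ B ⊓ F := by rw [h1]; exact hx
    exact this.2
  rw [hm, hj] at hlt
  have hjm := (Nat.pow_lt_pow_iff_right hp.out.one_lt).1 hlt
  have hmod := card_fixed_modEq_sub φ hφq B hBφ
  rw [hm, hj] at hmod
  have hqd : q ∣ p ^ (m - j) - 1 := by
    have h1 : q ∣ p ^ m - p ^ j := (Nat.modEq_iff_dvd' hlt.le).1 hmod.symm
    have h2 : p ^ m - p ^ j = p ^ j * (p ^ (m - j) - 1) := by
      rw [Nat.mul_sub, ← pow_add, mul_one]
      congr 2; omega
    rw [h2] at h1
    exact (Nat.Coprime.dvd_of_dvd_mul_left ((Nat.coprime_primes hq hp.out).2 hqp |>.pow_right j) h1)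
  have hp1 : ∀ d, d ∣ 2 → p ^ d - 1 ∣ p ^ 2 - 1 := fun d hd => Nat.pow_sub_one_dvd_pow_sub_one p hd
  -- rank
  have hrkB : ∀ E : Subgroup B, (∀ a ∈ E, ∀ b ∈ E, a * b = b * a) → Nat.card E ≤ p ^ 2 := by
    intro E hE
    rw [← Subgroup.card_map_of_injective (Subgroup.subtype_injective B)]
    apply hrk
    · constructor
      constructor
      rintro ⟨_, ⟨a, ha, rfl⟩⟩ ⟨_, ⟨b, hb, rfl⟩⟩
      apply Subtype.ext
      change (a : R) * b = b * a
      exact congrArg Subtype.val (hE a ha b hb)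
    · rintro _ ⟨a, ha, rfl⟩
      exact a.2.2
  have hBp : IsPGroup p B := hR.to_subgroup B
  have hm3 : m ≤ 3 := by
    -- maximal normal abelian subgroup of B
    obtain ⟨E, -, hEn, hEc, -, hEC⟩ := CfsgH3.exists_max_elem hp2 hBp ⊥ inferInstance (by
      intro a ha b hb; rw [Subgroup.mem_bot] at ha hb; rw [ha, hb]) (by intro b hb; rw [Subgroup.mem_bot] at hb; rw [hb, one_pow])
    haveI := hEn
    have h1 := CfsgH3.centralizer_index_le hBp hEc (hrkB E hEc)
    have h2 : Subgroup.centralizer (E : Set B) ≤ E := fun x hx => hEC x hx (Subtype.ext x.2.2)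
    have h3 := Subgroup.card_mul_index (Subgroup.centralizer (E : Set B))
    have h4 : Nat.card (Subgroup.centralizer (E : Set B)) ≤ p ^ 2 := (Subgroup.card_le_of_le h2).trans (hrkB E hEc)
    have h5 : p ^ m ≤ p ^ 3 := by
      rw [← hm, ← h3, pow_succ]
      exact Nat.mul_le_mul h4 h1
    exact (Nat.pow_le_pow_iff_right hp.out.one_lt).1 h5
  by_cases hmj : m - j ≤ 2
  · refine hqd.trans (hp1 _ ?_)
    have : m - j = 1 ∨ m - j = 2 := by omega
    rcases this with h | h
    · rw [h]; norm_num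
    · rw [h]
  · -- m = 3, j = 0; B nonabelian with centre of order p
    have hm' : m = 3 := by omega
    have hj0 : j = 0 := by omega
    rw [hm'] at hm
    rw [hj0, pow_zero] at hj
    have hBF : B ⊓ F = ⊥ := Subgroup.eq_bot_of_card_eq _ hj
    -- the centre
    set Z := (Subgroup.center B).map B.subtype with hZ
    have hZB : Z ≤ B := Subgroup.map_subtype_le _
    have hZφ : ∀ x ∈ Z, φ x ∈ Z := by
      rintro _ ⟨x, hx, rfl⟩
      have hmapB : ∀ y ∈ B, ∃ z ∈ B, φ z = y := by
        have hmap : B.map φ.toMonoidHom = B := by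
          apply Subgroup.eq_of_le_of_card_ge
          · rintro _ ⟨x, hx, rfl⟩; exact hBφ x hx
          · rw [Subgroup.card_map_of_injective φ.injective]
        intro y hy
        rw [← hmap] at hy
        obtain ⟨z, hz, hzy⟩ := hy
        exact ⟨z, hz, hzy⟩
      refine ⟨⟨φ x, hBφ x x.2⟩, ?_, rfl⟩
      rw [SetLike.mem_coe, Subgroup.mem_center_iff]
      rintro ⟨y, hy⟩
      obtain ⟨z, hz, rfl⟩ := hmapB y hy
      apply Subtype.ext
      change φ z * φ x = φ x * φ z
      rw [← map_mul, ← map_mul]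
      congr 1
      exact congrArg Subtype.val (Subgroup.mem_center_iff.1 hx ⟨z, hz⟩)
    have hmodZ := card_fixed_modEq_sub φ hφq Z hZφ
    have hZF : Z ⊓ F = ⊥ := by
      rw [eq_bot_iff, ← hBF]
      exact inf_le_inf_right _ hZB
    rw [hZF, Subgroup.card_bot] at hmodZ
    have hZcard : Nat.card Z = Nat.card (Subgroup.center B) := Subgroup.card_map_of_injective (Subgroup.subtype_injective B)
    obtain ⟨z, hz⟩ := IsPGroup.iff_card.1 (hBp.to_subgroup (Subgroup.center B))
    haveI : Nontrivial B := by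
      rw [← Finite.one_lt_card_iff_nontrivial, hm]
      exact Nat.one_lt_pow (by norm_num) hp.out.one_lt
    haveI : Nontrivial (Subgroup.center B) := hBp.center_nontrivial
    have hz0 : z ≠ 0 := by
      rintro rfl
      rw [pow_zero] at hz
      have : 1 < Nat.card (Subgroup.center B) := Finite.one_lt_card
      omega
    have hz2 : z ≤ 2 := by
      have h1 := hrkB (Subgroup.center B) (fun a ha b _ => (Subgroup.mem_center_iff.1 ha b).symm)
      rw [hz] at h1
      exact (Nat.pow_le_pow_iff_right hp.out.one_lt).1 h1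
    rw [hZcard, hz] at hmodZ
    have h1 : q ∣ p ^ z - 1 := (Nat.modEq_iff_dvd' (Nat.one_le_pow _ _ hp.out.pos)).1 hmodZ.symm
    refine h1.trans (hp1 _ ?_)
    have : z = 1 ∨ z = 2 := by omega
    rcases this with h | h
    · rw [h]; norm_num
    · rw [h]

theorem lt_of_dvd_sq_sub_one {p q : ℕ} (hp : p.Prime) (hp2 : p ≠ 2) (hq : q.Prime) (hqp : q ≠ p) (h : q ∣ p ^ 2 - 1) : q < p := by
  have h1 : p ^ 2 - 1 = (p + 1) * (p - 1) := by
    have := Nat.sq_sub_sq p 1
    rw [one_pow] at this; exact this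
  have hp3 : 3 ≤ p := by
    have := hp.two_le
    omega
  rw [h1] at h
  rcases (Nat.Prime.dvd_mul hq).1 h with h2 | h2
  · have h3 := Nat.le_of_dvd (by omega) h2
    rcases Nat.lt_or_ge q p with h4 | h4
    · exact h4
    · exfalso
      have : q = p + 1 := by omega
      rcases hp.eq_two_or_odd' with h5 | h5
      · exact hp2 h5
      · have : Even q := by rw [this]; exact h5.add_one
        have := (Nat.Prime.even_iff hq).1 this
        omega
  · have h3 := Nat.le_of_dvd (by omega) h2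
    omega

end CfsgH1
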