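import Cfsg.Agent.H1.Bender

set_option autoImplicit false

open Cfsg Subgroup
open scoped Pointwise commutatorElement

namespace CfsgH1

universe u v

variable {G : Type u} [Group G] {p : ℕ}

/-- `K` is a component of `M` -/
def CompOf (K M : Subgroup G) : Prop := K ≤ M ∧ IsComponent (K.subgroupOf M)

theorem CompOf.of_le {K H M : Subgroup G} (h : CompOf K M) (hKH : K ≤ H) (hHM : H ≤ M) : CompOf K H := by
  refine ⟨hKH, ?_, ?_⟩
  · have h1 := h.2.1.comap (Subgroup.inclusion hHM)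
    exact h1
  · rw [CfsgH2.isQuasisimple_subgroupOf hKH, ← CfsgH2.isQuasisimple_subgroupOf h.1]
    exact h.2.2

theorem CompOf.quasi {K M : Subgroup G} (h : CompOf K M) : IsQuasisimple K := (CfsgH2.isQuasisimple_subgroupOf h.1).1 h.2.2

theorem CompOf.commutator_eq_bot {K L M : Subgroup G} (hK : CompOf K M) (hL : CompOf L M) (hne : K ≠ L) : ⁅K, L⁆ = ⊥ := by
  rw [← CfsgH2.commutator_subgroupOf_eq_bot_iff hK.1 hL.1]
  apply CfsgH2.IsComponent.commutator_eq_bot_of_ne hK.2 hL.2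
  intro h
  apply hne
  have h1 := congrArg (Subgroup.map M.subtype) h
  rwa [Subgroup.map_subgroupOf_eq_of_le hK.1, Subgroup.map_subgroupOf_eq_of_le hL.1] at h1

theorem CompOf.commutator_solvable {K A M : Subgroup G} (hK : CompOf K M) (hAM : A ≤ M) (hn : M ≤ normalizer (A : Set G)) (hs : Group.IsSolvable A) : ⁅K, A⁆ = ⊥ := by
  rw [← CfsgH2.commutator_subgroupOf_eq_bot_iff hK.1 hAM]
  apply CfsgH2.IsComponent.commutator_eq_bot_of_solvable_subnormal hK.2 (normal_subgroupOf_of_le_normalizer hn).isSubnormal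
  haveI := hs
  exact Group.isSolvable_of_isSolvable_injective (f := (Subgroup.subgroupOfEquivOfLe hAM).toMonoidHom) (Subgroup.subgroupOfEquivOfLe hAM).injective

/-- generalized Fitting subgroup, internally -/
def FSt (M : Subgroup G) : Subgroup G := (generalizedFittingSubgroup ↥M).map M.subtype

/-- layer, internally -/
def EL (M : Subgroup G) : Subgroup G := (layer ↥M).map M.subtype

theorem FSt_eq (M : Subgroup G) : FSt M = EL M ⊔ FT M := by
  unfold FSt EL FT generalizedFittingSubgroup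
  rw [Subgroup.map_sup]

theorem CompOf.le_EL {K M : Subgroup G} (h : CompOf K M) : K ≤ EL M := by
  intro x hx
  exact ⟨⟨x, h.1 hx⟩, CfsgH2.IsComponent.le_layer h.2 (Subgroup.mem_subgroupOf.2 hx), rfl⟩

theorem EL_le_iff {M C : Subgroup G} : EL M ≤ C ↔ ∀ K, CompOf K M → K ≤ C := by
  constructor
  · intro h K hK
    exact hK.le_EL.trans h
  · intro h
    unfold EL
    rw [Subgroup.map_le_iff_le_comap]
    refine sSup_le fun K hK => ?_
    rw [← Subgroup.map_le_iff_le_comap]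
    apply h
    refine ⟨Subgroup.map_subtype_le _, ?_⟩
    have h2 : (K.map M.subtype).subgroupOf M = K := by
      rw [Subgroup.subgroupOf, Subgroup.comap_map_eq_self_of_injective M.subtype_injective]
    rw [h2]; exact hK

theorem centralizer_FSt_le [Finite G] (M : Subgroup G) : M ⊓ centralizer (FSt M : Set G) ≤ FT M := by
  rintro x ⟨hxM, hxC⟩
  refine ⟨⟨x, hxM⟩, CfsgH2.centralizer_generalizedFittingSubgroup_le_fittingSubgroup ?_, rfl⟩
  rw [Subgroup.mem_centralizer_iff]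
  intro y hy
  exact Subtype.ext (Subgroup.mem_centralizer_iff.1 hxC y ⟨y, hy, rfl⟩)

theorem FT_solvable [Finite G] (M : Subgroup G) : Group.IsSolvable (FT M) := isNilpotent_isSolvable (FT_nilpotent M)

theorem compOf_transfer [Finite G] {M₁ M₂ : Subgroup G} (h1 : FSt M₁ ≤ M₂) (h2 : FSt M₂ ≤ M₁) {K : Subgroup G} (hK : CompOf K M₁) : CompOf K M₂ := by
  by_contra hno
  have hKF : K ≤ FSt M₁ := by rw [FSt_eq]; exact hK.le_EL.trans le_sup_left
  have hKM2 : K ≤ M₂ := hKF.trans h1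
  have hKH : CompOf K (M₁ ⊓ M₂) := hK.of_le (le_inf hK.1 hKM2) inf_le_left
  have hFT : FT M₂ ≤ M₁ := by
    refine le_trans ?_ h2
    rw [FSt_eq]; exact le_sup_right
  have h3 : K ≤ centralizer (FSt M₂ : Set G) := by
    rw [Subgroup.le_centralizer_iff, FSt_eq]
    refine sup_le ?_ ?_
    · rw [EL_le_iff]
      intro L hL
      have hLH : CompOf L (M₁ ⊓ M₂) := by
        refine hL.of_le (le_inf ?_ hL.1) inf_le_right
        refine hL.le_EL.trans (le_trans ?_ h2)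
        rw [FSt_eq]; exact le_sup_left
      have hne : L ≠ K := fun h => hno (h ▸ hL)
      exact Subgroup.commutator_eq_bot_iff_le_centralizer.1 (hLH.commutator_eq_bot hKH hne)
    · rw [Subgroup.le_centralizer_iff]
      apply Subgroup.commutator_eq_bot_iff_le_centralizer.1
      exact hKH.commutator_solvable (le_inf hFT (FT_le M₂)) (inf_le_right.trans (le_normalizer_FT M₂)) (FT_solvable M₂)
  have h4 : K ≤ FT M₂ := (le_inf hKM2 h3).trans (centralizer_FSt_le M₂)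
  apply CfsgH2.IsQuasisimple.not_isSolvable hK.quasi
  haveI := FT_solvable M₂
  exact Group.isSolvable_of_isSolvable_injective (f := Subgroup.inclusion h4) (Subgroup.inclusion_injective h4)

theorem le_normalizer_EL [Finite G] (M : Subgroup G) : M ≤ normalizer (EL M : Set G) := 
  le_normalizer.trans (normalizer_le_map_characteristic (K := M) (layer M))

theorem PP.eq_of_both {M₁ M₂ A : Subgroup G} (hP : PP M₁ M₂) (hA : A ≠ ⊥) (hle : A ≤ M₁ ⊓ M₂) (h1 : M₁ ≤ normalizer (A : Set G)) (h2 : M₂ ≤ normalizer (A : Set G)) : M₁ = M₂ := by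
  obtain ⟨h3, h4⟩ := hP A hA hle
  have h5 := h3 h1
  have h6 := h4 h2
  rw [inf_eq_left.2 h2] at h5
  rw [inf_eq_left.2 h1] at h6
  exact h6.trans h5.symm

theorem EL_eq_bot [Finite G] {M₁ M₂ : Subgroup G} (hne : M₁ ≠ M₂) (hP : PP M₁ M₂) (h1 : FSt M₁ ≤ M₂) (h2 : FSt M₂ ≤ M₁) : EL M₁ = ⊥ := by
  by_contra hb
  have he : EL M₁ = EL M₂ := by
    apply le_antisymm
    · rw [EL_le_iff]
      intro K hK
      exact (compOf_transfer h1 h2 hK).le_EL
    · rw [EL_le_iff]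
      intro K hK
      exact (compOf_transfer h2 h1 hK).le_EL
  apply hne
  refine hP.eq_of_both hb (le_inf (Subgroup.map_subtype_le _) ?_) (le_normalizer_EL M₁) ?_
  · refine le_trans ?_ h1
    rw [FSt_eq]; exact le_sup_left
  · rw [he]; exact le_normalizer_EL M₂

theorem OO_ne_bot_of_dvd [Finite G] {F : Subgroup G} (hF : Group.IsNilpotent F) {q : ℕ} [hq : Fact q.Prime] (hd : q ∣ Nat.card F) : OO q F ≠ ⊥ := by
  intro hb
  have h1 := OO_sup_OP (p := q) hF
  rw [hb, bot_sup_eq] at h1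
  have h2 := OP_coprime (p := q) F
  rw [h1] at h2
  exact (hq.out.coprime_iff_not_dvd.1 h2.symm) hd

/-- **Bender's theorem** on primitive pairs -/
theorem bender_pair [Finite G] {M₁ M₂ : Subgroup G} (hne : M₁ ≠ M₂) (hP : PP M₁ M₂) (h1 : FSt M₁ ≤ M₂) (h2 : FSt M₂ ≤ M₁) : 
    ∃ p : ℕ, p.Prime ∧ CharP p ↥M₁ ∧ CharP p ↥M₂ ∧ OO p M₁ ⊔ OO p M₂ ≤ M₁ ⊓ M₂ := by
  -- reduce to Fitting subgroups
  have hE1 := EL_eq_bot hne hP h1 h2
  have hE2 := EL_eq_bot hne.symm hP.symm h2 h1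
  have hF1 : FSt M₁ = FT M₁ := by rw [FSt_eq, hE1, bot_sup_eq]
  have hF2 : FSt M₂ = FT M₂ := by rw [FSt_eq, hE2, bot_sup_eq]
  have hC1 := centralizer_FSt_le M₁
  have hC2 := centralizer_FSt_le M₂
  rw [hF1] at hC1 h1
  rw [hF2] at hC2 h2
  have hnb : ∀ M₁ M₂ : Subgroup G, M₁ ≠ M₂ → FT M₂ ≤ M₁ → M₁ ⊓ centralizer (FT M₁ : Set G) ≤ FT M₁ → M₂ ⊓ centralizer (FT M₂ : Set G) ≤ FT M₂ → FT M₁ ≠ ⊥ := by
    intro M₁ M₂ hne h2 hC1 hC2 hb
    have hz : ∀ M : Subgroup G, FT M = ⊥ → M ⊓ centralizer (FT M : Set G) ≤ FT M → M = ⊥ := by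
      intro M hM hC
      rw [hM] at hC
      have h3 : M ≤ centralizer ((⊥ : Subgroup G) : Set G) := by
        intro x _
        rw [Subgroup.mem_centralizer_iff]
        intro y hy
        rw [SetLike.mem_coe, Subgroup.mem_bot] at hy
        rw [hy, one_mul, mul_one]
      rw [inf_eq_left.2 h3] at hC
      exact le_bot_iff.1 hC
    have h3 := hz M₁ hb hC1
    rw [h3] at h2
    have h4 := hz M₂ (le_bot_iff.1 h2) hC2
    exact hne (h3.trans h4.symm)
  have hb1 := hnb M₁ M₂ hne h2 hC1 hC2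
  have hb2 := hnb M₂ M₁ hne.symm h1 hC2 hC1
  -- uniqueness of the prime
  have huniq : ∀ M₁ M₂ : Subgroup G, M₁ ≠ M₂ → PP M₁ M₂ → FT M₁ ≤ M₂ → FT M₂ ≤ M₁ → M₁ ⊓ centralizer (FT M₁ : Set G) ≤ FT M₁ → M₂ ⊓ centralizer (FT M₂ : Set G) ≤ FT M₂ → 
      ∀ r s : ℕ, [Fact r.Prime] → [Fact s.Prime] → OO r M₁ ≠ ⊥ → OO s M₁ ≠ ⊥ → r = s := by
    intro M₁ M₂ hne hP h1 h2 hC1 hC2 r s hr hs hPr hPs
    by_contra hrs
    have h3 := bender_step hP h1 h2 hC2 hrs hPs
    have h4 := bender_step hP h1 h2 hC2 (Ne.symm hrs) hPr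
    have h5 : OO s M₂ ≠ ⊥ := fun hb => hPs (le_bot_iff.1 (hb ▸ h4))
    have h6 := bender_step hP.symm h2 h1 hC1 hrs h5
    have h7 : OO r M₁ = OO r M₂ := le_antisymm h3 h6
    apply hne
    refine hP.eq_of_both hPr (le_inf (OO_le M₁) (h3.trans (OO_le M₂))) (le_normalizer_OO M₁) ?_
    rw [h7]; exact le_normalizer_OO M₂
  have hprime : ∀ M₁ M₂ : Subgroup G, M₁ ≠ M₂ → PP M₁ M₂ → FT M₁ ≤ M₂ → FT M₂ ≤ M₁ → M₁ ⊓ centralizer (FT M₁ : Set G) ≤ FT M₁ → M₂ ⊓ centralizer (FT M₂ : Set G) ≤ FT M₂ → 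
      FT M₁ ≠ ⊥ → ∃ p : ℕ, ∃ _ : p.Prime, FT M₁ = OO p M₁ := by
    intro M₁ M₂ hne hP h1 h2 hC1 hC2 hb
    have hc : Nat.card (FT M₁) ≠ 1 := fun h => hb (Subgroup.card_eq_one.1 h)
    obtain ⟨p, hp, hpd⟩ := Nat.exists_prime_and_dvd hc
    haveI : Fact p.Prime := ⟨hp⟩
    refine ⟨p, hp, ?_⟩
    have hOp := OO_ne_bot_of_dvd (FT_nilpotent M₁) hpd
    rw [OO_FT] at hOp
    have hOPb : OP p (FT M₁) = ⊥ := by
      by_contra hb'
      have hc' : Nat.card (OP p (FT M₁)) ≠ 1 := fun h => hb' (Subgroup.card_eq_one.1 h)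
      obtain ⟨q, hq, hqd⟩ := Nat.exists_prime_and_dvd hc'
      haveI : Fact q.Prime := ⟨hq⟩
      have hOq := OO_ne_bot_of_dvd (FT_nilpotent M₁) (hqd.trans (Subgroup.card_dvd_of_le (OP_le _)))
      rw [OO_FT] at hOq
      have h3 := huniq M₁ M₂ hne hP h1 h2 hC1 hC2 p q hOp hOq
      subst h3
      exact (hp.coprime_iff_not_dvd.1 (OP_coprime (p := p) (FT M₁)).symm) hqd
    have h3 := OO_sup_OP (p := p) (FT_nilpotent M₁)
    rw [hOPb, sup_bot_eq, OO_FT] at h3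
    exact h3.symm
  obtain ⟨p, hp, hFp⟩ := hprime M₁ M₂ hne hP h1 h2 hC1 hC2 hb1
  obtain ⟨q, hq, hFq⟩ := hprime M₂ M₁ hne.symm hP.symm h2 h1 hC2 hC1 hb2
  haveI : Fact p.Prime := ⟨hp⟩
  haveI : Fact q.Prime := ⟨hq⟩
  have hpq : p = q := by
    by_contra hpq
    have h3 : FT M₁ ≤ FT M₂ := by
      refine le_trans ?_ hC2
      refine le_inf h1 ?_
      apply le_centralizer_of_coprime
      · exact h1.trans (le_normalizer_FT M₂)
      · exact h2.trans (le_normalizer_FT M₁)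
      · rw [hFp]
        refine coprime_of_pgroup (OO_pgroup M₁) ?_
        rw [hFq]
        exact pgroup_coprime (Ne.symm hpq) (OO_pgroup M₂)
    apply hb1
    have h4 : (Nat.card (FT M₁)).Coprime (Nat.card (FT M₁)) := by
      refine Nat.Coprime.coprime_dvd_right (Subgroup.card_dvd_of_le h3) ?_
      rw [hFp, hFq]
      exact coprime_of_pgroup (OO_pgroup M₁) (pgroup_coprime (Ne.symm hpq) (OO_pgroup M₂))
    rw [Nat.coprime_self] at h4
    exact Subgroup.card_eq_one.1 h4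
  subst hpq
  refine ⟨p, hp, ?_, ?_, ?_⟩
  · rw [charP_iff_inf, ← hFp]; exact hC1
  · rw [charP_iff_inf, ← hFq]; exact hC2
  · rw [← hFp, ← hFq]
    exact sup_le (le_inf (FT_le _) h1) (le_inf h2 (FT_le _))

end CfsgH1
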