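import Mathlib

set_option autoImplicit false

open Subgroup

namespace CfsgH1

universe u
variable {G : Type u} [Group G]

theorem card_sup_mul_card_inf' [Finite G] (D N : Subgroup G) [N.Normal] : Nat.card (D ⊔ N : Subgroup G) * Nat.card (N ⊓ D : Subgroup G) = Nat.card N * Nat.card D := by
  have h1 := relIndex_mul_relIndex (H := ⊥) (K := N) (L := D ⊔ N) bot_le le_sup_right
  rw [relIndex_bot_left, relIndex_bot_left, relIndex_sup_right] at h1
  have h2 := relIndex_mul_relIndex (H := ⊥) (K := N ⊓ D) (L := D) bot_le inf_le_right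
  rw [relIndex_bot_left, relIndex_bot_left, inf_relIndex_right] at h2
  rw [← h1, ← h2]
  ring

/-- the centralizer of `γ_{i+1}` modulo `γ_{i+3}` -/
def CL (G : Type u) [Group G] (i : ℕ) : Subgroup G := 
  (centralizer ((((⊤ : Subgroup G).lowerCentralSeries i).map (QuotientGroup.mk' ((⊤ : Subgroup G).lowerCentralSeries (i + 2))) : 
    Subgroup (G ⧸ (⊤ : Subgroup G).lowerCentralSeries (i + 2))) : Set (G ⧸ (⊤ : Subgroup G).lowerCentralSeries (i + 2)))).comap 
    (QuotientGroup.mk' ((⊤ : Subgroup G).lowerCentralSeries (i + 2)))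

theorem mem_CL {i : ℕ} {g : G} : g ∈ CL G i ↔ ∀ y ∈ (⊤ : Subgroup G).lowerCentralSeries i, y * g * y⁻¹ * g⁻¹ ∈ (⊤ : Subgroup G).lowerCentralSeries (i + 2) := by
  rw [CL, Subgroup.mem_comap, mem_centralizer_iff]
  constructor
  · intro h y hy
    have h1 := h _ ⟨y, hy, rfl⟩
    rw [← QuotientGroup.eq_one_iff (N := (⊤ : Subgroup G).lowerCentralSeries (i + 2))]
    change QuotientGroup.mk' _ (y * g * y⁻¹ * g⁻¹) = 1
    rw [map_mul, map_mul, map_mul, map_inv, map_inv, h1]
    group
  · rintro h _ ⟨y, hy, rfl⟩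
    have h1 := (QuotientGroup.eq_one_iff (N := (⊤ : Subgroup G).lowerCentralSeries (i + 2)) _).2 (h y hy)
    change QuotientGroup.mk' _ (y * g * y⁻¹ * g⁻¹) = 1 at h1
    rw [map_mul, map_mul, map_mul, map_inv, map_inv, mul_inv_eq_one, mul_inv_eq_iff_eq_mul] at h1
    exact h1

theorem CL_ne_top [hnil : Group.IsNilpotent G] {i : ℕ} (h : (⊤ : Subgroup G).lowerCentralSeries (i + 1) ≠ ⊥) : CL G i ≠ ⊤ := by
  intro htop
  have h1 : (⊤ : Subgroup G).lowerCentralSeries (i + 1) ≤ (⊤ : Subgroup G).lowerCentralSeries (i + 2) := by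
    rw [Subgroup.lowerCentralSeries_succ, commutator_le]
    intro y hy g _
    have hg : g ∈ CL G i := by rw [htop]; exact mem_top g
    exact mem_CL.1 hg y hy
  have h2 : ∀ k, (⊤ : Subgroup G).lowerCentralSeries (i + 1) ≤ (⊤ : Subgroup G).lowerCentralSeries (i + 1 + k) := by
    intro k
    induction k with
    | zero => exact le_rfl
    | succ k ih =>
      refine h1.trans ?_
      have h3 : (⊤ : Subgroup G).lowerCentralSeries (i + 2) = ⁅(⊤ : Subgroup G).lowerCentralSeries (i + 1), ⊤⁆ := rfl
      have h4 : (⊤ : Subgroup G).lowerCentralSeries (i + 1 + (k + 1)) = ⁅(⊤ : Subgroup G).lowerCentralSeries (i + 1 + k), ⊤⁆ := rfl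
      rw [h3, h4]
      exact commutator_mono ih le_rfl
  obtain ⟨n, hn⟩ := Subgroup.nilpotent_iff_lowerCentralSeries.1 hnil
  apply h
  rw [eq_bot_iff]
  refine (h2 n).trans ?_
  rw [← hn]
  exact Subgroup.lowerCentralSeries_antitone _ (by omega)

theorem breadth_step [Finite G] {p : ℕ} [hp : Fact p.Prime] (hG : IsPGroup p G) (g : G) (i : ℕ) : 
    (Nat.card ((⊤ : Subgroup G).lowerCentralSeries (i + 1)) * Nat.card ((centralizer {g} ⊓ (⊤ : Subgroup G).lowerCentralSeries i : Subgroup G)) ≤
      Nat.card ((⊤ : Subgroup G).lowerCentralSeries i) * Nat.card ((centralizer {g} ⊓ (⊤ : Subgroup G).lowerCentralSeries (i + 1) : Subgroup G))) ∧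
    (g ∉ CL G i → p * (Nat.card ((⊤ : Subgroup G).lowerCentralSeries (i + 1)) * Nat.card ((centralizer {g} ⊓ (⊤ : Subgroup G).lowerCentralSeries i : Subgroup G))) ≤
      Nat.card ((⊤ : Subgroup G).lowerCentralSeries i) * Nat.card ((centralizer {g} ⊓ (⊤ : Subgroup G).lowerCentralSeries (i + 1) : Subgroup G))) := by
  set Li := (⊤ : Subgroup G).lowerCentralSeries i with hLi
  set N := (⊤ : Subgroup G).lowerCentralSeries (i + 1) with hN
  set D := centralizer {g} with hD
  have hNL : N ≤ Li := Subgroup.lowerCentralSeries_antitone _ (by omega)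
  haveI hNn : N.Normal := by rw [hN]; infer_instance
  have h1 := card_sup_mul_card_inf' (D ⊓ Li) N
  have h2 : N ⊓ (D ⊓ Li) = D ⊓ N := by
    apply le_antisymm
    · exact le_inf (inf_le_right.trans inf_le_left) inf_le_left
    · exact le_inf inf_le_right (le_inf inf_le_left (inf_le_right.trans hNL))
  rw [h2] at h1
  have h3 := relIndex_mul_relIndex (H := ⊥) (K := (D ⊓ Li) ⊔ N) (L := Li) bot_le (sup_le inf_le_right hNL)
  rw [relIndex_bot_left, relIndex_bot_left] at h3
  have h4 : Nat.card Li * Nat.card (D ⊓ N : Subgroup G) = ((D ⊓ Li) ⊔ N).relIndex Li * (Nat.card N * Nat.card (D ⊓ Li : Subgroup G)) := by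
    rw [← h1, ← h3]; ring
  have h5 : 0 < ((D ⊓ Li) ⊔ N).relIndex Li := Nat.pos_of_ne_zero (Subgroup.index_ne_zero_of_finite)
  refine ⟨by rw [h4]; exact Nat.le_mul_of_pos_left _ h5, fun hg => ?_⟩
  rw [h4]
  apply Nat.mul_le_mul_right
  obtain ⟨k, hk⟩ := IsPGroup.iff_card.1 hG
  have h6 : ((D ⊓ Li) ⊔ N).relIndex Li ∣ p ^ k := by
    rw [← hk]; exact (Subgroup.index_dvd_card _).trans (Subgroup.card_subgroup_dvd_card _)
  obtain ⟨j, _, hj⟩ := (Nat.dvd_prime_pow hp.out).1 h6
  rcases Nat.eq_zero_or_pos j with h0 | h0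
  · exfalso
    apply hg
    rw [h0, pow_zero, relIndex_eq_one] at hj
    rw [mem_CL]
    intro y hy
    have h7 := hj hy
    rw [Subgroup.mem_sup_of_normal_right] at h7
    obtain ⟨d, hd, l, hl, rfl⟩ := h7
    have hdg : d * g = g * d := mem_centralizer_singleton_iff.1 hd.1
    have h8 : d * l * g * (d * l)⁻¹ * g⁻¹ = d * (l * g * l⁻¹ * g⁻¹) * d⁻¹ := by
      have h9 : g * d⁻¹ = d⁻¹ * g := by
        rw [eq_inv_mul_iff_mul_eq, ← mul_assoc, hdg, mul_inv_cancel_right]
      calc d * l * g * (d * l)⁻¹ * g⁻¹ = d * l * g * l⁻¹ * (d⁻¹ * g⁻¹) := by group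
        _ = d * l * g * l⁻¹ * (g⁻¹ * d⁻¹) := by
          rw [← mul_inv_rev, ← mul_inv_rev, hdg]
        _ = _ := by group
    rw [h8]
    have h10 : l * g * l⁻¹ * g⁻¹ ∈ (⊤ : Subgroup G).lowerCentralSeries (i + 2) := 
      commutator_mem_commutator (H₁ := (⊤ : Subgroup G).lowerCentralSeries (i + 1)) (H₂ := ⊤) hl (mem_top g)
    haveI : ((⊤ : Subgroup G).lowerCentralSeries (i + 2)).Normal := inferInstance
    exact this.conj_mem _ h10 d
  · rw [hj]
    exact Nat.le_self_pow h0.ne' p

open Classical in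
theorem breadth_bound [Finite G] {p : ℕ} [hp : Fact p.Prime] (hG : IsPGroup p G) (g : G) (n : ℕ) : 
    p ^ ((Finset.range n).filter (fun i => g ∉ CL G i)).card * (Nat.card ((⊤ : Subgroup G).lowerCentralSeries n) * Nat.card ((centralizer {g} : Subgroup G))) ≤
      Nat.card G * Nat.card ((centralizer {g} ⊓ (⊤ : Subgroup G).lowerCentralSeries n : Subgroup G)) := by
  induction n with
  | zero => 
    have h1 : ((⊤ : Subgroup G).lowerCentralSeries 0) = ⊤ := rfl
    rw [h1, inf_top_eq]
    simp
  | succ n ih =>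
    have hst := breadth_step hG g n
    set a := Nat.card ((⊤ : Subgroup G).lowerCentralSeries n) with ha
    set b := Nat.card ((⊤ : Subgroup G).lowerCentralSeries (n + 1)) with hb
    set d := Nat.card ((centralizer {g} ⊓ (⊤ : Subgroup G).lowerCentralSeries n : Subgroup G)) with hd
    set e := Nat.card ((centralizer {g} ⊓ (⊤ : Subgroup G).lowerCentralSeries (n + 1) : Subgroup G)) with he
    set c := Nat.card ((centralizer {g} : Subgroup G)) with hc
    have ha0 : 0 < a := Nat.card_pos
    have hd0 : 0 < d := Nat.card_pos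
    set t := ((Finset.range n).filter (fun i => g ∉ CL G i)).card with ht
    by_cases hg : g ∉ CL G n
    · have h1 : ((Finset.range (n + 1)).filter (fun i => g ∉ CL G i)).card = t + 1 := by
        rw [Finset.range_add_one, Finset.filter_insert, if_pos hg, Finset.card_insert_of_notMem (by simp)]
      rw [h1]
      have h2 := hst.2 hg
      -- p^(t+1) * (b * c) * (a*d) ≤ |G| e (a d)
      have h3 : (p ^ t * (a * c)) * (p * (b * d)) ≤ (Nat.card G * d) * (a * e) := Nat.mul_le_mul ih h2
      have h4 : (a * d) * (p ^ (t + 1) * (b * c)) ≤ (a * d) * (Nat.card G * e) := by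
        calc (a * d) * (p ^ (t + 1) * (b * c)) = (p ^ t * (a * c)) * (p * (b * d)) := by ring
          _ ≤ _ := h3
          _ = _ := by ring
      exact Nat.le_of_mul_le_mul_left h4 (Nat.mul_pos ha0 hd0)
    · have h1 : ((Finset.range (n + 1)).filter (fun i => g ∉ CL G i)).card = t := by
        rw [Finset.range_add_one, Finset.filter_insert, if_neg hg]
      rw [h1]
      have h2 := hst.1
      have h3 : (p ^ t * (a * c)) * (b * d) ≤ (Nat.card G * d) * (a * e) := Nat.mul_le_mul ih h2
      have h4 : (a * d) * (p ^ t * (b * c)) ≤ (a * d) * (Nat.card G * e) := by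
        calc (a * d) * (p ^ t * (b * c)) = (p ^ t * (a * c)) * (b * d) := by ring
          _ ≤ _ := h3
          _ = _ := by ring
      exact Nat.le_of_mul_le_mul_left h4 (Nat.mul_pos ha0 hd0)

open Classical in
theorem breadth_le [Finite G] {p : ℕ} [hp : Fact p.Prime] (hG : IsPGroup p G) (g : G) (n b : ℕ) (hb : (centralizer ({g} : Set G)).index ≤ p ^ b) : 
    ((Finset.range n).filter (fun i => g ∉ CL G i)).card ≤ b := by
  have h1 := breadth_bound hG g n
  have h2 : Nat.card ((centralizer {g} ⊓ (⊤ : Subgroup G).lowerCentralSeries n : Subgroup G)) ≤ Nat.card ((⊤ : Subgroup G).lowerCentralSeries n) := 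
    Nat.le_of_dvd Nat.card_pos (Subgroup.card_dvd_of_le inf_le_right)
  have h3 : Nat.card G = Nat.card ((centralizer {g} : Subgroup G)) * (centralizer ({g} : Set G)).index := (Subgroup.card_mul_index _).symm
  set t := ((Finset.range n).filter (fun i => g ∉ CL G i)).card
  set l := Nat.card ((⊤ : Subgroup G).lowerCentralSeries n)
  set c := Nat.card ((centralizer {g} : Subgroup G)) with hc
  have hl0 : 0 < l := Nat.card_pos
  have hc0 : 0 < c := Nat.card_pos
  have h4 : (l * c) * p ^ t ≤ (l * c) * p ^ b := by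
    calc (l * c) * p ^ t = p ^ t * (l * c) := by ring
      _ ≤ _ := h1
      _ ≤ Nat.card G * l := Nat.mul_le_mul_left _ h2
      _ = (l * c) * (centralizer ({g} : Set G)).index := by rw [h3]; ring
      _ ≤ _ := Nat.mul_le_mul_left _ hb
  have h5 := Nat.le_of_mul_le_mul_left h4 (Nat.mul_pos hl0 hc0)
  exact (Nat.pow_le_pow_iff_right hp.out.one_lt).1 h5

open Classical in
theorem breadth_class [Finite G] {p : ℕ} [hp : Fact p.Prime] (hG : IsPGroup p G) (n b : ℕ) (hb0 : 0 < b)
    (hb : ∀ g : G, (centralizer ({g} : Set G)).index ≤ p ^ b) (hn : ∀ i < n, CL G i ≠ ⊤) : n * (p - 1) < b * p := by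
  haveI : Fintype G := Fintype.ofFinite G
  have hsum : ∑ g : G, ((Finset.range n).filter (fun i => g ∉ CL G i)).card = ∑ i ∈ Finset.range n, (Finset.univ.filter (fun g : G => g ∉ CL G i)).card := by
    simp_rw [Finset.card_filter]
    exact Finset.sum_comm
  have h1 : ∑ g : G, ((Finset.range n).filter (fun i => g ∉ CL G i)).card < Fintype.card G * b := by
    have h2 : ∑ g : G, ((Finset.range n).filter (fun i => g ∉ CL G i)).card < ∑ _g : G, b := by
      apply Finset.sum_lt_sum
      · intro g _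
        exact breadth_le hG g n b (hb g)
      · refine ⟨1, Finset.mem_univ _, ?_⟩
        have : ((Finset.range n).filter (fun i => (1 : G) ∉ CL G i)).card = 0 := by
          rw [Finset.card_eq_zero, Finset.filter_eq_empty_iff]
          intro i _ h
          exact h (CL G i).one_mem
        rw [this]; exact hb0
    rw [Finset.sum_const, Finset.card_univ, smul_eq_mul] at h2
    exact h2
  have h3 : ∀ i ∈ Finset.range n, (p - 1) * Fintype.card G ≤ p * (Finset.univ.filter (fun g : G => g ∉ CL G i)).card := by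
    intro i hi
    have h4 := hn i (Finset.mem_range.1 hi)
    have h5 : Nat.card (CL G i) * (CL G i).index = Nat.card G := Subgroup.card_mul_index _
    have h6 : p ≤ (CL G i).index := by
      obtain ⟨k, hk⟩ := IsPGroup.iff_card.1 hG
      have h7 : (CL G i).index ∣ p ^ k := by rw [← hk]; exact Subgroup.index_dvd_card _
      obtain ⟨j, _, hj⟩ := (Nat.dvd_prime_pow hp.out).1 h7
      rcases Nat.eq_zero_or_pos j with h0 | h0
      · rw [h0, pow_zero, Subgroup.index_eq_one] at hj
        exact absurd hj h4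
      · rw [hj]; exact Nat.le_self_pow h0.ne' p
    have h8 : (Finset.univ.filter (fun g : G => g ∉ CL G i)).card + Nat.card (CL G i) = Nat.card G := by
      rw [Nat.card_eq_fintype_card (α := G), Nat.card_eq_fintype_card, ← Finset.card_univ (α := G)]
      have h9 : Fintype.card (CL G i) = (Finset.univ.filter (fun g : G => g ∈ CL G i)).card := by
        exact Fintype.card_subtype _
      rw [h9, add_comm]
      exact Finset.card_filter_add_card_filter_not (s := (Finset.univ : Finset G)) (fun g => g ∈ CL G i)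
    rw [← Nat.card_eq_fintype_card]
    have h10 : p * Nat.card (CL G i) ≤ Nat.card G := by
      rw [← h5, mul_comm]; exact Nat.mul_le_mul_left _ h6
    have hp1 : 1 ≤ p := hp.out.one_lt.le
    obtain ⟨p', rfl⟩ : ∃ p', p = p' + 1 := ⟨p - 1, by omega⟩
    simp only [Nat.add_sub_cancel]
    nlinarith
  have h4 : n * ((p - 1) * Fintype.card G) ≤ p * ∑ i ∈ Finset.range n, (Finset.univ.filter (fun g : G => g ∉ CL G i)).card := by
    rw [Finset.mul_sum]
    calc n * ((p - 1) * Fintype.card G) = ∑ _i ∈ Finset.range n, (p - 1) * Fintype.card G := by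
          rw [Finset.sum_const, Finset.card_range, smul_eq_mul]
      _ ≤ _ := Finset.sum_le_sum h3
  rw [hsum] at h1
  have hp0 : 0 < p := hp.out.pos
  have h5 : n * ((p - 1) * Fintype.card G) < p * (Fintype.card G * b) := lt_of_le_of_lt h4 (Nat.mul_lt_mul_of_pos_left h1 hp0)
  have h6 : (n * (p - 1)) * Fintype.card G < (b * p) * Fintype.card G := by
    calc (n * (p - 1)) * Fintype.card G = n * ((p - 1) * Fintype.card G) := by ring
      _ < _ := h5
      _ = _ := by ring
  exact lt_of_mul_lt_mul_right h6 (Nat.zero_le _)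

end CfsgH1
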