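import Cfsg.Agent.H1.Bender
import Cfsg.Agent.H1.FF

set_option autoImplicit false

open Cfsg Subgroup
open scoped Pointwise commutatorElement

namespace CfsgH1

universe u v

variable {G : Type u} [Group G] {p : ℕ}

/-- chief factor -/
def IsChief (U V : Subgroup G) : Prop := U.Normal ∧ V.Normal ∧ V < U ∧ ∀ W : Subgroup G, W.Normal → V ≤ W → W ≤ U → W = V ∨ W = U

theorem commutator_sup_le {A M V : Subgroup G} [hA : A.Normal] [hV : V.Normal] [hM : M.Normal] : ⁅A ⊔ V, M⁆ ≤ ⁅A, M⁆ ⊔ V := by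
  rw [Subgroup.commutator_le]
  intro x hx m hm
  obtain ⟨a, ha, v, hv, rfl⟩ := (mem_sup_of_le_normalizer' (le_normalizer_of_normal V A)).1 hx
  have e : ⁅a * v, m⁆ = a * (v * (m * v⁻¹ * m⁻¹)) * a⁻¹ * ⁅a, m⁆ := by
    rw [commutatorElement_def, commutatorElement_def]; group
  rw [e]
  refine mul_mem (mem_sup_right (hV.conj_mem _ (V.mul_mem hv (hV.conj_mem _ (V.inv_mem hv) m)) a)) (mem_sup_left (Subgroup.commutator_mem_commutator ha hm))

/-- normal nilpotent subgroups centralize chief factors -/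
theorem nilpotent_centralizes_chief {M U V : Subgroup G} [hM : M.Normal] (hn : Group.IsNilpotent M) (h : IsChief U V) : ⁅U, M⁆ ≤ V := by
  obtain ⟨hU, hV, hlt, hmin⟩ := h
  haveI : (⁅U, M⁆ ⊔ V : Subgroup G).Normal := inferInstance
  rcases hmin (⁅U, M⁆ ⊔ V) inferInstance le_sup_right (sup_le (Subgroup.commutator_le_left U M) hlt.le) with h1 | h1
  · rw [← h1]; exact le_sup_left
  · exfalso
    obtain ⟨n, hn⟩ := (Subgroup.isNilpotent_iff_lowerCentralSeries M).1 hn
    have key : ∀ k, U ≤ M.lowerCentralSeries k ⊔ V := by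
      intro k
      induction k with
      | zero =>
        rw [← h1]
        exact sup_le_sup_right (Subgroup.commutator_le_right U M) V
      | succ k ih =>
        have h2 : (M.lowerCentralSeries k).Normal := by
          clear ih
          induction k with
          | zero => exact hM
          | succ k ih => exact (inferInstance : (⁅M.lowerCentralSeries k, M⁆ : Subgroup G).Normal)
        rw [← h1]
        refine sup_le ?_ le_sup_right
        exact (Subgroup.commutator_mono ih le_rfl).trans commutator_sup_le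
    have h2 := key n
    rw [hn, bot_sup_eq] at h2
    exact absurd h2 (not_le_of_gt hlt)

theorem exists_chief_below [Finite G] {X : Subgroup G} (hX : X.Normal) (hb : X ≠ ⊥) : ∃ V : Subgroup G, IsChief X V := by
  obtain ⟨V, ⟨h1, h2⟩, h3⟩ := exists_maximal_of_set {V : Subgroup G | V.Normal ∧ V < X} ⟨⊥, inferInstance, bot_lt_iff_ne_bot.2 hb⟩
  refine ⟨V, hX, h1, h2, fun W hW hVW hWX => ?_⟩
  by_cases h : W = X
  · exact Or.inr h
  · exact Or.inl (h3 W ⟨hW, lt_of_le_of_ne hWX h⟩ hVW)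


/-- a normal subgroup above `K`, minimal -/
theorem exists_above [Finite G] (hG : Group.IsSolvable G) {K C : Subgroup G} (hK : K.Normal) (hC : C.Normal) (hlt : K < C) :
    ∃ A : Subgroup G, A.Normal ∧ K < A ∧ A ≤ C ∧ ∃ q : ℕ, q.Prime ∧ ∀ x ∈ A, x ^ q ∈ K := by
  obtain ⟨A, ⟨hAn, hA1, hA2⟩, hA3⟩ := exists_minimal_of_set {A : Subgroup G | A.Normal ∧ K < A ∧ A ≤ C} ⟨C, hC, hlt, le_rfl⟩
  refine ⟨A, hAn, hA1, hA2, ?_⟩
  haveI := hG
  have hfs := QuotientGroup.mk'_surjective K
  haveI : (A.map (QuotientGroup.mk' K)).Normal := hAn.map _ hfs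
  have hAb : A.map (QuotientGroup.mk' K) ≠ ⊥ := by
    intro hb
    rw [Subgroup.map_eq_bot_iff, QuotientGroup.ker_mk'] at hb
    exact absurd hb (not_le_of_gt hA1)
  have hq0 : Group.IsSolvable (G ⧸ K) := inferInstance
  obtain ⟨-, q, hq, hq2⟩ := elemAb_of_minNormal (G := G ⧸ K) hAb (by
    intro L hL hLA
    have h1 : (L.comap (QuotientGroup.mk' K)).Normal := hL.comap _
    by_cases hLb : L = ⊥
    · exact Or.inl hLb
    · right
      have h2 : K < L.comap (QuotientGroup.mk' K) := by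
        have h3 : K ≤ L.comap (QuotientGroup.mk' K) := by
          intro x hx
          rw [Subgroup.mem_comap]
          have : QuotientGroup.mk' K x = 1 := (QuotientGroup.eq_one_iff x).2 hx
          rw [this]; exact L.one_mem
        refine lt_of_le_of_ne h3 fun he => hLb ?_
        have h4 := Subgroup.map_comap_eq_self_of_surjective hfs L
        rw [← h4, ← he, Subgroup.map_eq_bot_iff, QuotientGroup.ker_mk']
      have h3 : L.comap (QuotientGroup.mk' K) ≤ A := by
        have h4 := Subgroup.comap_mono (f := QuotientGroup.mk' K) hLA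
        rwa [Subgroup.comap_map_eq, QuotientGroup.ker_mk', sup_eq_left.2 hA1.le] at h4
      have h4 := hA3 (L.comap (QuotientGroup.mk' K)) ⟨h1, h2, h3.trans hA2⟩ h3
      rw [← h4, Subgroup.map_comap_eq_self_of_surjective hfs])
  refine ⟨q, hq, fun x hx => ?_⟩
  have h1 := hq2 (QuotientGroup.mk' K x) ⟨x, hx, rfl⟩
  rw [← map_pow] at h1
  exact (QuotientGroup.eq_one_iff (x ^ q)).1 h1

/-- elements of `N` centralizing all chief factors below `F` -/
def chiefCent (N F : Subgroup G) : Subgroup G where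
  carrier := {x | x ∈ N ∧ ∀ U V : Subgroup G, IsChief U V → U ≤ F → ∀ u ∈ U, ⁅u, x⁆ ∈ V}
  one_mem' := ⟨N.one_mem, fun U V _ _ u _ => by rw [commutatorElement_one_right]; exact V.one_mem⟩
  mul_mem' := by
    rintro x y ⟨hx, hx'⟩ ⟨hy, hy'⟩
    refine ⟨N.mul_mem hx hy, fun U V hc hle u hu => ?_⟩
    have e : ⁅u, x * y⁆ = ⁅u, x⁆ * (x * ⁅u, y⁆ * x⁻¹) := by
      rw [commutatorElement_def, commutatorElement_def, commutatorElement_def]; group
    rw [e]
    exact V.mul_mem (hx' U V hc hle u hu) (hc.2.1.conj_mem _ (hy' U V hc hle u hu) x)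
  inv_mem' := by
    rintro x ⟨hx, hx'⟩
    refine ⟨N.inv_mem hx, fun U V hc hle u hu => ?_⟩
    have e : ⁅u, x⁻¹⁆ = x⁻¹ * (⁅u, x⁆)⁻¹ * x := by
      rw [commutatorElement_def, commutatorElement_def]; group
    rw [e]
    have := hc.2.1.conj_mem _ (V.inv_mem (hx' U V hc hle u hu)) x⁻¹
    rwa [inv_inv] at this

theorem mem_chiefCent {N F : Subgroup G} {x : G} : x ∈ chiefCent N F ↔ x ∈ N ∧ ∀ U V : Subgroup G, IsChief U V → U ≤ F → ∀ u ∈ U, ⁅u, x⁆ ∈ V := Iff.rfl

theorem chiefCent_normal {N F : Subgroup G} (hN : N.Normal) : (chiefCent N F).Normal := by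
  refine ⟨fun x hx y => ?_⟩
  rw [mem_chiefCent] at hx ⊢
  refine ⟨hN.conj_mem x hx.1 y, fun U V hc hle u hu => ?_⟩
  have h1 : y⁻¹ * u * y ∈ U := by
    have := hc.1.conj_mem u hu y⁻¹
    rwa [inv_inv] at this
  have e : ⁅u, y * x * y⁻¹⁆ = y * ⁅y⁻¹ * u * y, x⁆ * y⁻¹ := by
    rw [commutatorElement_def, commutatorElement_def]; group
  rw [e]
  exact hc.2.1.conj_mem _ (hx.2 U V hc hle _ h1) y

theorem cent_OP [Finite G] {q : ℕ} [hq : Fact q.Prime] {F Q : Subgroup G} (hQp : IsPGroup q Q) 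
    (hQC : ∀ y ∈ Q, ∀ U V : Subgroup G, IsChief U V → U ≤ F → ∀ u ∈ U, ⁅u, y⁆ ∈ V) :
    ∀ n : ℕ, ∀ X : Subgroup G, Nat.card X = n → X.Normal → X ≤ OP q F → ⁅X, Q⁆ = ⊥ := by
  intro n
  induction n using Nat.strong_induction_on with
  | _ n ih =>
  intro X hn hX hXO
  by_cases hXb : X = ⊥
  · rw [hXb, Subgroup.commutator_bot_left]
  · obtain ⟨V, hV⟩ := exists_chief_below hX hXb
    have h1 : ⁅X, Q⁆ ≤ V := by
      rw [Subgroup.commutator_le]
      intro x hx y hy
      exact hQC y hy X V hV (hXO.trans (OP_le _)) x hx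
    have h2 : ⁅V, Q⁆ = ⊥ := ih (Nat.card V) (by rw [← hn]; exact card_lt_card_of_lt hV.2.2.1) V rfl hV.2.1 (hV.2.2.1.le.trans hXO)
    haveI := hX
    apply coprime_commutator_eq_bot (le_normalizer_of_normal Q X) _ (Or.inl (isSolvable_of_isPGroup hQp))
    · rw [← le_bot_iff, ← h2]
      exact Subgroup.commutator_mono h1 le_rfl
    · exact coprime_of_pgroup hQp (Nat.Coprime.coprime_dvd_left (Subgroup.card_dvd_of_le hXO) (OP_coprime _))


theorem FT_normal {N : Subgroup G} (hN : N.Normal) : (FT N).Normal := by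
  haveI := hN
  exact normal_map_characteristic (K := N) (fittingSubgroup N)

theorem OP_normal {N : Subgroup G} {q : ℕ} (hN : N.Normal) : (OP q N).Normal := by
  haveI := hN
  exact normal_map_characteristic (K := N) (pPrimeCore q N)

theorem OO_normal {N : Subgroup G} {q : ℕ} (hN : N.Normal) : (OO q N).Normal := by
  haveI := hN
  exact normal_map_characteristic (K := N) (pCore q N)

theorem pow_mem_coprime {F : Subgroup G} {x : G} {a b : ℕ} (h : a.Coprime b) (ha : x ^ a ∈ F) (hb : x ^ b ∈ F) : x ∈ F := by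
  have h1 : x = (x ^ a) ^ (Nat.gcdA a b) * (x ^ b) ^ (Nat.gcdB a b) := by
    rw [← zpow_natCast, ← zpow_natCast, ← zpow_mul, ← zpow_mul, ← zpow_add, ← Nat.gcd_eq_gcd_ab, h.gcd_eq_one]
    simp
  rw [h1]
  exact F.mul_mem (F.zpow_mem ha _) (F.zpow_mem hb _)

theorem fitting_of_chief [Finite G] (hG : Group.IsSolvable G) {N : Subgroup G} (hN : N.Normal) : chiefCent N (FT N) ≤ FT N := by
  have hFn : (FT N).Normal := FT_normal hN
  have hFC : FT N ≤ chiefCent N (FT N) := by
    intro x hx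
    rw [mem_chiefCent]
    refine ⟨FT_le N hx, fun U V hc hle u hu => ?_⟩
    exact nilpotent_centralizes_chief (FT_nilpotent N) hc (Subgroup.commutator_mem_commutator hu hx)
  by_contra hCF
  obtain ⟨A, hAn, hA1, hA2, q, hq, hAq⟩ := exists_above hG hFn (chiefCent_normal hN) (lt_of_le_of_ne hFC (fun he => hCF he.ge))
  haveI : Fact q.Prime := ⟨hq⟩
  obtain ⟨Q, hQ⟩ := exists_isSylowOf q A
  have hQA := isSylowOf_le hQ
  have hQp := isSylowOf_isPGroup hQ
  have hFA := hA1.le
  have hOPn : (OP q (FT N)).Normal := OP_normal hFn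
  have hQO := cent_OP (F := FT N) hQp (fun y hy => (hA2 (hQA hy)).2) _ (OP q (FT N)) rfl hOPn le_rfl
  have hOQ : OO q (FT N) ≤ Q := by
    have h1 : (OO q (FT N)).Normal := OO_normal hFn
    have h2 : OO q (FT N) ≤ OO q A := le_OO ((OO_le _).trans hFA) (le_normalizer_of_normal A _) (OO_pgroup _)
    exact h2.trans (OO_le_of_sylowOf hQ)
  have hFsup : FT N ≤ OP q (FT N) ⊔ Q := by
    have h1 := OO_sup_OP (p := q) (FT_nilpotent N)
    calc FT N = OO q (FT N) ⊔ OP q (FT N) := h1.symm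
      _ ≤ _ := sup_le (hOQ.trans le_sup_right) le_sup_left
  have hAsup : A ≤ OP q (FT N) ⊔ Q := by
    apply le_of_forall_sylowOf
    intro r hr
    haveI : Fact r.Prime := ⟨hr⟩
    by_cases hrq : r = q
    · subst hrq
      exact ⟨Q, hQ, le_sup_right⟩
    · obtain ⟨R, hR⟩ := exists_isSylowOf r A
      refine ⟨R, hR, fun x hx => hFsup ?_⟩
      obtain ⟨k, hk⟩ := isSylowOf_isPGroup hR ⟨x, hx⟩
      have hk' : x ^ r ^ k = 1 := congrArg Subtype.val hk
      exact pow_mem_coprime (Nat.Coprime.pow_right k ((Nat.coprime_primes hq hr).2 (Ne.symm hrq))) (hAq x (isSylowOf_le hR hx)) (by rw [hk']; exact (FT N).one_mem)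
  have hOA : OP q (FT N) ≤ A := (OP_le _).trans hFA
  have hnil : Group.IsNilpotent (OP q (FT N)) := by
    haveI := FT_nilpotent N
    exact Group.nilpotent_of_mulEquiv (Subgroup.subgroupOfEquivOfLe (OP_le (FT N)))
  have hcen : Q ≤ centralizer (OP q (FT N) : Set G) := by
    intro y hy
    rw [mem_centralizer_iff]
    intro x hx
    have h1 := Subgroup.commutator_mem_commutator hx hy
    rw [hQO, Subgroup.mem_bot, commutatorElement_eq_one_iff_mul_comm] at h1
    exact h1
  have h1 : OP q (FT N) ≤ FT A := le_FT hOA (le_normalizer_of_normal A _) hnil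
  have hQn : A ≤ normalizer (Q : Set G) := by
    refine hAsup.trans (sup_le ?_ le_normalizer)
    refine le_trans ?_ (centralizer_le_normalizer _)
    intro x hx
    rw [mem_centralizer_iff]
    intro y hy
    exact ((mem_centralizer_iff.1 (hcen hy)) x hx).symm
  have h2 : Q ≤ FT A := le_FT hQA hQn (IsPGroup.isNilpotent hQp)
  have h3 : A ≤ FT A := hAsup.trans (sup_le h1 h2)
  have h4 : Group.IsNilpotent A := by
    have h5 : FT A = A := le_antisymm (FT_le A) h3
    rw [← h5]; exact FT_nilpotent A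
  have h5 : A ≤ FT N := le_FT (hA2.trans (fun x hx => hx.1)) (le_normalizer_of_normal N _) h4
  exact absurd h5 (not_le_of_gt hA1)

end CfsgH1
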