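import Cfsg.Agent.H1.FF4
import Cfsg.Agent.H1.SL2Sec2

set_option autoImplicit false

/-! Failure of factorization: pairs of transvection groups -/

open Cfsg Subgroup CfsgH3
open scoped Pointwise commutatorElement

namespace CfsgH1

universe u v
variable {G : Type u} [Group G]

theorem map_conj_eq_of_norm {V : Subgroup G} {x : G} (hx : x ∈ normalizer (V : Set G)) : V.map (MulAut.conj x).toMonoidHom = V := by
  ext y
  constructor
  · rintro ⟨v, hv, rfl⟩
    exact (Subgroup.mem_normalizer_iff.1 hx v).1 hv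
  · intro hy
    refine ⟨x⁻¹ * y * x, ?_, ?_⟩
    · have h1 := (Subgroup.mem_normalizer_iff.1 (inv_mem hx) y).1 hy
      rwa [inv_inv] at h1
    · change x * (x⁻¹ * y * x) * x⁻¹ = y
      group

theorem map_centralizer_conj {A : Subgroup G} (x : G) : (centralizer (A : Set G)).map (MulAut.conj x).toMonoidHom = centralizer ((A.map (MulAut.conj x).toMonoidHom : Subgroup G) : Set G) := by
  ext y
  constructor
  · rintro ⟨c, hc, rfl⟩
    exact cent_map hc
  · intro hy
    refine ⟨x⁻¹ * y * x, ?_, ?_⟩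
    · rw [SetLike.mem_coe, Subgroup.mem_centralizer_iff]
      intro a ha
      have h1 := Subgroup.mem_centralizer_iff.1 hy (x * a * x⁻¹) ⟨a, ha, rfl⟩
      calc a * (x⁻¹ * y * x) = x⁻¹ * (x * a * x⁻¹ * y) * x := by group
        _ = x⁻¹ * (y * (x * a * x⁻¹)) * x := by rw [h1]
        _ = _ := by group
    · change x * (x⁻¹ * y * x) * x⁻¹ = y
      group

theorem best_conj [Finite G] {p : ℕ} {V A : Subgroup G} {x : G} (hx : x ∈ normalizer (V : Set G)) (hA : IsBestOffenderOn p V A) : 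
    IsBestOffenderOn p V (A.map (MulAut.conj x).toMonoidHom) := by
  have hV := map_conj_eq_of_norm hx
  have hmm : ∀ B : Subgroup G, mm V (B.map (MulAut.conj x).toMonoidHom) = mm V B := by
    intro B
    unfold mm
    rw [Subgroup.card_map_of_injective (MulEquiv.injective _), ← map_centralizer_conj]
    congr 1
    conv_lhs => rw [← hV]
    rw [← Subgroup.map_inf _ _ _ (MulEquiv.injective _)]
    exact Subgroup.card_map_of_injective (MulEquiv.injective _)
  have hC : (centralizer (V : Set G)).map (MulAut.conj x).toMonoidHom = centralizer (V : Set G) := by rw [map_centralizer_conj, hV]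
  refine ⟨?_, ?_, ?_⟩
  · intro B hB
    have h1 : B = (B.map (MulAut.conj x⁻¹).toMonoidHom).map (MulAut.conj x).toMonoidHom := by
      rw [Subgroup.map_map]
      ext y
      constructor
      · intro hy
        refine ⟨y, hy, ?_⟩
        change x * (x⁻¹ * y * x⁻¹⁻¹) * x⁻¹ = y
        group
      · rintro ⟨z, hz, rfl⟩
        have : x * (x⁻¹ * z * x⁻¹⁻¹) * x⁻¹ = z := by group
        change x * (x⁻¹ * z * x⁻¹⁻¹) * x⁻¹ ∈ B
        rw [this]; exact hz
    have h2 : B.map (MulAut.conj x⁻¹).toMonoidHom ≤ A := by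
      rintro _ ⟨b, hb, rfl⟩
      obtain ⟨a, ha, rfl⟩ := hB hb
      change x⁻¹ * (x * a * x⁻¹) * x⁻¹⁻¹ ∈ A
      have : x⁻¹ * (x * a * x⁻¹) * x⁻¹⁻¹ = a := by group
      rw [this]; exact ha
    change mm V B ≤ mm V _
    rw [h1, hmm, hmm]
    exact hA.1 _ h2
  · rw [← Subgroup.map_commutator, ← hC]
    exact Subgroup.map_mono hA.2.1
  · rintro _ ⟨a, ha, rfl⟩
    rw [← hC]
    exact ⟨a ^ p, hA.2.2 a ha, map_pow _ _ _⟩

theorem mem_of_pow_mem_of_coprime {N : Subgroup G} {t : G} {m n : ℕ} (h1 : t ^ m ∈ N) (h2 : t ^ n = 1) (h3 : m.Coprime n) : t ∈ N := by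
  have h4 : (1 : ℤ) = m * m.gcdA n + n * m.gcdB n := by
    have := Nat.gcd_eq_gcd_ab m n
    rw [h3] at this
    exact_mod_cast this
  have h5 : t = (t ^ m) ^ (m.gcdA n) * (t ^ n) ^ (m.gcdB n) := by
    conv_lhs => rw [← zpow_one t, h4]
    rw [zpow_add, zpow_mul, zpow_mul, zpow_natCast, zpow_natCast]
  rw [h5, h2, one_zpow, mul_one]
  exact zpow_mem h1 _

theorem isPSolvable_of_card_good {p : ℕ} (h : PGood p (Nat.card G)) : IsPSolvable p G := by
  rw [isPSolvable_iff]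
  refine ⟨1, fun i => if i = 0 then ⊥ else ⊤, by simp, by simp, ?_, ?_, ?_⟩
  · intro i
    by_cases hi : i = 0
    · simp [hi]
    · simp [hi]
  · intro i
    by_cases hi : i = 0
    · simp only [hi, if_true]; infer_instance
    · simp only [hi, if_false]; infer_instance
  · intro i hi
    have : i = 0 := by omega
    subst this
    simpa using h

section

variable [Finite G] {p : ℕ} [hp : Fact p.Prime] {V H : Subgroup G} (h : FFS p V H)

include h

theorem FFS.conj_min {A : Subgroup G} (hAH : A ≤ H) (hA : IsMinOff p V A) {x : G} (hx : x ∈ H) : A.map (MulAut.conj x).toMonoidHom ≤ H ∧ 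
    IsMinOff p V (A.map (MulAut.conj x).toMonoidHom) := by
  have h1 : A.map (MulAut.conj x).toMonoidHom ≤ H := by
    rintro _ ⟨a, ha, rfl⟩
    exact H.mul_mem (H.mul_mem hx (hAH ha)) (H.inv_mem hx)
  refine ⟨h1, h.min_of_card h1 (best_conj (h.hHV hx) hA.1) ?_⟩
  rw [Subgroup.card_map_of_injective (MulEquiv.injective _), h.card_min hAH hA]

/-- two minimal offenders: order of `[V, A A']` divides p² -/
theorem FFS.card_comm_pair {A A' : Subgroup G} (hAH : A ≤ H) (hA : IsMinOff p V A) (hAH' : A' ≤ H) (hA' : IsMinOff p V A') : 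
    Nat.card (⁅V, A ⊔ A'⁆ : Subgroup G) ∣ p ^ 2 := by
  have hAV := hAH.trans h.hHV
  have hAV' := hAH'.trans h.hHV
  rw [commutator_sup_right hAV hAV']
  have hn : ⁅V, A⁆ ≤ normalizer ((⁅V, A'⁆ : Subgroup G) : Set G) := by
    apply le_normalizer_of_le_centralizer
    intro y hy
    rw [Subgroup.mem_centralizer_iff]
    intro c hc
    exact comm_of_elemAb h.hV c (commutator_le_self_of_norm hAV' hc) y (commutator_le_self_of_norm hAV hy)
  have h1 := card_sup_mul_card_inf hn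
  rw [h.card_comm_min hAH hA, h.card_comm_min hAH' hA', ← pow_two] at h1
  exact Dvd.intro _ h1

theorem FFS.pair {A : Subgroup G} (hAH : A ≤ H) (hA : IsMinOff p V A) {x : G} (hx : x ∈ KH p H) (hxA : x ∉ centralizer (A : Set G)) : 
    let E := A ⊔ A.map (MulAut.conj x).toMonoidHom
    E ≤ H ∧ E = (E ⊓ KH p H) ⊔ A ∧ 
    Nat.card (⁅V, E⁆ : Subgroup G) = p ^ 2 ∧ ⁅V, E ⊓ KH p H⁆ = ⁅V, E⁆ ∧ E ⊓ centralizer ((⁅V, E⁆ : Subgroup G) : Set G) = ⊥ ∧ 
    (∀ U ≤ ⁅V, E⁆, E ≤ normalizer (U : Set G) → U = ⊥ ∨ U = ⁅V, E⁆) ∧ Nonempty (E ≃* Matrix.SpecialLinearGroup (Fin 2) (ZMod p)) := by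
  intro E
  have hxH : x ∈ H := KH_le p H hx
  obtain ⟨hAH', hA'⟩ := h.conj_min hAH hA hxH
  have hEH : E ≤ H := sup_le hAH hAH'
  have hAE : A ≤ E := le_sup_left
  have hg := h.good hAH hA.1
  have hAp := good_isPGroup hg
  have hcA := h.card_min hAH hA
  have hEK : E ≤ normalizer ((E ⊓ KH p H : Subgroup G) : Set G) := by
    rw [le_normalizer_iff_conj]
    intro e he y hy
    exact ⟨E.mul_mem (E.mul_mem he hy.1) (E.inv_mem he), le_normalizer_iff_conj.1 (KH_norm p H) e (hEH he) y hy.2⟩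
  have hcomm : ∀ a ∈ A, x * a * x⁻¹ * a⁻¹ ∈ E ⊓ KH p H := by
    intro a ha
    refine ⟨?_, ?_⟩
    · exact E.mul_mem ((le_sup_right : A.map (MulAut.conj x).toMonoidHom ≤ E) ⟨a, ha, rfl⟩) (E.inv_mem (hAE ha))
    · have h1 : x * a * x⁻¹ * a⁻¹ = x * (a * x⁻¹ * a⁻¹) := by group
      change x * a * x⁻¹ * a⁻¹ ∈ KH p H
      rw [h1]
      exact mul_mem hx (le_normalizer_iff_conj.1 (KH_norm p H) a (hAH ha) _ (inv_mem hx))
  have hEeq : (E ⊓ KH p H) ⊔ A = E := by
    apply le_antisymm (sup_le inf_le_left hAE)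
    apply sup_le le_sup_right
    rintro _ ⟨a, ha, rfl⟩
    change x * a * x⁻¹ ∈ _
    have h1 : x * a * x⁻¹ = (x * a * x⁻¹ * a⁻¹) * a := by group
    rw [h1]
    exact mul_mem (mem_sup_left (hcomm a ha)) (mem_sup_right ha)
  have hcop : (Nat.card (E ⊓ KH p H : Subgroup G)).Coprime p := Nat.Coprime.coprime_dvd_left (Subgroup.card_dvd_of_le inf_le_right) (KH_cop p H)
  have hKA : ⁅E ⊓ KH p H, A⁆ ≠ ⊥ := by
    intro h0
    apply hxA
    rw [Subgroup.mem_centralizer_iff]
    intro a ha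
    have h1 := hcomm a ha
    set y := x * a * x⁻¹ * a⁻¹ with hy
    have h2 : Commute a y := Subgroup.mem_centralizer_iff.1 (Subgroup.commutator_eq_bot_iff_le_centralizer.1 h0 h1) a ha
    have h3 : x * a * x⁻¹ = y * a := by rw [hy]; group
    have h4 : (x * a * x⁻¹) ^ p = 1 := by rw [conj_pow, hg.2 a ha, mul_one, mul_inv_cancel]
    have h5 : y ^ p = 1 := by
      rw [h3, h2.symm.mul_pow, hg.2 a ha, mul_one] at h4; exact h4
    have h6 : y = 1 := by
      have h7 : orderOf y ∣ p := orderOf_dvd_of_pow_eq_one h5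
      have h8 : orderOf y ∣ Nat.card (E ⊓ KH p H : Subgroup G) := by
        have := orderOf_dvd_natCard (⟨y, h1⟩ : (E ⊓ KH p H : Subgroup G))
        rwa [Subgroup.orderOf_mk] at this
      exact orderOf_eq_one_iff.1 (Nat.eq_one_of_dvd_coprimes hcop h8 h7)
    rw [h6, one_mul] at h3
    exact (mul_inv_eq_iff_eq_mul.1 h3).symm
  have hgen : E ≤ closure {e : G | e ∈ E ∧ ∃ k : ℕ, e ^ (p ^ k) = 1} := by
    apply sup_le
    · intro a ha
      exact subset_closure ⟨hAE ha, 1, by rw [pow_one]; exact hg.2 a ha⟩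
    · intro a ha
      refine subset_closure ⟨(le_sup_right : A.map (MulAut.conj x).toMonoidHom ≤ E) ha, 1, ?_⟩
      rw [pow_one]
      exact (h.good hAH' hA'.1).2 a ha
  have hmain := natmod (V := V) (E := E) (K := E ⊓ KH p H) (A := A) (isElementaryAbelian_iff_good.1 h.hV) (hEH.trans h.hHV) (by
    rw [eq_bot_iff, ← h.hf]; exact inf_le_inf_right _ hEH) inf_le_left hEK hcop hAE hAp hEeq hKA hcA (h.card_comm_pair hAH hA hAH' hA') hgen
  exact ⟨hEH, hEeq.symm, hmain⟩

theorem FFS.prime_23 {A : Subgroup G} (hAH : A ≤ H) (hA : IsMinOff p V A) {x : G} (hx : x ∈ KH p H) (hxA : x ∉ centralizer (A : Set G)) : p = 2 ∨ p = 3 := by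
  obtain ⟨h1, h2, h3, h4, h5, h6, ⟨φ⟩⟩ := h.pair hAH hA hx hxA
  set E := A ⊔ A.map (MulAut.conj x).toMonoidHom with hE
  have hAp := good_isPGroup (h.good hAH hA.1)
  have hEK : E ≤ normalizer ((E ⊓ KH p H : Subgroup G) : Set G) := by
    rw [le_normalizer_iff_conj]
    intro e he y hy
    exact ⟨E.mul_mem (E.mul_mem he hy.1) (E.inv_mem he), le_normalizer_iff_conj.1 (KH_norm p H) e (h1 he) y hy.2⟩
  by_contra hcon
  push Not at hcon
  have h5 : 5 ≤ p := by
    have := hp.out.two_le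
    by_contra hlt
    have h4 : p = 4 := by omega
    exact absurd hp.out (by rw [h4]; decide)
  apply sl2_not_psolvable (p := p) h5
  -- E is p-solvable
  have hs : IsPSolvable p E := by
    haveI hn : ((E ⊓ KH p H).subgroupOf E).Normal := (Subgroup.normal_subgroupOf_iff_le_normalizer inf_le_left).2 hEK
    have hc : (Nat.card ((E ⊓ KH p H).subgroupOf E)).Coprime p := by
      rw [Nat.card_congr (Subgroup.subgroupOfEquivOfLe (inf_le_left : E ⊓ KH p H ≤ E)).toEquiv]
      exact Nat.Coprime.coprime_dvd_left (Subgroup.card_dvd_of_le inf_le_right) (KH_cop p H)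
    apply isPSolvable_of_quotient ((E ⊓ KH p H).subgroupOf E) (Or.inr hc)
    apply isPSolvable_of_card_good
    left
    refine ⟨1, ?_⟩
    rw [pow_one]
    change (E ⊓ KH p H).relIndex E = p
    have hAE : A ≤ E := le_sup_left
    have h7 := card_sup_mul_card_inf (H := A) (K := E ⊓ KH p H) (hAE.trans hEK)
    have hAK : A ⊓ (E ⊓ KH p H) = ⊥ := by
      apply Subgroup.inf_eq_bot_of_coprime
      rw [h.card_min hAH hA]
      exact (Nat.Coprime.coprime_dvd_left (Subgroup.card_dvd_of_le inf_le_right) (KH_cop p H)).symm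
    rw [hAK, Subgroup.card_bot, mul_one, sup_comm, ← h2, h.card_min hAH hA, card_mul_relIndex'' (inf_le_left : E ⊓ KH p H ≤ E), mul_comm] at h7
    exact Nat.eq_of_mul_eq_mul_right Nat.card_pos h7
  exact IsPSolvable.map hs φ.toMonoidHom φ.surjective

theorem FFS.exists_x {A : Subgroup G} (hAH : A ≤ H) (hA : IsMinOff p V A) : ∃ x ∈ KH p H, x ∉ centralizer (A : Set G) := by
  by_contra hcon
  push Not at hcon
  have h1 : A ≤ centralizer (KH p H : Set G) := by rw [Subgroup.le_centralizer_iff]; exact hcon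
  have h2 := h.faith hAH (good_isPGroup (h.good hAH hA.1))
  rw [inf_eq_left.2 h1] at h2
  exact (h.nontriv hAH).1 hA.2.1 h2

/-- an A-invariant r-subgroup of the p'-core not centralized by A: r divides p² - 1 -/
theorem FFS.prime_dvd {A R : Subgroup G} (hAH : A ≤ H) (hA : IsMinOff p V A) {r : ℕ} [hr : Fact r.Prime] (hR : IsPGroup r R) (hRK : R ≤ KH p H) 
    (hAR : A ≤ normalizer (R : Set G)) (hne : ¬ R ≤ centralizer (A : Set G)) : p ^ 2 ≡ 1 [MOD r] := by
  obtain ⟨x, hxR, hxA⟩ := SetLike.not_le_iff_exists.1 hne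
  obtain ⟨h1, h2, h3, h4, h5, h6, -⟩ := h.pair hAH hA (hRK hxR) hxA
  set E := A ⊔ A.map (MulAut.conj x).toMonoidHom with hE
  have hERA : E ≤ R ⊔ A := by
    apply sup_le le_sup_right
    rintro _ ⟨a, ha, rfl⟩
    exact mul_mem (mul_mem (mem_sup_left hxR) (mem_sup_right ha)) (inv_mem (mem_sup_left hxR))
  have hK0 : E ⊓ KH p H ≤ R := by
    intro y hy
    obtain ⟨b, hb, a, ha, rfl⟩ := (mem_sup_of_le_normalizer' hAR).1 (hERA hy.1)
    have h7 : a ∈ KH p H := by
      have := mul_mem (inv_mem (hRK hb)) hy.2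
      rwa [inv_mul_cancel_left] at this
    have h8 : A ⊓ KH p H = ⊥ := by
      apply Subgroup.inf_eq_bot_of_coprime
      rw [h.card_min hAH hA]
      exact (KH_cop p H).symm
    have h9 : a ∈ A ⊓ KH p H := ⟨ha, h7⟩
    rw [h8] at h9
    rw [Subgroup.mem_bot.1 h9, mul_one]
    exact hb
  have hK0r : IsPGroup r (E ⊓ KH p H : Subgroup G) := hR.to_le hK0
  set K0 := E ⊓ KH p H with hK0def
  have hK0V : K0 ≤ normalizer (V : Set G) := (inf_le_left.trans h1).trans h.hHV
  have hK0W : K0 ≤ normalizer ((⁅V, K0⁆ : Subgroup G) : Set G) := norm_commutator_self hK0V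
  rw [h4.symm] at h3
  letI : MulDistribMulAction K0 (⁅V, K0⁆ : Subgroup G) := conjMDMA hK0W
  have hact : ∀ (e : K0) (w : (⁅V, K0⁆ : Subgroup G)), ((e • w : (⁅V, K0⁆ : Subgroup G)) : G) = e * w * (e : G)⁻¹ := fun e w => rfl
  have h7 := hK0r.card_modEq_card_fixedPoints (⁅V, K0⁆ : Subgroup G)
  have hcop : (Nat.card K0).Coprime (Nat.card V) := by
    obtain ⟨n, hn⟩ := (isPGroup_of_elemAb h.hV).exists_card_eq
    rw [hn]; exact Nat.Coprime.pow_right n (Nat.Coprime.coprime_dvd_left (Subgroup.card_dvd_of_le inf_le_right) (KH_cop p H))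
  have h8 := coprime_abelian_inf (comm_of_elemAb h.hV) hK0V hcop
  have h9 : Nat.card (MulAction.fixedPoints K0 (⁅V, K0⁆ : Subgroup G)) = 1 := by
    rw [Nat.card_eq_one_iff_unique]
    refine ⟨⟨?_⟩, ⟨⟨1, fun e => smul_one e⟩⟩⟩
    have h10 : ∀ w : MulAction.fixedPoints K0 (⁅V, K0⁆ : Subgroup G), (w : (⁅V, K0⁆ : Subgroup G)) = 1 := by
      rintro ⟨w, hw⟩
      apply Subtype.ext
      have h11 : (w : G) ∈ (V ⊓ centralizer (K0 : Set G)) ⊓ ⁅V, K0⁆ := by
        refine ⟨⟨commutator_le_self_of_norm hK0V w.2, ?_⟩, w.2⟩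
        change (w : G) ∈ centralizer (K0 : Set G)
        rw [Subgroup.mem_centralizer_iff]
        intro e he
        have h12 := congrArg Subtype.val (hw ⟨e, he⟩)
        rw [hact] at h12
        exact mul_inv_eq_iff_eq_mul.1 h12
      rw [h8] at h11
      exact Subgroup.mem_bot.1 h11
    intro w w'
    exact Subtype.ext ((h10 w).trans (h10 w').symm)
  rw [h9, h3] at h7
  exact h7

theorem FFS.commutator_pgroup {A : Subgroup G} (hAH : A ≤ H) (hA : IsMinOff p V A) {q : ℕ} [hq : Fact q.Prime] 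
    (hrq : ∀ r : ℕ, r.Prime → p ^ 2 ≡ 1 [MOD r] → r = q) : IsPGroup q (⁅KH p H, A⁆ : Subgroup G) := by
  have hAK : A ≤ normalizer (KH p H : Set G) := hAH.trans (KH_norm p H)
  have hcop : (Nat.card A).Coprime (Nat.card (KH p H)) := by rw [h.card_min hAH hA]; exact (KH_cop p H).symm
  have hs : Group.IsSolvable A ∨ Group.IsSolvable (KH p H) := Or.inl (good_solvable (h.good hAH hA.1))
  obtain ⟨⟨Q, hQ, hAQ⟩, -⟩ := coprime_sylow hAK hcop hs q
  have hQK := isSylowOf_le hQ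
  have hfact : IsFact (Q.subgroupOf (KH p H)) ((centralizer (A : Set G)).subgroupOf (KH p H)) := by
    apply isFact_of_coprime
    by_contra hne
    obtain ⟨r, hr, h1, h2⟩ := Nat.Prime.not_coprime_iff_dvd.1 hne
    haveI : Fact r.Prime := ⟨hr⟩
    by_cases hrq' : r = q
    · subst hrq'
      exact (isSylowOf_iff.1 hQ).2.2 h1
    · obtain ⟨⟨R, hR, hAR⟩, -⟩ := coprime_sylow hAK hcop hs r
      have h3 : R ≤ centralizer (A : Set G) := by
        by_contra hcon
        exact hrq' (hrq r hr (h.prime_dvd hAH hA (isSylowOf_isPGroup hR) (isSylowOf_le hR) hAR hcon))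
      apply (isSylowOf_iff.1 hR).2.2
      refine dvd_trans h2 ?_
      exact Subgroup.relIndex_dvd_of_le_left (KH p H) h3
  have h1 : ⁅KH p H, A⁆ = ⁅Q, A⁆ := by
    apply commutator_eq_of_mul_centralizer hQK
    intro k hk
    obtain ⟨x, hx, c, hc, hkxc⟩ := hfact ⟨k, hk⟩
    exact ⟨x, hx, c, hc, congrArg Subtype.val hkxc⟩
  rw [h1]
  exact (isSylowOf_isPGroup hQ).to_le (commutator_le_self_of_norm hAQ)

theorem FFS.commutator_nonab (hp3 : p = 3) {A : Subgroup G} (hAH : A ≤ H) (hA : IsMinOff p V A) : ¬ IsMulCommutative (⁅KH p H, A⁆ : Subgroup G) := by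
  intro hab
  obtain ⟨x, hx, hxA⟩ := h.exists_x hAH hA
  obtain ⟨h1, h2, h3, h4, h5, h6, ⟨φ⟩⟩ := h.pair hAH hA hx hxA
  set E := A ⊔ A.map (MulAut.conj x).toMonoidHom with hE
  haveI : Fact (Nat.Prime 2) := ⟨Nat.prime_two⟩
  obtain ⟨T⟩ : Nonempty (Sylow 2 E) := inferInstance
  have hf : Function.Surjective (φ.toMonoidHom.comp (⊤ : Subgroup E).subtype) := φ.surjective.comp (fun e => ⟨⟨e, mem_top e⟩, rfl⟩)
  apply nonab_of_surj (p := p) (by rw [hp3]; decide) (⊤ : Subgroup E) (φ.toMonoidHom.comp (⊤ : Subgroup E).subtype) hf T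
  have hg := h.good hAH hA.1
  have hAK : A ≤ normalizer (KH p H : Set G) := hAH.trans (KH_norm p H)
  have hAN : A ≤ normalizer ((⁅KH p H, A⁆ : Subgroup G) : Set G) := norm_commutator_self hAK
  have hEF : E ≤ ⁅KH p H, A⁆ ⊔ A := by
    apply sup_le le_sup_right
    rintro _ ⟨a, ha, rfl⟩
    change x * a * x⁻¹ ∈ _
    have : x * a * x⁻¹ = ⁅x, a⁆ * a := by rw [commutatorElement_def]; group
    rw [this]
    exact mul_mem (mem_sup_left (commutator_mem_commutator hx ha)) (mem_sup_right ha)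
  have hT : ∀ t ∈ (T : Subgroup E), (t : G) ∈ ⁅KH p H, A⁆ := by
    intro t ht
    obtain ⟨k, hk⟩ := T.isPGroup' ⟨t, ht⟩
    have hk' : (t : G) ^ (2 ^ k) = 1 := by
      have := congrArg (fun s : (T : Subgroup E) => ((s : E) : G)) hk
      simpa using this
    obtain ⟨y, hy, a, ha, hya⟩ := (mem_sup_of_le_normalizer' hAN).1 (hEF t.2)
    have h7 : ∀ n : ℕ, (y * a) ^ n * (a ^ n)⁻¹ ∈ ⁅KH p H, A⁆ := by
      intro n
      induction n with
      | zero => simp
      | succ n ih =>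
        have e : (y * a) ^ (n + 1) * (a ^ (n + 1))⁻¹ = ((y * a) ^ n * (a ^ n)⁻¹) * (a ^ n * y * (a ^ n)⁻¹) := by
          rw [pow_succ, pow_succ]; group
        rw [e]
        exact mul_mem ih (le_normalizer_iff_conj.1 hAN _ (pow_mem ha n) y hy)
    have h8 := h7 p
    rw [hg.2 a ha, inv_one, mul_one, hya] at h8
    exact mem_of_pow_mem_of_coprime h8 hk' (by rw [hp3]; exact Nat.Coprime.pow_right k (by norm_num))
  refine ⟨⟨fun s t => ?_⟩⟩
  apply Subtype.ext
  apply Subtype.ext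
  have h7 := hab.is_comm.comm (⟨_, hT s s.2⟩ : (⁅KH p H, A⁆ : Subgroup G)) ⟨_, hT t t.2⟩
  have h8 : ((s : E) : G) * ((t : E) : G) = ((t : E) : G) * ((s : E) : G) := congrArg (fun z : (⁅KH p H, A⁆ : Subgroup G) => (z : G)) h7
  exact h8

end

end CfsgH1
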