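import Cfsg.Agent.H1.FF4
import Cfsg.Agent.H1.Subn

set_option autoImplicit false

/-! Two subnormal subgroups acting irreducibly on their commutators -/

open Cfsg Subgroup CfsgH3
open scoped Pointwise commutatorElement

namespace CfsgH1

universe u v
variable {G : Type u} [Group G]

/-- X is subnormal in E -/
def SN (X E : Subgroup G) : Prop := X ≤ E ∧ (X.subgroupOf E).IsSubnormal

theorem SN.trans {X F E : Subgroup G} (h1 : SN X F) (h2 : SN F E) : SN X E := by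
  refine ⟨h1.1.trans h2.1, ?_⟩
  apply IsSubnormal.trans (K := F.subgroupOf E) _ _ h2.2
  · intro x hx
    exact h1.1 hx
  · have h3 := IsSubnormal.comap (⟨⟨fun x => ⟨x.1.1, x.2⟩, rfl⟩, fun _ _ => rfl⟩ : (F.subgroupOf E) →* F) h1.2
    exact h3

theorem SN.restrict {X F E : Subgroup G} (h1 : SN X E) (hXF : X ≤ F) (hFE : F ≤ E) : SN X F := 
  ⟨hXF, IsSubnormal.comap (Subgroup.inclusion hFE) h1.2⟩

theorem SN.sup [Finite G] {X Y E : Subgroup G} (h1 : SN X E) (h2 : SN Y E) : SN (X ⊔ Y) E := by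
  refine ⟨sup_le h1.1 h2.1, ?_⟩
  rw [Subgroup.subgroupOf_sup h1.1 h2.1]
  exact isSubnormal_sup h1.2 h2.2

theorem SN.conj {X E : Subgroup G} (h1 : SN X E) {g : G} (hg : g ∈ E) : SN (MulAut.conj g • X) E := by
  have hle : MulAut.conj g • X ≤ E := by
    rintro _ ⟨x, hx, rfl⟩
    exact E.mul_mem (E.mul_mem hg (h1.1 hx)) (E.inv_mem hg)
  refine ⟨hle, ?_⟩
  have h2 : (MulAut.conj g • X).subgroupOf E = MulAut.conj (⟨g, hg⟩ : E) • X.subgroupOf E := by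
    ext y
    constructor
    · rintro ⟨x, hx, hxy⟩
      refine ⟨⟨x, h1.1 hx⟩, hx, Subtype.ext hxy⟩
    · rintro ⟨x, hx, hxy⟩
      exact ⟨x, hx, congrArg Subtype.val hxy⟩
  rw [h2]
  exact IsSubnormal.smul h1.2 _

theorem SN.of_normal {X E : Subgroup G} (h1 : X ≤ E) (h2 : E ≤ normalizer (X : Set G)) : SN X E := 
  ⟨h1, ((Subgroup.normal_subgroupOf_iff_le_normalizer h1).2 h2).isSubnormal⟩

def NoP (p : ℕ) (E : Subgroup G) : Prop := ∀ P : Subgroup G, SN P E → IsPGroup p P → P = ⊥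

theorem NoP.of_SN {p : ℕ} {F E : Subgroup G} (h : NoP p E) (hF : SN F E) : NoP p F := fun P hP hPp => h P (hP.trans hF) hPp

theorem noP_of_pCore {p : ℕ} {E : Subgroup G} (h : pCore p E = ⊥) : NoP p E := by
  intro P hP hPp
  have h1 : IsPGroup p (P.subgroupOf E) := hPp.of_equiv (Subgroup.subgroupOfEquivOfLe hP.1).symm
  have h2 := CfsgH2.IsSubnormal.le_pCore hP.2 h1
  rw [h, le_bot_iff, Subgroup.subgroupOf_eq_bot] at h2
  rw [disjoint_iff, inf_eq_left.2 hP.1] at h2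
  exact h2

theorem stab_pgroup {p : ℕ} [hp : Fact p.Prime] {V U P : Subgroup G} (hV : ∀ v ∈ V, v ^ p = 1) (hPV : P ⊓ centralizer (V : Set G) = ⊥) 
    (hUV : U ≤ V) (h1 : ⁅V, P⁆ ≤ U) (h2 : P ≤ centralizer (U : Set G)) : IsPGroup p P := by
  rintro ⟨x, hx⟩
  refine ⟨1, Subtype.ext ?_⟩
  rw [pow_one]
  have h3 : x ∈ stab V U := by
    refine mem_stab.2 ⟨h2 hx, fun v hv => ?_⟩
    have h4 : x * v * x⁻¹ * v⁻¹ = ⁅v, x⁆⁻¹ := by rw [commutatorElement_def]; group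
    rw [h4]
    exact inv_mem (h1 (commutator_mem_commutator hv hx))
  have h4 := stab_pow hUV hV h3
  have h5 : x ^ p ∈ P ⊓ centralizer (V : Set G) := ⟨pow_mem hx p, h4⟩
  rw [hPV] at h5
  exact Subgroup.mem_bot.1 h5

/-- the normal case -/
theorem subn_caseA [Finite G] {p : ℕ} [hp : Fact p.Prime] {V E N E₂ : Subgroup G} (hV : Good p V) (hEV : E ≤ normalizer (V : Set G)) 
    (hf : E ⊓ centralizer (V : Set G) = ⊥) (hNE : N ≤ E) (hEN : E ≤ normalizer (N : Set G)) (hgen : N ⊔ E₂ = E) (hNoP : NoP p E)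
    (hirr : ∀ U : Subgroup G, U ≤ ⁅V, E₂⁆ → E₂ ≤ normalizer (U : Set G) → U = ⊥ ∨ U = ⁅V, E₂⁆) (h21 : ¬ ⁅V, E₂⁆ ≤ ⁅V, N⁆) : 
    ⁅N, E₂⁆ = ⊥ ∧ N ⊓ E₂ = ⊥ ∧ ⁅V, N⁆ ⊓ ⁅V, E₂⁆ = ⊥ ∧ ⁅V, E⁆ = ⁅V, N⁆ ⊔ ⁅V, E₂⁆ := by
  have hE₂ : E₂ ≤ E := by rw [← hgen]; exact le_sup_right
  have hNV := hNE.trans hEV
  have hE₂V := hE₂.trans hEV
  have hEV1 : E ≤ normalizer ((⁅V, N⁆ : Subgroup G) : Set G) := normalizer_commutator hEV hEN
  have hV1V : ⁅V, N⁆ ≤ V := commutator_le_self_of_norm hNV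
  have hV2V : ⁅V, E₂⁆ ≤ V := commutator_le_self_of_norm hE₂V
  have hinf : ⁅V, N⁆ ⊓ ⁅V, E₂⁆ = ⊥ := by
    have hn : E₂ ≤ normalizer ((⁅V, N⁆ ⊓ ⁅V, E₂⁆ : Subgroup G) : Set G) := by
      rw [le_normalizer_iff_conj]
      intro e he x hx
      exact ⟨le_normalizer_iff_conj.1 (hE₂.trans hEV1) e he x hx.1, le_normalizer_iff_conj.1 (norm_commutator_self hE₂V) e he x hx.2⟩
    rcases hirr _ inf_le_right hn with h1 | h1
    · exact h1
    · exact absurd (inf_eq_right.1 h1) h21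
  have hcent : E₂ ≤ centralizer ((⁅V, N⁆ : Subgroup G) : Set G) := by
    rw [Subgroup.le_centralizer_iff, ← Subgroup.commutator_eq_bot_iff_le_centralizer, eq_bot_iff, ← hinf]
    exact le_inf (commutator_le_self_of_norm (hE₂.trans hEV1)) (commutator_mono hV1V le_rfl)
  have hNE₂ : ⁅N, E₂⁆ ≤ N := commutator_le_self_of_norm (hE₂.trans hEN)
  have hD : ⁅N, E₂⁆ = ⊥ := by
    apply hNoP
    · apply SN.of_normal (hNE₂.trans hNE)
      rw [← hgen]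
      apply sup_le
      · exact Subgroup.normalizer_commutator_ge_left _ _
      · exact Subgroup.normalizer_commutator_ge_right _ _
    · apply stab_pgroup (U := ⁅V, N⁆) hV.2 _ hV1V
      · exact commutator_mono le_rfl hNE₂
      · have h1 : ⁅N, E₂⁆ ≤ E ⊓ centralizer ((⁅V, N⁆ : Subgroup G) : Set G) := by
          have h2 : E ≤ normalizer ((E ⊓ centralizer ((⁅V, N⁆ : Subgroup G) : Set G) : Subgroup G) : Set G) := centralizer_normalized hEV1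
          have h3 : E₂ ≤ E ⊓ centralizer ((⁅V, N⁆ : Subgroup G) : Set G) := le_inf hE₂ hcent
          rw [Subgroup.commutator_comm]
          exact (commutator_mono h3 le_rfl).trans (commutator_le_self_of_norm (hNE.trans h2))
        exact h1.trans inf_le_right
      · rw [eq_bot_iff, ← hf]; exact inf_le_inf_right _ (hNE₂.trans hNE)
  refine ⟨hD, ?_, hinf, ?_⟩
  · have hNc : N ≤ centralizer (E₂ : Set G) := Subgroup.commutator_eq_bot_iff_le_centralizer.1 hD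
    apply hNoP
    · apply SN.of_normal (inf_le_left.trans hNE)
      rw [← hgen]
      apply sup_le
      · apply le_normalizer_of_le_centralizer
        rw [Subgroup.le_centralizer_iff]
        refine inf_le_right.trans ?_
        rw [Subgroup.le_centralizer_iff]; exact hNc
      · apply le_normalizer_of_le_centralizer
        rw [Subgroup.le_centralizer_iff]
        exact inf_le_left.trans hNc
    · apply stab_pgroup (U := ⁅V, N⁆) hV.2 _ hV1V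
      · exact commutator_mono le_rfl inf_le_left
      · exact inf_le_right.trans hcent
      · rw [eq_bot_iff, ← hf]; exact inf_le_inf_right _ (inf_le_left.trans hNE)
  · rw [← hgen]
    exact commutator_sup_right hNV hE₂V

theorem map_conj_eq_of_norm' {V : Subgroup G} {x : G} (hx : x ∈ normalizer (V : Set G)) : MulAut.conj x • V = V := by
  ext y
  constructor
  · rintro ⟨v, hv, rfl⟩
    exact (Subgroup.mem_normalizer_iff.1 hx v).1 hv
  · intro hy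
    refine ⟨x⁻¹ * y * x, ?_, ?_⟩
    · have h1 := (Subgroup.mem_normalizer_iff.1 (inv_mem hx) y).1 hy
      rwa [inv_inv] at h1
    · change x * (x⁻¹ * y * x) * x⁻¹ = y
      group

structure SP (p : ℕ) (V E E₁ E₂ : Subgroup G) : Prop where
  hV : Good p V
  hEV : E ≤ normalizer (V : Set G)
  hf : E ⊓ centralizer (V : Set G) = ⊥
  hgen : E₁ ⊔ E₂ = E
  s₁ : SN E₁ E
  s₂ : SN E₂ E
  hNoP : NoP p E
  i₁ : ∀ U : Subgroup G, U ≤ ⁅V, E₁⁆ → E₁ ≤ normalizer (U : Set G) → U = ⊥ ∨ U = ⁅V, E₁⁆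
  i₂ : ∀ U : Subgroup G, U ≤ ⁅V, E₂⁆ → E₂ ≤ normalizer (U : Set G) → U = ⊥ ∨ U = ⁅V, E₂⁆
  h12 : ¬ ⁅V, E₁⁆ ≤ ⁅V, E₂⁆
  h21 : ¬ ⁅V, E₂⁆ ≤ ⁅V, E₁⁆
  c₁ : 2 < Nat.card E₁
  c₂ : 2 < Nat.card E₂

theorem SP.symm {p : ℕ} {V E E₁ E₂ : Subgroup G} (h : SP p V E E₁ E₂) : SP p V E E₂ E₁ := 
  ⟨h.hV, h.hEV, h.hf, by rw [sup_comm]; exact h.hgen, h.s₂, h.s₁, h.hNoP, h.i₂, h.i₁, h.h21, h.h12, h.c₂, h.c₁⟩

theorem conj_smul_eq_iff {X : Subgroup G} [Finite G] {g : G} : X ≤ MulAut.conj g • X ↔ g ∈ normalizer (X : Set G) := by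
  constructor
  · intro h
    have h1 : X = MulAut.conj g • X := eq_of_le_of_card_le h (by
      rw [show MulAut.conj g • X = X.map (MulAut.conj g).toMonoidHom from rfl, Subgroup.card_map_of_injective (MulEquiv.injective _)])
    rw [Subgroup.mem_normalizer_iff]
    intro y
    constructor
    · intro hy
      have h2 : g * y * g⁻¹ ∈ MulAut.conj g • X := ⟨y, hy, rfl⟩
      rwa [← h1] at h2
    · intro hy
      have h3 : g * y * g⁻¹ ∈ MulAut.conj g • X := by rw [← h1]; exact hy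
      rw [mem_conj_smul] at h3
      have : g⁻¹ * (g * y * g⁻¹) * g = y := by group
      rwa [this] at h3
  · intro h y hy
    rw [mem_conj_smul]
    have := (Subgroup.mem_normalizer_iff.1 (inv_mem h) y).1 hy
    rwa [inv_inv] at this

theorem SP.star [Finite G] {p : ℕ} [hp : Fact p.Prime] {V E E₁ E₂ : Subgroup G} (h : SP p V E E₁ E₂) 
    (ih : ∀ E' E₁' E₂' : Subgroup G, Nat.card E' < Nat.card E → SP p V E' E₁' E₂' → ⁅E₁', E₂'⁆ = ⊥ ∧ ⁅V, E₁'⁆ ⊓ ⁅V, E₂'⁆ = ⊥) {g : G} (hg : g ∈ E) 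
    (hgn : g ∉ normalizer ((⁅V, E₁⁆ : Subgroup G) : Set G)) : 
    (∀ v ∈ ⁅V, E₁⁆, g * v * g⁻¹ ∈ ⁅V, E₁⁆ → v = 1) ∧ ∀ e ∈ E₁, ∀ v ∈ ⁅V, E₁⁆, e * (g * v * g⁻¹) = (g * v * g⁻¹) * e := by
  have hE₁E := h.s₁.1
  have hE₂E := h.s₂.1
  have hgV : g ∈ normalizer (V : Set G) := h.hEV hg
  have hVg : MulAut.conj g • V = V := map_conj_eq_of_norm' hgV
  have hV1g : ⁅V, MulAut.conj g • E₁⁆ = MulAut.conj g • ⁅V, E₁⁆ := by
    conv_lhs => rw [← hVg]
    exact (Subgroup.map_commutator V E₁ (MulAut.conj g).toMonoidHom).symm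
  have hlt : E₁ ≠ E := by
    rintro rfl
    exact h.h21 (commutator_mono le_rfl hE₂E)
  have hsub : E₁.subgroupOf E ≠ ⊤ := by
    intro h1
    exact hlt (le_antisymm hE₁E (Subgroup.subgroupOf_eq_top.1 h1))
  obtain ⟨K, hKn, hKle, hKlt⟩ := (IsSubnormal.lt_normal h.s₁.2).resolve_left hsub
  set F := E₁ ⊔ MulAut.conj g • E₁ with hF
  have hE₁gE : MulAut.conj g • E₁ ≤ E := (h.s₁.conj hg).1
  have hFE : F ≤ E := sup_le hE₁E hE₁gE
  have hFK : F ≤ K.map E.subtype := by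
    apply sup_le
    · intro x hx
      exact ⟨⟨x, hE₁E hx⟩, hKle hx, rfl⟩
    · rintro _ ⟨x, hx, rfl⟩
      refine ⟨⟨g, hg⟩ * ⟨x, hE₁E hx⟩ * ⟨g, hg⟩⁻¹, hKn.conj_mem _ (hKle hx) _, rfl⟩
  have hcard : Nat.card F < Nat.card E := by
    have h1 : Nat.card F ≤ Nat.card K := by
      have := Nat.card_le_card_of_injective _ (Subgroup.inclusion_injective hFK)
      rwa [Subgroup.card_map_of_injective E.subtype_injective] at this
    have h2 : Nat.card K < Nat.card E := by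
      rw [← Subgroup.card_top (G := E)]
      refine lt_of_le_of_ne (Nat.card_le_card_of_injective _ (Subgroup.inclusion_injective hKlt.le)) (fun he => hKlt.ne (eq_of_le_of_card_le hKlt.le he.ge))
    omega
  have hsF : SN F E := h.s₁.sup (h.s₁.conj hg)
  have hle : ¬ ⁅V, E₁⁆ ≤ MulAut.conj g • ⁅V, E₁⁆ := by rw [conj_smul_eq_iff]; exact hgn
  have hcards : Nat.card (MulAut.conj g • ⁅V, E₁⁆ : Subgroup G) = Nat.card (⁅V, E₁⁆ : Subgroup G) := by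
    rw [show MulAut.conj g • ⁅V, E₁⁆ = (⁅V, E₁⁆).map (MulAut.conj g).toMonoidHom from rfl, Subgroup.card_map_of_injective (MulEquiv.injective _)]
  have hSP : SP p V F E₁ (MulAut.conj g • E₁) := by
    refine ⟨h.hV, hFE.trans h.hEV, ?_, rfl, h.s₁.restrict le_sup_left hFE, (h.s₁.conj hg).restrict le_sup_right hFE, h.hNoP.of_SN hsF, h.i₁, ?_, ?_, ?_, h.c₁, ?_⟩
    · rw [eq_bot_iff, ← h.hf]; exact inf_le_inf_right _ hFE
    · intro U hU hUn
      rw [hV1g] at hU ⊢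
      have h1 : MulAut.conj g⁻¹ • U ≤ ⁅V, E₁⁆ := by
        intro y hy
        rw [mem_conj_smul, inv_inv] at hy
        have := hU hy
        rw [mem_conj_smul] at this
        have e : g⁻¹ * (g * y * g⁻¹) * g = y := by group
        rwa [e] at this
      have h2 : E₁ ≤ normalizer ((MulAut.conj g⁻¹ • U : Subgroup G) : Set G) := by
        rw [le_normalizer_iff_conj]
        intro e he y hy
        rw [mem_conj_smul, inv_inv] at hy ⊢
        have h3 := le_normalizer_iff_conj.1 hUn (g * e * g⁻¹) ⟨e, he, rfl⟩ _ hy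
        have e1 : g * e * g⁻¹ * (g * y * g⁻¹) * (g * e * g⁻¹)⁻¹ = g * (e * y * e⁻¹) * g⁻¹ := by group
        rwa [e1] at h3
      rcases h.i₁ _ h1 h2 with h3 | h3
      · left
        rw [eq_bot_iff]
        intro y hy
        have h4 : g⁻¹ * y * g ∈ MulAut.conj g⁻¹ • U := by
          rw [mem_conj_smul, inv_inv]
          have e1 : g * (g⁻¹ * y * g) * g⁻¹ = y := by group
          rw [e1]; exact hy
        rw [h3, Subgroup.mem_bot] at h4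
        rw [Subgroup.mem_bot]
        have e1 : y = g * (g⁻¹ * y * g) * g⁻¹ := by group
        rw [e1, h4]; group
      · right
        rw [← h3]
        ext y
        rw [mem_conj_smul, mem_conj_smul, inv_inv]
        have e1 : g * (g⁻¹ * y * g) * g⁻¹ = y := by group
        rw [e1]
    · rw [hV1g]; exact hle
    · rw [hV1g]
      intro h1
      exact hle (eq_of_le_of_card_le h1 hcards.ge).ge
    · rw [show MulAut.conj g • E₁ = E₁.map (MulAut.conj g).toMonoidHom from rfl, Subgroup.card_map_of_injective (MulEquiv.injective _)]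
      exact h.c₁
  obtain ⟨h1, h2⟩ := ih F E₁ _ hcard hSP
  rw [hV1g] at h2
  constructor
  · intro v hv hgv
    have h3 : g * v * g⁻¹ ∈ ⁅V, E₁⁆ ⊓ MulAut.conj g • ⁅V, E₁⁆ := ⟨hgv, ⟨v, hv, rfl⟩⟩
    rw [h2, Subgroup.mem_bot] at h3
    have e1 : v = g⁻¹ * (g * v * g⁻¹) * g := by group
    rw [e1, h3]; group
  · -- E₁ normalizes V₁^g and commutes
    have hE₁V := hE₁E.trans h.hEV
    have hn : E₁ ≤ normalizer ((⁅V, MulAut.conj g • E₁⁆ : Subgroup G) : Set G) := by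
      apply normalizer_commutator hE₁V
      apply le_normalizer_of_le_centralizer
      exact Subgroup.commutator_eq_bot_iff_le_centralizer.1 h1
    have h3 : ⁅⁅V, MulAut.conj g • E₁⁆, E₁⁆ = ⊥ := by
      rw [eq_bot_iff, ← h2, ← hV1g]
      refine le_inf (commutator_mono (commutator_le_self_of_norm (hE₁gE.trans h.hEV)) le_rfl) (commutator_le_self_of_norm hn)
    intro e he v hv
    have h4 : g * v * g⁻¹ ∈ ⁅V, MulAut.conj g • E₁⁆ := by rw [hV1g]; exact ⟨v, hv, rfl⟩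
    exact Subgroup.mem_centralizer_iff.1 (Subgroup.commutator_eq_bot_iff_le_centralizer.1 h3 h4) e he

/-- case 1 -/
theorem SP.case1 [Finite G] {p : ℕ} [hp : Fact p.Prime] {V E E₁ E₂ : Subgroup G} (h : SP p V E E₁ E₂) (hinv : E ≤ normalizer ((⁅V, E₁⁆ : Subgroup G) : Set G)) : 
    ⁅E₁, E₂⁆ = ⊥ ∧ E₁ ⊓ E₂ = ⊥ ∧ ⁅V, E₁⁆ ⊓ ⁅V, E₂⁆ = ⊥ ∧ ⁅V, E⁆ = ⁅V, E₁⁆ ⊔ ⁅V, E₂⁆ := by
  have hE₁E := h.s₁.1
  have hE₂E := h.s₂.1
  have hV1V : ⁅V, E₁⁆ ≤ V := commutator_le_self_of_norm (hE₁E.trans h.hEV)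
  set S : Set G := {e : G | e ∈ E ∧ ∀ v ∈ V, ⁅v, e⁆ ∈ ⁅V, E₁⁆} with hS
  set N := closure S with hN
  have hSV : S ⊆ (normalizer (V : Set G) : Set G) := fun s hs => h.hEV hs.1
  have hNE : N ≤ E := by rw [hN, closure_le]; exact fun s hs => hs.1
  have hVN : ⁅V, N⁆ ≤ ⁅V, E₁⁆ := commutator_le_of_gen hV1V hSV (fun s hs => hs.2) le_rfl
  have hE₁N : E₁ ≤ N := fun x hx => subset_closure ⟨hE₁E hx, fun v hv => commutator_mem_commutator hv hx⟩
  have hVN' : ⁅V, N⁆ = ⁅V, E₁⁆ := le_antisymm hVN (commutator_mono le_rfl hE₁N)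
  have hEN : E ≤ normalizer (N : Set G) := by
    rw [le_normalizer_iff_conj]
    intro e he x hx
    have h1 : N ≤ N.comap (MulAut.conj e).toMonoidHom := by
      rw [hN, closure_le]
      intro s hs
      apply Subgroup.subset_closure
      refine ⟨E.mul_mem (E.mul_mem he hs.1) (E.inv_mem he), fun v hv => ?_⟩
      change ⁅v, e * s * e⁻¹⁆ ∈ _
      have h2 : e⁻¹ * v * e ∈ V := by
        have := le_normalizer_iff_conj.1 h.hEV e⁻¹ (E.inv_mem he) v hv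
        rwa [inv_inv] at this
      have h3 := le_normalizer_iff_conj.1 hinv e he _ (hs.2 _ h2)
      have e1 : e * ⁅e⁻¹ * v * e, s⁆ * e⁻¹ = ⁅v, e * s * e⁻¹⁆ := by simp only [commutatorElement_def]; group
      rwa [e1] at h3
    exact h1 hx
  have hgen : N ⊔ E₂ = E := by
    apply le_antisymm (sup_le hNE hE₂E)
    rw [← h.hgen]
    exact sup_le (hE₁N.trans le_sup_left) le_sup_right
  obtain ⟨a, b, c, d⟩ := subn_caseA h.hV h.hEV h.hf hNE hEN hgen h.hNoP h.i₂ (by rw [hVN']; exact h.h21)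
  rw [hVN'] at c d
  refine ⟨?_, ?_, c, d⟩
  · rw [eq_bot_iff, ← a]; exact commutator_mono hE₁N le_rfl
  · rw [eq_bot_iff, ← b]; exact inf_le_inf_right _ hE₁N

theorem SP.stepb [Finite G] {p : ℕ} [hp : Fact p.Prime] {V E E₁ E₂ : Subgroup G} (h : SP p V E E₁ E₂) 
    (star₁ : ∀ g ∈ E, g ∉ normalizer ((⁅V, E₁⁆ : Subgroup G) : Set G) → (∀ v ∈ ⁅V, E₁⁆, g * v * g⁻¹ ∈ ⁅V, E₁⁆ → v = 1) ∧ ∀ e ∈ E₁, ∀ v ∈ ⁅V, E₁⁆, e * (g * v * g⁻¹) = (g * v * g⁻¹) * e)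
    {g : G} (hg : g ∈ E₂) (hgn : g ∉ normalizer ((⁅V, E₁⁆ : Subgroup G) : Set G)) (hinf : ⁅V, E₁⁆ ⊓ ⁅V, E₂⁆ = ⊥) {k : G} (hk : k ∈ E₁) (hk1 : k ≠ 1) : 
    k ∉ normalizer ((⁅V, E₂⁆ : Subgroup G) : Set G) := by
  have hE₁E := h.s₁.1
  have hE₂E := h.s₂.1
  have hV1V : ⁅V, E₁⁆ ≤ V := commutator_le_self_of_norm (hE₁E.trans h.hEV)
  have hV2V : ⁅V, E₂⁆ ≤ V := commutator_le_self_of_norm (hE₂E.trans h.hEV)
  intro hkn
  apply hk1
  have hcomm : ∀ u ∈ ⁅V, E₂⁆, Commute u k := by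
    intro u hu
    have h1 : ⁅u, k⁆ ∈ ⁅V, E₁⁆ ⊓ ⁅V, E₂⁆ := by
      refine ⟨commutator_mem_commutator (hV2V hu) hk, ?_⟩
      change ⁅u, k⁆ ∈ ⁅V, E₂⁆
      have e1 : ⁅u, k⁆ = u * (k * u * k⁻¹)⁻¹ := by rw [commutatorElement_def]; group
      rw [e1]
      exact mul_mem hu (inv_mem ((Subgroup.mem_normalizer_iff.1 hkn u).1 hu))
    rw [hinf, Subgroup.mem_bot] at h1
    exact commutatorElement_eq_one_iff_mul_comm.1 h1
  have hkc : k ∈ centralizer ((⁅V, E₁⁆ : Subgroup G) : Set G) := by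
    rw [Subgroup.mem_centralizer_iff]
    intro v hv
    have h1 : ⁅g, v⁆ ∈ ⁅V, E₂⁆ := by
      rw [← commutatorElement_inv]; exact inv_mem (commutator_mem_commutator (hV1V hv) hg)
    have h2 : Commute ⁅g, v⁆ k := hcomm _ h1
    have h3 : Commute (g * v * g⁻¹) k := ((star₁ g (hE₂E hg) hgn).2 k hk v hv).symm
    have h4 : v = ⁅g, v⁆⁻¹ * (g * v * g⁻¹) := by rw [commutatorElement_def]; group
    rw [h4]
    exact (h2.inv_left.mul_left h3).eq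
  have hT : E₁ ⊓ centralizer ((⁅V, E₁⁆ : Subgroup G) : Set G) = ⊥ := by
    apply h.hNoP
    · apply SN.trans _ h.s₁
      exact SN.of_normal inf_le_left (centralizer_normalized (norm_commutator_self (hE₁E.trans h.hEV)))
    · apply stab_pgroup (U := ⁅V, E₁⁆) h.hV.2 _ hV1V (commutator_mono le_rfl inf_le_left) inf_le_right
      rw [eq_bot_iff, ← h.hf]; exact inf_le_inf_right _ (inf_le_left.trans hE₁E)
  have h1 : k ∈ E₁ ⊓ centralizer ((⁅V, E₁⁆ : Subgroup G) : Set G) := ⟨hk, hkc⟩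
  rw [hT] at h1
  exact Subgroup.mem_bot.1 h1

theorem SP.stepc [Finite G] {p : ℕ} {V E E₁ E₂ : Subgroup G} (h : SP p V E E₁ E₂) 
    (star₂ : ∀ g ∈ E, g ∉ normalizer ((⁅V, E₂⁆ : Subgroup G) : Set G) → (∀ v ∈ ⁅V, E₂⁆, g * v * g⁻¹ ∈ ⁅V, E₂⁆ → v = 1) ∧ ∀ e ∈ E₂, ∀ v ∈ ⁅V, E₂⁆, e * (g * v * g⁻¹) = (g * v * g⁻¹) * e)
    {k : G} (hk : k ∈ E₁) (hkn : k ∉ normalizer ((⁅V, E₂⁆ : Subgroup G) : Set G)) : 
    ∃ f : (⁅V, E₂⁆ : Subgroup G) → (⁅V, E₁⁆ : Subgroup G), Function.Injective f ∧ ∀ w, (f w : G) = ⁅k, (w : G)⁆ := by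
  have hE₁E := h.s₁.1
  have hE₂E := h.s₂.1
  have hV2V : ⁅V, E₂⁆ ≤ V := commutator_le_self_of_norm (hE₂E.trans h.hEV)
  refine ⟨fun w => ⟨⁅k, (w : G)⁆, by rw [← commutatorElement_inv]; exact inv_mem (commutator_mem_commutator (hV2V w.2) hk)⟩, ?_, fun w => rfl⟩
  intro w w' hww
  have h1 : ⁅k, (w : G)⁆ = ⁅k, (w' : G)⁆ := congrArg Subtype.val hww
  have h2 : k * ((w : G) ⁻¹ * w') * k⁻¹ = (w : G)⁻¹ * w' := by
    simp only [commutatorElement_def] at h1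
    have h3 : k * (w : G) * k⁻¹ = k * (w' : G) * k⁻¹ * (w' : G)⁻¹ * w := by rw [← h1]; group
    have e1 : k * ((w : G) ⁻¹ * w') * k⁻¹ = (k * (w : G) * k⁻¹)⁻¹ * (k * w' * k⁻¹) := by group
    rw [e1, h3]; group
  have h3 := (star₂ k (hE₁E hk) hkn).1 ((w : G)⁻¹ * w') (mul_mem (inv_mem w.2) w'.2) (by rw [h2]; exact mul_mem (inv_mem w.2) w'.2)
  exact Subtype.ext (inv_mul_eq_one.1 h3)

theorem subn_pair [Finite G] {p : ℕ} [hp : Fact p.Prime] {V : Subgroup G} (n : ℕ) : ∀ E E₁ E₂ : Subgroup G, Nat.card E = n → SP p V E E₁ E₂ → 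
    ⁅E₁, E₂⁆ = ⊥ ∧ E₁ ⊓ E₂ = ⊥ ∧ ⁅V, E₁⁆ ⊓ ⁅V, E₂⁆ = ⊥ ∧ ⁅V, E⁆ = ⁅V, E₁⁆ ⊔ ⁅V, E₂⁆ := by
  induction n using Nat.strong_induction_on with
  | _ n IH =>
    intro E E₁ E₂ hn h
    have ih : ∀ E' E₁' E₂' : Subgroup G, Nat.card E' < Nat.card E → SP p V E' E₁' E₂' → ⁅E₁', E₂'⁆ = ⊥ ∧ ⁅V, E₁'⁆ ⊓ ⁅V, E₂'⁆ = ⊥ := by
      intro E' E₁' E₂' hc hsp
      obtain ⟨a, b, c, d⟩ := IH _ (hn ▸ hc) E' E₁' E₂' rfl hsp
      exact ⟨a, c⟩
    have hE₁E := h.s₁.1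
    have hE₂E := h.s₂.1
    have hV1V : ⁅V, E₁⁆ ≤ V := commutator_le_self_of_norm (hE₁E.trans h.hEV)
    have hV2V : ⁅V, E₂⁆ ≤ V := commutator_le_self_of_norm (hE₂E.trans h.hEV)
    have hE₁n : E₁ ≤ normalizer ((⁅V, E₁⁆ : Subgroup G) : Set G) := norm_commutator_self (hE₁E.trans h.hEV)
    have hE₂n : E₂ ≤ normalizer ((⁅V, E₂⁆ : Subgroup G) : Set G) := norm_commutator_self (hE₂E.trans h.hEV)
    by_cases hc1 : E₂ ≤ normalizer ((⁅V, E₁⁆ : Subgroup G) : Set G)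
    · exact h.case1 (by rw [← h.hgen]; exact sup_le hE₁n hc1)
    by_cases hc2 : E₁ ≤ normalizer ((⁅V, E₂⁆ : Subgroup G) : Set G)
    · obtain ⟨a, b, c, d⟩ := h.symm.case1 (by rw [← h.hgen]; exact sup_le hc2 hE₂n)
      refine ⟨by rw [Subgroup.commutator_comm]; exact a, by rw [inf_comm]; exact b, by rw [inf_comm]; exact c, by rw [sup_comm]; exact d⟩
    exfalso
    obtain ⟨g, hg, hgn⟩ := SetLike.not_le_iff_exists.1 hc1
    obtain ⟨k, hk, hkn⟩ := SetLike.not_le_iff_exists.1 hc2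
    have star₁ : ∀ g ∈ E, g ∉ normalizer ((⁅V, E₁⁆ : Subgroup G) : Set G) → _ := fun g hg hgn => h.star ih hg hgn
    have star₂ : ∀ g ∈ E, g ∉ normalizer ((⁅V, E₂⁆ : Subgroup G) : Set G) → _ := fun g hg hgn => h.symm.star ih hg hgn
    have hinf : ⁅V, E₁⁆ ⊓ ⁅V, E₂⁆ = ⊥ := by
      rw [Subgroup.eq_bot_iff_forall]
      rintro y ⟨hy1, hy2⟩
      have hz2 : g * y * g⁻¹ ∈ ⁅V, E₂⁆ := le_normalizer_iff_conj.1 hE₂n g hg y hy2
      have h1 := (star₁ g (hE₂E hg) hgn).2 k hk y hy1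
      have h2 : k * (g * y * g⁻¹) * k⁻¹ = g * y * g⁻¹ := by rw [h1, mul_inv_cancel_right]
      have h3 := (star₂ k (hE₁E hk) hkn).1 _ hz2 (by rw [h2]; exact hz2)
      have e1 : y = g⁻¹ * (g * y * g⁻¹) * g := by group
      rw [e1, h3]; group
    have b₂ : ∀ g' ∈ E₂, g' ≠ 1 → g' ∉ normalizer ((⁅V, E₁⁆ : Subgroup G) : Set G) := fun g' hg' hg1 => 
      h.symm.stepb star₂ hk hkn (by rw [inf_comm]; exact hinf) hg' hg1
    obtain ⟨f₂, hf₂, -⟩ := h.stepc star₂ hk hkn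
    -- three elements of E₂
    obtain ⟨g₂, hg₂, hg₂1, hg₂g⟩ : ∃ g₂ ∈ E₂, g₂ ≠ 1 ∧ g₂ ≠ g := by
      by_contra hcon
      push Not at hcon
      have h1 : Nat.card E₂ ≤ 2 := by
        classical
        have h2 : (E₂ : Set G) ⊆ ({1, g} : Finset G) := by
          intro x hx
          by_cases hx1 : x = 1
          · simp [hx1]
          · simp [hcon x hx hx1]
        calc Nat.card E₂ = (E₂ : Set G).ncard := rfl
          _ ≤ ({1, g} : Finset G).card := by rw [← Set.ncard_coe_finset]; exact Set.ncard_le_ncard h2 (Finset.finite_toSet _)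
          _ ≤ 2 := Finset.card_le_two
      have := h.c₂
      omega
    obtain ⟨f₁, hf₁, hf₁'⟩ := h.symm.stepc star₁ hg hgn
    have hsurj : Function.Surjective f₁ := by
      have h1 := Nat.card_le_card_of_injective f₂ hf₂
      exact (hf₁.bijective_of_nat_card_le h1).2
    apply hkn
    apply centralizer_le_normalizer
    rw [Subgroup.mem_centralizer_iff]
    intro w hw
    have hw' : g₂ * w * g₂⁻¹ ∈ ⁅V, E₂⁆ := le_normalizer_iff_conj.1 hE₂n g₂ hg₂ w hw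
    obtain ⟨⟨v, hv⟩, hvw⟩ := hsurj ⟨_, hw'⟩
    have h1 : ⁅g, v⁆ = g₂ * w * g₂⁻¹ := by
      have := congrArg Subtype.val hvw
      rw [hf₁'] at this
      exact this
    have h2 : w = ((g₂⁻¹ * g) * v * (g₂⁻¹ * g)⁻¹) * (g₂⁻¹ * v * g₂⁻¹⁻¹)⁻¹ := by
      have h3 : w = g₂⁻¹ * ⁅g, v⁆ * g₂ := by rw [h1]; group
      rw [h3, commutatorElement_def]; group
    have h3 : g₂⁻¹ * g ≠ 1 := fun h4 => hg₂g (inv_mul_eq_one.1 h4)
    have h4 : Commute k ((g₂⁻¹ * g) * v * (g₂⁻¹ * g)⁻¹) := (star₁ _ (mul_mem (inv_mem (hE₂E hg₂)) (hE₂E hg)) (b₂ _ (mul_mem (inv_mem hg₂) hg) h3)).2 k hk v hv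
    have h5 : Commute k (g₂⁻¹ * v * g₂⁻¹⁻¹) := (star₁ _ (inv_mem (hE₂E hg₂)) (b₂ _ (inv_mem hg₂) (inv_ne_one.2 hg₂1))).2 k hk v hv
    have h6 : Commute k w := by
      rw [h2]; exact h4.mul_right h5.inv_right
    exact h6.symm.eq

end CfsgH1
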