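import Cfsg.Agent.H1.FF5
import Cfsg.Agent.H1.SubnPair
import Cfsg.Agent.H1.Maschke
import Cfsg.Agent.H2.Fitting

set_option autoImplicit false

/-! Failure of factorization: the normal SL(2,p)'s -/

open Cfsg Subgroup CfsgH3
open scoped Pointwise commutatorElement

namespace CfsgH1

universe u v
variable {G : Type u} [Group G]

/-- commutators centralize normalized subgroups of prime order -/
theorem cyc_comm [Finite G] {p : ℕ} [hp : Fact p.Prime] {U K : Subgroup G} (hU : Nat.card U = p) (hK : K ≤ normalizer (U : Set G)) : ⁅K, K⁆ ≤ centralizer (U : Set G) := by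
  haveI : Fact (Nat.card U).Prime := ⟨by rw [hU]; exact hp.out⟩
  haveI hcyc : IsCyclic U := isCyclic_of_prime_card (p := Nat.card U) rfl
  obtain ⟨⟨u, huU⟩, hu⟩ := hcyc.exists_generator
  have hgen : ∀ x ∈ U, ∃ n : ℤ, x = u ^ n := by
    intro x hx
    obtain ⟨n, hn⟩ := hu ⟨x, hx⟩
    exact ⟨n, (congrArg Subtype.val hn).symm⟩
  rw [Subgroup.commutator_le]
  intro k hk l hl
  obtain ⟨a, ha⟩ := hgen _ (le_normalizer_iff_conj.1 hK k hk u huU)
  obtain ⟨b, hb⟩ := hgen _ (le_normalizer_iff_conj.1 hK l hl u huU)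
  have hka : ∀ x ∈ U, k * x * k⁻¹ = x ^ a := by
    intro x hx
    obtain ⟨n, rfl⟩ := hgen x hx
    rw [← conj_zpow, ha, ← zpow_mul, ← zpow_mul, mul_comm]
  have hlb : ∀ x ∈ U, l * x * l⁻¹ = x ^ b := by
    intro x hx
    obtain ⟨n, rfl⟩ := hgen x hx
    rw [← conj_zpow, hb, ← zpow_mul, ← zpow_mul, mul_comm]
  rw [Subgroup.mem_centralizer_iff]
  intro x hx
  have hy : (l * k)⁻¹ * x * (l * k) ∈ U := by
    have := le_normalizer_iff_conj.1 hK (l * k)⁻¹ (inv_mem (mul_mem hl hk)) x hx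
    rwa [inv_inv] at this
  set y := (l * k)⁻¹ * x * (l * k) with hydef
  have h1 : (k * l) * y * (k * l)⁻¹ = y ^ (a * b) := by
    calc (k * l) * y * (k * l)⁻¹ = k * (l * y * l⁻¹) * k⁻¹ := by group
      _ = (k * y * k⁻¹) ^ b := by rw [hlb y hy, conj_zpow]
      _ = y ^ (a * b) := by rw [hka y hy, ← zpow_mul]
  have h2 : (l * k) * y * (l * k)⁻¹ = y ^ (a * b) := by
    calc (l * k) * y * (l * k)⁻¹ = l * (k * y * k⁻¹) * l⁻¹ := by group
      _ = (l * y * l⁻¹) ^ a := by rw [hka y hy, conj_zpow]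
      _ = y ^ (a * b) := by rw [hlb y hy, ← zpow_mul, mul_comm]
  have h3 : ⁅k, l⁆ * x * ⁅k, l⁆⁻¹ = x := by
    calc ⁅k, l⁆ * x * ⁅k, l⁆⁻¹ = (k * l) * y * (k * l)⁻¹ := by rw [hydef, commutatorElement_def]; group
      _ = (l * k) * y * (l * k)⁻¹ := by rw [h1, h2]
      _ = x := by rw [hydef]; group
  exact (mul_inv_eq_iff_eq_mul.1 h3).symm

theorem two_cent [Finite G] {U K : Subgroup G} (hU : Nat.card U = 2) (hK : K ≤ normalizer (U : Set G)) : K ≤ centralizer (U : Set G) := by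
  obtain ⟨y, hy, huniq⟩ := (Nat.card_eq_two_iff' (1 : U)).1 hU
  intro k hk
  rw [Subgroup.mem_centralizer_iff]
  intro u hu
  by_cases hu1 : u = 1
  · rw [hu1, one_mul, mul_one]
  · have h1 := huniq ⟨u, hu⟩ (fun h => hu1 (congrArg Subtype.val h))
    have h2 := huniq ⟨k * u * k⁻¹, le_normalizer_iff_conj.1 hK k hk u hu⟩ (fun h => hu1 (by
      have h3 : k * u * k⁻¹ = 1 := congrArg Subtype.val h
      have h4 : u = k⁻¹ * (k * u * k⁻¹) * k := by group
      rw [h4, h3]; group))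
    have h3 : k * u * k⁻¹ = u := congrArg Subtype.val (h2.trans h1.symm)
    exact (mul_inv_eq_iff_eq_mul.1 h3).symm

section

variable [Finite G] {p : ℕ} [hp : Fact p.Prime] {V H : Subgroup G} (h : FFS p V H)

include h

theorem FFS.Kx_nonab (hp3 : p = 3) {A : Subgroup G} (hAH : A ≤ H) (hA : IsMinOff p V A) {x : G} (hx : x ∈ KH p H) (hxA : x ∉ centralizer (A : Set G)) : 
    ⁅(A ⊔ A.map (MulAut.conj x).toMonoidHom) ⊓ KH p H, (A ⊔ A.map (MulAut.conj x).toMonoidHom) ⊓ KH p H⁆ ≠ ⊥ := by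
  intro hab
  obtain ⟨h1, h2, h3, h4, h5, h6, ⟨φ⟩⟩ := h.pair hAH hA hx hxA
  set E := A ⊔ A.map (MulAut.conj x).toMonoidHom with hE
  haveI : Fact (Nat.Prime 2) := ⟨Nat.prime_two⟩
  obtain ⟨T⟩ : Nonempty (Sylow 2 E) := inferInstance
  have hf : Function.Surjective (φ.toMonoidHom.comp (⊤ : Subgroup E).subtype) := φ.surjective.comp (fun e => ⟨⟨e, mem_top e⟩, rfl⟩)
  apply nonab_of_surj (p := p) (by rw [hp3]; decide) (⊤ : Subgroup E) (φ.toMonoidHom.comp (⊤ : Subgroup E).subtype) hf T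
  have hg := h.good hAH hA.1
  have hAE : A ≤ E := le_sup_left
  have hAN : A ≤ normalizer ((E ⊓ KH p H : Subgroup G) : Set G) := by
    rw [le_normalizer_iff_conj]
    intro e he y hy
    exact ⟨E.mul_mem (E.mul_mem (hAE he) hy.1) (E.inv_mem (hAE he)), le_normalizer_iff_conj.1 (KH_norm p H) e (hAH he) y hy.2⟩
  have hT : ∀ t ∈ (T : Subgroup E), (t : G) ∈ E ⊓ KH p H := by
    intro t ht
    obtain ⟨k, hk⟩ := T.isPGroup' ⟨t, ht⟩
    have hk' : (t : G) ^ (2 ^ k) = 1 := by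
      have := congrArg (fun s : (T : Subgroup E) => ((s : E) : G)) hk
      simpa using this
    have ht2 : (t : G) ∈ E ⊓ KH p H ⊔ A := by rw [← h2]; exact t.2
    obtain ⟨y, hy, a, ha, hya⟩ := (mem_sup_of_le_normalizer' hAN).1 ht2
    have h7 : ∀ n : ℕ, (y * a) ^ n * (a ^ n)⁻¹ ∈ E ⊓ KH p H := by
      intro n
      induction n with
      | zero => simp
      | succ n ih =>
        have e : (y * a) ^ (n + 1) * (a ^ (n + 1))⁻¹ = ((y * a) ^ n * (a ^ n)⁻¹) * (a ^ n * y * (a ^ n)⁻¹) := by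
          rw [pow_succ, pow_succ]; group
        rw [e]
        exact mul_mem ih (le_normalizer_iff_conj.1 hAN _ (pow_mem ha n) y hy)
    have h8 := h7 p
    rw [hg.2 a ha, inv_one, mul_one, hya] at h8
    exact mem_of_pow_mem_of_coprime h8 hk' (by rw [hp3]; exact Nat.Coprime.pow_right k (by norm_num))
  refine ⟨⟨fun s t => ?_⟩⟩
  apply Subtype.ext
  apply Subtype.ext
  have h7 := Subgroup.mem_centralizer_iff.1 (Subgroup.commutator_eq_bot_iff_le_centralizer.1 hab (hT s s.2)) _ (hT t t.2)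
  exact h7.symm

theorem FFS.irrK {A : Subgroup G} (hAH : A ≤ H) (hA : IsMinOff p V A) {x : G} (hx : x ∈ KH p H) (hxA : x ∉ centralizer (A : Set G)) : 
    ∀ U ≤ ⁅V, (A ⊔ A.map (MulAut.conj x).toMonoidHom) ⊓ KH p H⁆, (A ⊔ A.map (MulAut.conj x).toMonoidHom) ⊓ KH p H ≤ normalizer (U : Set G) → 
      U = ⊥ ∨ U = ⁅V, (A ⊔ A.map (MulAut.conj x).toMonoidHom) ⊓ KH p H⁆ := by
  obtain ⟨h1, h2, h3, h4, h5, h6, h7⟩ := h.pair hAH hA hx hxA
  have h23 := h.prime_23 hAH hA hx hxA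
  have hnonab := fun hp3 => h.Kx_nonab hp3 hAH hA hx hxA
  set E := A ⊔ A.map (MulAut.conj x).toMonoidHom with hE
  rw [h4]
  set W := ⁅V, E⁆ with hW
  set K := E ⊓ KH p H with hK
  intro U hUW hKU
  by_contra hcon
  push Not at hcon
  obtain ⟨hU0, hUW'⟩ := hcon
  have hEV := h1.trans h.hHV
  have hWV : W ≤ V := commutator_le_self_of_norm hEV
  have hKE : K ≤ E := inf_le_left
  have hEW : E ≤ normalizer (W : Set G) := norm_commutator_self hEV
  have hVp := isPGroup_of_elemAb h.hV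
  have hWp : IsPGroup p W := hVp.to_le hWV
  have hVg : Good p V := isElementaryAbelian_iff_good.1 h.hV
  have hWg : Good p W := good_of_le hVg hWV
  have hcop : (Nat.card K).Coprime p := Nat.Coprime.coprime_dvd_left (Subgroup.card_dvd_of_le inf_le_right) (KH_cop p H)
  have hprop : ∀ X : Subgroup G, X ≤ W → X ≠ ⊥ → X ≠ W → Nat.card X = p := by
    intro X hXW hX0 hXW'
    have h2 := mul_card_le_of_lt hWp (lt_of_le_of_ne hXW hXW')
    have h3' : Nat.card X ∣ p ^ 2 := (Subgroup.card_dvd_of_le hXW).trans h3.dvd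
    obtain ⟨m, hm, hm'⟩ := (Nat.dvd_prime_pow hp.out).1 h3'
    interval_cases m
    · exact absurd (Subgroup.card_eq_one.1 (by rw [hm', pow_zero])) hX0
    · rw [hm', pow_one]
    · rw [hm', h3] at h2
      have := hp.out.two_le
      have := pow_pos hp.out.pos 2
      nlinarith
  have hUc := hprop U hUW hU0 hUW'
  obtain ⟨C, hCW, hCU, hCs⟩ := elem_compl hWg hUW
  obtain ⟨U', hU'W, hKU', hUU', hUs⟩ := maschke (A := K) hWg.1 (hKE.trans hEW) (by rw [h3]; exact Nat.Coprime.pow_right 2 hcop) hUW hKU hCW 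
    (by rw [inf_comm]; exact hCU) (by rw [sup_comm]; exact hCs)
  have hU'0 : U' ≠ ⊥ := by
    rintro rfl
    rw [sup_bot_eq] at hUs
    exact hUW' hUs
  have hU'W' : U' ≠ W := by
    rintro he
    rw [he, inf_eq_left.2 hUW] at hUU'
    exact hU0 hUU'
  have hU'c := hprop U' hU'W hU'0 hU'W'
  have hcW : ∀ X : Subgroup G, X ≤ centralizer (U : Set G) → X ≤ centralizer (U' : Set G) → X ≤ centralizer (W : Set G) := by
    intro X hX1 hX2
    rw [Subgroup.le_centralizer_iff, ← hUs]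
    exact sup_le (by rw [Subgroup.le_centralizer_iff]; exact hX1) (by rw [Subgroup.le_centralizer_iff]; exact hX2)
  have hK0 : K ≠ ⊥ := by
    intro h0
    rw [h0, commutator_bot_right] at h4
    rw [← h4, Subgroup.card_bot] at h3
    have := hp.out.two_le
    nlinarith
  rcases h23 with hp2 | hp3
  · -- p = 2
    apply hK0
    rw [eq_bot_iff, ← h5]
    subst hp2
    exact le_inf hKE (hcW K (two_cent hUc hKU) (two_cent hU'c hKU'))
  · apply hnonab hp3
    rw [eq_bot_iff, ← h5]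
    have h8 : ⁅K, K⁆ ≤ K := Subgroup.commutator_le_self K
    exact le_inf (h8.trans hKE) (hcW _ (cyc_comm hUc hKU) (cyc_comm hU'c hKU'))

end

end CfsgH1
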