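import Cfsg.Agent.H1.FF6

set_option autoImplicit false

/-! Failure of factorization: the normal SL(2,p)'s -/

open Cfsg Subgroup CfsgH3
open scoped Pointwise commutatorElement

namespace CfsgH1

universe u v
variable {G : Type u} [Group G]

section

variable [Finite G] {p : ℕ} [hp : Fact p.Prime] {V H : Subgroup G} (h : FFS p V H)

include h

theorem FFS.Q_pgroup {A : Subgroup G} (hAH : A ≤ H) (hA : IsMinOff p V A) : ∃ q : ℕ, q.Prime ∧ IsPGroup q (⁅KH p H, A⁆ : Subgroup G) := by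
  obtain ⟨x, hx, hxA⟩ := h.exists_x hAH hA
  have hsmall : ∀ r : ℕ, r.Prime → p ^ 2 ≡ 1 [MOD r] → (p = 2 → r = 3) ∧ (p = 3 → r = 2) := by
    intro r hr hmod
    constructor
    · rintro rfl
      have h1 : r ∣ 3 := (Nat.modEq_iff_dvd' (by norm_num)).1 hmod.symm
      exact (Nat.prime_dvd_prime_iff_eq hr Nat.prime_three).1 h1
    · rintro rfl
      have h1 : r ∣ 8 := (Nat.modEq_iff_dvd' (by norm_num)).1 hmod.symm
      have h2 : r ∣ 2 ^ 3 := h1
      exact (Nat.prime_dvd_prime_iff_eq hr Nat.prime_two).1 (hr.dvd_of_dvd_pow h2)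
  rcases h.prime_23 hAH hA hx hxA with h2 | h3
  · haveI : Fact (Nat.Prime 3) := ⟨Nat.prime_three⟩
    exact ⟨3, Nat.prime_three, h.commutator_pgroup hAH hA (fun r hr hrp => (hsmall r hr hrp).1 h2)⟩
  · haveI : Fact (Nat.Prime 2) := ⟨Nat.prime_two⟩
    exact ⟨2, Nat.prime_two, h.commutator_pgroup hAH hA (fun r hr hrp => (hsmall r hr hrp).2 h3)⟩

theorem FFS.AK_bot {A : Subgroup G} (hAH : A ≤ H) (hA : IsMinOff p V A) : A ⊓ KH p H = ⊥ := by
  apply Subgroup.inf_eq_bot_of_coprime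
  rw [h.card_min hAH hA]
  exact (KH_cop p H).symm

theorem FFS.A_norm_Q {A : Subgroup G} (hAH : A ≤ H) : A ≤ normalizer ((⁅KH p H, A⁆ : Subgroup G) : Set G) := Subgroup.normalizer_commutator_ge_right _ _

theorem FFS.Q_le {A : Subgroup G} (hAH : A ≤ H) : ⁅KH p H, A⁆ ≤ KH p H := commutator_le_self_of_norm (hAH.trans (KH_norm p H))

/-- `E_x ∩ K ≤ Q_A` -/
theorem FFS.Kx_le {A : Subgroup G} (hAH : A ≤ H) (hA : IsMinOff p V A) {x : G} (hx : x ∈ KH p H) : 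
    (A ⊔ A.map (MulAut.conj x).toMonoidHom) ⊓ KH p H ≤ ⁅KH p H, A⁆ := by
  intro y hy
  have hEF : A ⊔ A.map (MulAut.conj x).toMonoidHom ≤ ⁅KH p H, A⁆ ⊔ A := by
    apply sup_le le_sup_right
    rintro _ ⟨a, ha, rfl⟩
    change x * a * x⁻¹ ∈ _
    have : x * a * x⁻¹ = ⁅x, a⁆ * a := by rw [commutatorElement_def]; group
    rw [this]
    exact mul_mem (mem_sup_left (commutator_mem_commutator hx ha)) (mem_sup_right ha)
  obtain ⟨q, hq, a, ha, rfl⟩ := (mem_sup_of_le_normalizer' (h.A_norm_Q hAH)).1 (hEF hy.1)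
  have h1 : a ∈ A ⊓ KH p H := by
    refine ⟨ha, ?_⟩
    have := mul_mem (inv_mem (h.Q_le hAH hq)) hy.2
    rwa [inv_mul_cancel_left] at this
  rw [h.AK_bot hAH hA, Subgroup.mem_bot] at h1
  rw [h1, mul_one]; exact hq

theorem FFS.noP_of_le {F : Subgroup G} (hF : F ≤ KH p H) : NoP p F := by
  intro P hP hPp
  have h3 : (Nat.card P).Coprime p := Nat.Coprime.coprime_dvd_left (Subgroup.card_dvd_of_le (hP.1.trans hF)) (KH_cop p H)
  obtain ⟨n, hn⟩ := hPp.exists_card_eq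
  rw [← Subgroup.card_eq_one]
  rw [hn] at h3 ⊢
  rcases Nat.eq_zero_or_pos n with h0 | h0
  · rw [h0, pow_zero]
  · exact absurd ((Nat.coprime_pow_left_iff h0 p p).1 h3) (by rw [Nat.coprime_self]; exact hp.out.one_lt.ne')

theorem FFS.Kx_card {A : Subgroup G} (hAH : A ≤ H) (hA : IsMinOff p V A) {x : G} (hx : x ∈ KH p H) (hxA : x ∉ centralizer (A : Set G)) : 
    2 < Nat.card ((A ⊔ A.map (MulAut.conj x).toMonoidHom) ⊓ KH p H : Subgroup G) := by
  obtain ⟨h1, h2, h3, h4, h5, h6, h7⟩ := h.pair hAH hA hx hxA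
  have h23 := h.prime_23 hAH hA hx hxA
  have hnonab := fun hp3 => h.Kx_nonab hp3 hAH hA hx hxA
  set K := (A ⊔ A.map (MulAut.conj x).toMonoidHom) ⊓ KH p H with hK
  have hK0 : K ≠ ⊥ := by
    intro h0
    rw [h0, commutator_bot_right] at h4
    rw [← h4, Subgroup.card_bot] at h3
    have := hp.out.two_le
    nlinarith
  have hc1 : Nat.card K ≠ 1 := fun h8 => hK0 (Subgroup.card_eq_one.1 h8)
  have hc0 := Nat.card_pos (α := K)
  have hc2 : Nat.card K ≠ 2 := by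
    intro h8
    rcases h23 with hp2 | hp3
    · have h9 : (Nat.card K).Coprime p := Nat.Coprime.coprime_dvd_left (Subgroup.card_dvd_of_le inf_le_right) (KH_cop p H)
      rw [h8, hp2] at h9
      exact absurd h9 (by decide)
    · apply hnonab hp3
      rw [Subgroup.commutator_eq_bot_iff_le_centralizer]
      haveI : Fact (Nat.card K).Prime := ⟨by rw [h8]; exact Nat.prime_two⟩
      haveI hcyc : IsCyclic K := isCyclic_of_prime_card (p := Nat.card K) rfl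
      obtain ⟨⟨u, huU⟩, hu⟩ := hcyc.exists_generator
      intro a ha
      rw [Subgroup.mem_centralizer_iff]
      intro b hb
      obtain ⟨i, hi⟩ := hu ⟨a, ha⟩
      obtain ⟨j, hj⟩ := hu ⟨b, hb⟩
      have hi' : u ^ i = a := congrArg Subtype.val hi
      have hj' : u ^ j = b := congrArg Subtype.val hj
      rw [← hi', ← hj']
      exact ((Commute.refl u).zpow_zpow j i).eq
  omega

theorem FFS.W_eq {A : Subgroup G} (hAH : A ≤ H) (hA : IsMinOff p V A) {x y : G} (hx : x ∈ KH p H) (hxA : x ∉ centralizer (A : Set G)) 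
    (hy : y ∈ KH p H) (hyA : y ∉ centralizer (A : Set G)) : 
    ⁅V, A ⊔ A.map (MulAut.conj x).toMonoidHom⁆ = ⁅V, A ⊔ A.map (MulAut.conj y).toMonoidHom⁆ := by
  obtain ⟨h1, h2, h3, h4, h5, h6, h7⟩ := h.pair hAH hA hx hxA
  obtain ⟨h1', h2', h3', h4', h5', h6', h7'⟩ := h.pair hAH hA hy hyA
  have hc := h.Kx_card hAH hA hx hxA
  have hc' := h.Kx_card hAH hA hy hyA
  have hi := h.irrK hAH hA hx hxA
  have hi' := h.irrK hAH hA hy hyA
  have hle := h.Kx_le hAH hA hx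
  have hle' := h.Kx_le hAH hA hy
  set Ex := A ⊔ A.map (MulAut.conj x).toMonoidHom with hEx
  set Ey := A ⊔ A.map (MulAut.conj y).toMonoidHom with hEy
  by_contra hne
  set F := (Ex ⊓ KH p H) ⊔ (Ey ⊓ KH p H) with hF
  have hFQ : F ≤ ⁅KH p H, A⁆ := sup_le hle hle'
  have hFK : F ≤ KH p H := hFQ.trans (h.Q_le hAH)
  obtain ⟨q, hq, hQ⟩ := h.Q_pgroup hAH hA
  haveI : Fact q.Prime := ⟨hq⟩
  haveI hFn : Group.IsNilpotent F := (hQ.to_le hFQ).isNilpotent
  have hSP : SP p V F (Ex ⊓ KH p H) (Ey ⊓ KH p H) := by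
    refine ⟨isElementaryAbelian_iff_good.1 h.hV, (hFK.trans (KH_le p H)).trans h.hHV, ?_, rfl, ⟨le_sup_left, CfsgH2.isSubnormal_of_isNilpotent _⟩, 
      ⟨le_sup_right, CfsgH2.isSubnormal_of_isNilpotent _⟩, h.noP_of_le hFK, hi, hi', ?_, ?_, hc, hc'⟩
    · rw [eq_bot_iff, ← h.Kf]; exact inf_le_inf_right _ hFK
    · rw [h4, h4']
      intro hle2
      exact hne (eq_of_le_of_card_le hle2 (by rw [h3, h3']))
    · rw [h4, h4']
      intro hle2
      exact hne (eq_of_le_of_card_le hle2 (by rw [h3, h3'])).symm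
  obtain ⟨-, -, h8, -⟩ := subn_pair _ F _ _ rfl hSP
  rw [h4, h4'] at h8
  apply hA.2.1
  rw [eq_bot_iff, ← h8]
  exact le_inf (commutator_mono le_rfl le_sup_left) (commutator_mono le_rfl le_sup_left)

/-- generation of `[K,A]A` by conjugates of `A` -/
theorem FFS.EE_gen {A : Subgroup G} (hAH : A ≤ H) : ⁅KH p H, A⁆ ⊔ A ≤ ⨆ y : KH p H, A.map (MulAut.conj (y : G)).toMonoidHom := by
  have hA1 : A ≤ ⨆ y : KH p H, A.map (MulAut.conj (y : G)).toMonoidHom := by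
    refine le_trans ?_ (le_iSup _ (1 : KH p H))
    intro a ha
    exact ⟨a, ha, by simp⟩
  apply sup_le _ hA1
  rw [Subgroup.commutator_le]
  intro y hy a ha
  have e1 : ⁅y, a⁆ = (y * a * y⁻¹) * a⁻¹ := by rw [commutatorElement_def]
  rw [e1]
  exact mul_mem ((le_iSup (fun y : KH p H => A.map (MulAut.conj (y : G)).toMonoidHom) ⟨y, hy⟩) ⟨a, ha, rfl⟩) (inv_mem (hA1 ha))

theorem FFS.EE_main {A : Subgroup G} (hAH : A ≤ H) (hA : IsMinOff p V A) : 
    (∀ x ∈ KH p H, x ∉ centralizer (A : Set G) → ⁅V, A ⊔ A.map (MulAut.conj x).toMonoidHom⁆ = ⁅V, ⁅KH p H, A⁆ ⊔ A⁆) ∧ 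
    Nat.card (⁅V, ⁅KH p H, A⁆ ⊔ A⁆ : Subgroup G) = p ^ 2 ∧ ⁅V, ⁅KH p H, A⁆⁆ = ⁅V, ⁅KH p H, A⁆ ⊔ A⁆ ∧ 
    (⁅KH p H, A⁆ ⊔ A) ⊓ centralizer ((⁅V, ⁅KH p H, A⁆ ⊔ A⁆ : Subgroup G) : Set G) = ⊥ ∧ 
    (∀ U ≤ ⁅V, ⁅KH p H, A⁆ ⊔ A⁆, ⁅KH p H, A⁆ ≤ normalizer (U : Set G) → U = ⊥ ∨ U = ⁅V, ⁅KH p H, A⁆ ⊔ A⁆) ∧ 
    Nonempty ((⁅KH p H, A⁆ ⊔ A : Subgroup G) ≃* Matrix.SpecialLinearGroup (Fin 2) (ZMod p)) ∧ 2 < Nat.card (⁅KH p H, A⁆ : Subgroup G) := by
  obtain ⟨x, hx, hxA⟩ := h.exists_x hAH hA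
  obtain ⟨h1, h2, h3, h4, h5, h6, h7⟩ := h.pair hAH hA hx hxA
  have hVE : A ≤ normalizer (V : Set G) := hAH.trans h.hHV
  have hEH : ⁅KH p H, A⁆ ⊔ A ≤ H := sup_le ((h.Q_le hAH).trans (KH_le p H)) hAH
  have hg := h.good hAH hA.1
  have hWx : ⁅V, ⁅KH p H, A⁆ ⊔ A⁆ ≤ ⁅V, A ⊔ A.map (MulAut.conj x).toMonoidHom⁆ := by
    refine (commutator_le_iSup (fun y : KH p H => A.map (MulAut.conj (y : G)).toMonoidHom) ?_ (h.EE_gen hAH)).trans (iSup_le ?_)
    · rintro ⟨y, hy⟩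
      exact ((h.conj_min hAH hA (KH_le p H hy)).1).trans h.hHV
    · rintro ⟨y, hy⟩
      by_cases hyA : y ∈ centralizer (A : Set G)
      · have e1 : A.map (MulAut.conj y).toMonoidHom = A := by
          apply map_conj_eq_of_norm
          exact centralizer_le_normalizer _ hyA
        change ⁅V, A.map (MulAut.conj y).toMonoidHom⁆ ≤ _
        rw [e1]
        exact commutator_mono le_rfl le_sup_left
      · rw [h.W_eq hAH hA hx hxA hy hyA]
        exact commutator_mono le_rfl le_sup_right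
  have hidem : ⁅⁅KH p H, A⁆, A⁆ = ⁅KH p H, A⁆ := coprime_commutator_idem (hAH.trans (KH_norm p H)) (by rw [h.card_min hAH hA]; exact (KH_cop p H).symm) (Or.inl (good_solvable hg))
  have hQ0 : ⁅KH p H, A⁆ ≠ ⊥ := by
    intro h0
    apply hxA
    exact Subgroup.commutator_eq_bot_iff_le_centralizer.1 h0 hx
  have hnm := natmod (V := V) (E := ⁅KH p H, A⁆ ⊔ A) (K := ⁅KH p H, A⁆) (A := A) (isElementaryAbelian_iff_good.1 h.hV) (hEH.trans h.hHV) (by
      rw [eq_bot_iff, ← h.hf]; exact inf_le_inf_right _ hEH) le_sup_left (sup_le Subgroup.le_normalizer (h.A_norm_Q hAH)) 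
      (Nat.Coprime.coprime_dvd_left (Subgroup.card_dvd_of_le (h.Q_le hAH)) (KH_cop p H)) le_sup_right (good_isPGroup hg) rfl (by rw [hidem]; exact hQ0) 
      (h.card_min hAH hA) ((Subgroup.card_dvd_of_le hWx).trans h3.dvd) (by
        refine (h.EE_gen hAH).trans (iSup_le ?_)
        rintro ⟨y, hy⟩ _ ⟨a, ha, rfl⟩
        apply Subgroup.subset_closure
        refine ⟨?_, 1, ?_⟩
        · change y * a * y⁻¹ ∈ _
          have : y * a * y⁻¹ = ⁅y, a⁆ * a := by rw [commutatorElement_def]; group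
          rw [this]
          exact mul_mem (mem_sup_left (commutator_mem_commutator hy ha)) (mem_sup_right ha)
        · rw [pow_one]
          change (y * a * y⁻¹) ^ p = 1
          rw [conj_pow, hg.2 a ha, mul_one, mul_inv_cancel])
  obtain ⟨a1, a2, a3, a4, a5⟩ := hnm
  have hWeq : ⁅V, A ⊔ A.map (MulAut.conj x).toMonoidHom⁆ = ⁅V, ⁅KH p H, A⁆ ⊔ A⁆ := by
    symm
    apply eq_of_le_of_card_le hWx
    rw [h3, a1]
  refine ⟨?_, a1, a2, a3, ?_, a5, ?_⟩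
  · intro y hy hyA
    rw [← hWeq]; exact h.W_eq hAH hA hy hyA hx hxA
  · intro U hU hQU
    have := h.irrK hAH hA hx hxA U (by rw [h4, hWeq]; exact hU) ((h.Kx_le hAH hA hx).trans hQU)
    rwa [h4, hWeq] at this
  · exact lt_of_lt_of_le (h.Kx_card hAH hA hx hxA) (Nat.card_le_card_of_injective _ (Subgroup.inclusion_injective (h.Kx_le hAH hA hx)))

end

end CfsgH1
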