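import Cfsg.Agent.H1.FF7

set_option autoImplicit false

/-! Failure of factorization: the structure theorem -/

open Cfsg Subgroup CfsgH3
open scoped Pointwise commutatorElement

namespace CfsgH1

universe u v
variable {G : Type u} [Group G]

/-- `E_A` -/
noncomputable def EE (p : ℕ) (H A : Subgroup G) : Subgroup G := ⁅KH p H, A⁆ ⊔ A

section

variable [Finite G] {p : ℕ} [hp : Fact p.Prime] {V H : Subgroup G} (h : FFS p V H)

include h

theorem FFS.EE_le {A : Subgroup G} (hAH : A ≤ H) : EE p H A ≤ H := sup_le ((h.Q_le hAH).trans (KH_le p H)) hAH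

theorem FFS.EE_pgen {A : Subgroup G} (hAH : A ≤ H) (hA : IsMinOff p V A) : EE p H A ≤ closure {e : G | e ∈ EE p H A ∧ ∃ k : ℕ, e ^ (p ^ k) = 1} := by
  have hg := h.good hAH hA.1
  refine (h.EE_gen hAH).trans (iSup_le ?_)
  rintro ⟨y, hy⟩ _ ⟨a, ha, rfl⟩
  apply Subgroup.subset_closure
  refine ⟨?_, 1, ?_⟩
  · change y * a * y⁻¹ ∈ ⁅KH p H, A⁆ ⊔ A
    have : y * a * y⁻¹ = ⁅y, a⁆ * a := by rw [commutatorElement_def]; group
    rw [this]
    exact mul_mem (mem_sup_left (commutator_mem_commutator hy ha)) (mem_sup_right ha)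
  · rw [pow_one]
    change (y * a * y⁻¹) ^ p = 1
    rw [conj_pow, hg.2 a ha, mul_one, mul_inv_cancel]

/-- the fixed points of `Q` are those of `E` -/
theorem FFS.decompV {A : Subgroup G} (hAH : A ≤ H) (hA : IsMinOff p V A) : 
    V ⊓ centralizer ((⁅KH p H, A⁆ : Subgroup G) : Set G) = V ⊓ centralizer (EE p H A : Set G) ∧ 
    ⁅V, EE p H A⁆ ⊓ (V ⊓ centralizer (EE p H A : Set G)) = ⊥ ∧ ⁅V, EE p H A⁆ ⊔ (V ⊓ centralizer (EE p H A : Set G)) = V := by
  obtain ⟨-, a1, a2, a3, a4, a5, a6⟩ := h.EE_main hAH hA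
  have hAV := hAH.trans h.hHV
  have hQV : ⁅KH p H, A⁆ ≤ normalizer (V : Set G) := (h.Q_le hAH).trans h.KV
  have hcop : (Nat.card (⁅KH p H, A⁆ : Subgroup G)).Coprime (Nat.card V) := by
    obtain ⟨n, hn⟩ := (isPGroup_of_elemAb h.hV).exists_card_eq
    rw [hn]; exact Nat.Coprime.pow_right n (Nat.Coprime.coprime_dvd_left (Subgroup.card_dvd_of_le (h.Q_le hAH)) (KH_cop p H))
  have hVc := comm_of_elemAb h.hV
  have h1 := coprime_abelian_inf hVc hQV hcop
  have h2 := coprime_commutator_sup hQV hcop (Or.inr (isSolvable_of_abelian hVc))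
  change ⁅V, ⁅KH p H, A⁆⁆ = ⁅V, EE p H A⁆ at a2
  rw [a2] at h1 h2
  have h3 : V ⊓ centralizer ((⁅KH p H, A⁆ : Subgroup G) : Set G) = V ⊓ centralizer (EE p H A : Set G) := by
    apply le_antisymm
    · refine le_inf inf_le_left ?_
      rw [Subgroup.le_centralizer_iff]
      apply sup_le
      · rw [Subgroup.le_centralizer_iff]; exact inf_le_right
      · rw [Subgroup.le_centralizer_iff, ← Subgroup.commutator_eq_bot_iff_le_centralizer, eq_bot_iff, ← h1]
        refine le_inf ?_ ?_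
        · apply commutator_le_self_of_norm
          rw [le_normalizer_iff_conj]
          intro a ha v hv
          refine ⟨le_normalizer_iff_conj.1 hAV a ha v hv.1, ?_⟩
          change a * v * a⁻¹ ∈ centralizer ((⁅KH p H, A⁆ : Subgroup G) : Set G)
          rw [Subgroup.mem_centralizer_iff]
          intro q hq
          have h4 : a⁻¹ * q * a ∈ ⁅KH p H, A⁆ := by
            have := le_normalizer_iff_conj.1 (h.A_norm_Q hAH) a⁻¹ (inv_mem ha) q hq
            rwa [inv_inv] at this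
          have h5 := Subgroup.mem_centralizer_iff.1 hv.2 _ h4
          calc q * (a * v * a⁻¹) = a * ((a⁻¹ * q * a) * v) * a⁻¹ := by group
            _ = a * (v * (a⁻¹ * q * a)) * a⁻¹ := by rw [h5]
            _ = _ := by group
        · exact commutator_mono inf_le_left le_sup_right
    · exact inf_le_inf_left _ (centralizer_le (show ((⁅KH p H, A⁆ : Subgroup G) : Set G) ⊆ (EE p H A : Set G) from 
        (le_sup_left : ⁅KH p H, A⁆ ≤ ⁅KH p H, A⁆ ⊔ A)))
  rw [h3] at h1 h2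
  exact ⟨h3, by rw [inf_comm]; exact h1, h2⟩

/-- conjugation of `E_A` -/
theorem FFS.EE_conj {A : Subgroup G} {x : G} (hx : x ∈ H) : EE p H (A.map (MulAut.conj x).toMonoidHom) = (EE p H A).map (MulAut.conj x).toMonoidHom := by
  unfold EE
  rw [Subgroup.map_sup, Subgroup.map_commutator, map_conj_eq_of_norm (KH_norm p H hx)]

theorem FFS.W_conj {A : Subgroup G} {x : G} (hx : x ∈ H) : ⁅V, (EE p H A).map (MulAut.conj x).toMonoidHom⁆ = (⁅V, EE p H A⁆).map (MulAut.conj x).toMonoidHom := by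
  rw [Subgroup.map_commutator, map_conj_eq_of_norm (h.hHV hx)]

/-- same W implies same E -/
theorem FFS.EE_eq_of_W {A B : Subgroup G} (hAH : A ≤ H) (hA : IsMinOff p V A) (hBH : B ≤ H) (hB : IsMinOff p V B) (hW : ⁅V, EE p H A⁆ = ⁅V, EE p H B⁆) : 
    EE p H A = EE p H B := by
  suffices hkey : ∀ A B : Subgroup G, A ≤ H → IsMinOff p V A → B ≤ H → IsMinOff p V B → ⁅V, EE p H A⁆ = ⁅V, EE p H B⁆ → EE p H B ≤ EE p H A from
    le_antisymm (hkey B A hBH hB hAH hA hW.symm) (hkey A B hAH hA hBH hB hW)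
  intro A B hAH hA hBH hB hW
  obtain ⟨-, a1, a2, a3, a4, ⟨φ⟩, a6⟩ := h.EE_main hAH hA
  obtain ⟨d1, d2, d3⟩ := h.decompV hAH hA
  have hEA := h.EE_le hAH
  have hEB := h.EE_le hBH
  set F := EE p H A ⊔ EE p H B with hF
  have hFH : F ≤ H := sup_le hEA hEB
  have hFV := hFH.trans h.hHV
  have hVF : ⁅V, F⁆ = ⁅V, EE p H A⁆ := by
    rw [hF, commutator_sup_right (hEA.trans h.hHV) (hEB.trans h.hHV), ← hW, sup_idem]
  set W := ⁅V, EE p H A⁆ with hWdef
  have hWV : W ≤ V := commutator_le_self_of_norm (hEA.trans h.hHV)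
  have hFW : F ≤ normalizer (W : Set G) := by rw [← hVF]; exact norm_commutator_self hFV
  have hVg : Good p V := isElementaryAbelian_iff_good.1 h.hV
  have hD : F ⊓ centralizer (W : Set G) = ⊥ := by
    set D := F ⊓ centralizer (W : Set G) with hDdef
    have hDF : D ≤ F := inf_le_left
    have hFD : F ≤ normalizer (D : Set G) := centralizer_normalized hFW
    have hDp : IsPGroup p D := by
      apply stab_pgroup (U := W) hVg.2 _ hWV
      · rw [← hVF]; exact commutator_mono le_rfl hDF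
      · exact inf_le_right
      · rw [eq_bot_iff, ← h.hf]; exact inf_le_inf_right _ (hDF.trans hFH)
    have hDK : (F ⊓ KH p H) ⊓ D = ⊥ := by
      apply Subgroup.inf_eq_bot_of_coprime
      obtain ⟨n, hn⟩ := hDp.exists_card_eq
      rw [hn]; exact Nat.Coprime.pow_right n (Nat.Coprime.coprime_dvd_left (Subgroup.card_dvd_of_le inf_le_right) (KH_cop p H))
    have hFK : F ≤ normalizer ((F ⊓ KH p H : Subgroup G) : Set G) := by
      rw [le_normalizer_iff_conj]
      intro e he y hy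
      exact ⟨F.mul_mem (F.mul_mem he hy.1) (F.inv_mem he), le_normalizer_iff_conj.1 (KH_norm p H) e (hFH he) y hy.2⟩
    have hc : ⁅F ⊓ KH p H, D⁆ = ⊥ := by
      rw [eq_bot_iff, ← hDK]
      refine le_inf (commutator_le_self_of_norm (hDF.trans hFK)) ?_
      rw [Subgroup.commutator_comm]
      exact commutator_le_self_of_norm ((inf_le_left : F ⊓ KH p H ≤ F).trans hFD)
    have hQF : ⁅KH p H, A⁆ ≤ F ⊓ KH p H := le_inf ((le_sup_left : ⁅KH p H, A⁆ ≤ EE p H A).trans le_sup_left) (h.Q_le hAH)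
    have hQD : D ≤ centralizer ((⁅KH p H, A⁆ : Subgroup G) : Set G) := by
      rw [Subgroup.le_centralizer_iff]
      exact hQF.trans (Subgroup.commutator_eq_bot_iff_le_centralizer.1 hc)
    have hCD : ⁅V ⊓ centralizer ((⁅KH p H, A⁆ : Subgroup G) : Set G), D⁆ = ⊥ := by
      rw [eq_bot_iff, ← d2, ← d1]
      refine le_inf ?_ ?_
      · rw [← hVF]; exact commutator_mono inf_le_left hDF
      · apply commutator_le_self_of_norm
        rw [le_normalizer_iff_conj]
        intro a ha v hv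
        refine ⟨le_normalizer_iff_conj.1 (hDF.trans hFV) a ha v hv.1, ?_⟩
        exact (centralizer ((⁅KH p H, A⁆ : Subgroup G) : Set G)).mul_mem ((centralizer ((⁅KH p H, A⁆ : Subgroup G) : Set G)).mul_mem (hQD ha) hv.2) 
          ((centralizer ((⁅KH p H, A⁆ : Subgroup G) : Set G)).inv_mem (hQD ha))
    rw [eq_bot_iff, ← h.hf]
    refine le_inf (hDF.trans hFH) ?_
    rw [Subgroup.le_centralizer_iff]
    conv_lhs => rw [← d3]
    apply sup_le
    · rw [Subgroup.le_centralizer_iff]; exact inf_le_right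
    · rw [← d1]
      exact Subgroup.commutator_eq_bot_iff_le_centralizer.1 hCD
  obtain ⟨f, hf⟩ := embed_sl2_sub (W := W) (E := F) (good_of_le hVg hWV) a1 hFW hD (by
    apply sup_le
    · exact (h.EE_pgen hAH hA).trans (Subgroup.closure_mono fun e he => ⟨(le_sup_left : EE p H A ≤ F) he.1, he.2⟩)
    · exact (h.EE_pgen hBH hB).trans (Subgroup.closure_mono fun e he => ⟨(le_sup_right : EE p H B ≤ F) he.1, he.2⟩))
  have hcard : Nat.card F ≤ Nat.card (EE p H A) := by
    haveI : Finite (Matrix.SpecialLinearGroup (Fin 2) (ZMod p)) := Finite.of_equiv _ φ.toEquiv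
    rw [show Nat.card (EE p H A) = Nat.card (Matrix.SpecialLinearGroup (Fin 2) (ZMod p)) from Nat.card_congr φ.toEquiv]
    exact Nat.card_le_card_of_injective f hf
  have := eq_of_le_of_card_le (le_sup_left : EE p H A ≤ F) hcard
  rw [this]; exact le_sup_right

theorem FFS.W_disj {A B : Subgroup G} (hAH : A ≤ H) (hA : IsMinOff p V A) (hBH : B ≤ H) (hB : IsMinOff p V B) (hW : ⁅V, EE p H A⁆ ≠ ⁅V, EE p H B⁆) : 
    ⁅V, EE p H A⁆ ⊓ ⁅V, EE p H B⁆ = ⊥ := by
  obtain ⟨-, a1, a2, a3, a4, -, a6⟩ := h.EE_main hAH hA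
  obtain ⟨-, b1, b2, b3, b4, -, b6⟩ := h.EE_main hBH hB
  have hQA := h.Q_le hAH
  have hQB := h.Q_le hBH
  have hFK : ⁅KH p H, A⁆ ⊔ ⁅KH p H, B⁆ ≤ KH p H := sup_le hQA hQB
  have hSP : SP p V (⁅KH p H, A⁆ ⊔ ⁅KH p H, B⁆) ⁅KH p H, A⁆ ⁅KH p H, B⁆ := by
    refine ⟨isElementaryAbelian_iff_good.1 h.hV, hFK.trans h.KV, ?_, rfl, 
      SN.of_normal le_sup_left (hFK.trans (Subgroup.normalizer_commutator_ge_left _ _)), 
      SN.of_normal le_sup_right (hFK.trans (Subgroup.normalizer_commutator_ge_left _ _)), h.noP_of_le hFK, ?_, ?_, ?_, ?_, a6, b6⟩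
    · rw [eq_bot_iff, ← h.Kf]; exact inf_le_inf_right _ hFK
    · rw [a2]; exact a4
    · rw [b2]; exact b4
    · rw [a2, b2]
      intro hle
      exact hW (eq_of_le_of_card_le hle (b1.trans a1.symm).le)
    · rw [a2, b2]
      intro hle
      exact hW (eq_of_le_of_card_le hle (a1.trans b1.symm).le).symm
  obtain ⟨-, -, h8, -⟩ := subn_pair _ _ _ _ rfl hSP
  rw [a2, b2] at h8
  exact h8

/-- every minimal offender normalizes every `W_B`, `E_B` -/
theorem FFS.norm_aux {A B : Subgroup G} (hAH : A ≤ H) (hA : IsMinOff p V A) (hBH : B ≤ H) (hB : IsMinOff p V B) : 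
    A ≤ normalizer ((⁅V, EE p H B⁆ : Subgroup G) : Set G) ∧ A ≤ normalizer (EE p H B : Set G) := by
  have hkey : ∀ a ∈ A, ⁅V, EE p H (B.map (MulAut.conj a).toMonoidHom)⁆ = ⁅V, EE p H B⁆ := by
    intro a ha
    by_contra hne
    obtain ⟨hB'H, hB'⟩ := h.conj_min hBH hB (hAH ha)
    have h1 := h.W_disj hB'H hB' hBH hB hne
    rw [h.EE_conj (hAH ha), h.W_conj (hAH ha)] at h1
    obtain ⟨-, b1, -⟩ := h.EE_main hBH hB
    -- C_W(A) ≠ 1
    have hVp := isPGroup_of_elemAb h.hV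
    have hVc := comm_of_elemAb h.hV
    have hWV : ⁅V, EE p H B⁆ ≤ V := commutator_le_self_of_norm ((h.EE_le hBH).trans h.hHV)
    have hn : ⁅V, EE p H B⁆ ≤ normalizer ((V ⊓ centralizer (A : Set G) : Subgroup G) : Set G) := by
      apply le_normalizer_of_le_centralizer
      intro y hy
      rw [Subgroup.mem_centralizer_iff]
      intro c hc
      exact hVc c hc.1 y (hWV hy)
    have h2 := card_sup_mul_card_inf hn
    have h3 : Nat.card (⁅V, EE p H B⁆ ⊔ (V ⊓ centralizer (A : Set G)) : Subgroup G) ≤ Nat.card V := 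
      Nat.card_le_card_of_injective _ (Subgroup.inclusion_injective (sup_le hWV inf_le_left))
    have h4 := card_mul_relIndex'' (inf_le_left : V ⊓ centralizer (A : Set G) ≤ V)
    rw [h.relIndex_min hAH hA] at h4
    have h5 : ⁅V, EE p H B⁆ ⊓ (V ⊓ centralizer (A : Set G)) ≠ ⊥ := by
      intro h0
      rw [h0, Subgroup.card_bot, mul_one] at h2
      change Nat.card (⁅V, EE p H B⁆ : Subgroup G) = p ^ 2 at b1
      rw [b1] at h2
      rw [h2, h4] at h3
      have h6 := Nat.card_pos (α := ↥(V ⊓ centralizer (A : Set G)))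
      have h7 := hp.out.two_le
      have h8 : p ^ 2 * Nat.card ↥(V ⊓ centralizer (A : Set G)) = p * (Nat.card ↥(V ⊓ centralizer (A : Set G)) * p) := by ring
      rw [h8] at h3
      have h9 : p * 1 < p * (Nat.card ↥(V ⊓ centralizer (A : Set G)) * p) := by
        apply Nat.mul_lt_mul_of_pos_left _ hp.out.pos
        nlinarith
      nlinarith
    apply h5
    rw [Subgroup.eq_bot_iff_forall]
    intro w hw
    have h6 : a * w = w * a := Subgroup.mem_centralizer_iff.1 hw.2.2 a ha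
    have h7 : w ∈ (⁅V, EE p H B⁆).map (MulAut.conj a).toMonoidHom ⊓ ⁅V, EE p H B⁆ := by
      refine ⟨⟨w, hw.1, ?_⟩, hw.1⟩
      change a * w * a⁻¹ = w
      rw [h6, mul_inv_cancel_right]
    rw [h1] at h7
    exact Subgroup.mem_bot.1 h7
  constructor
  · intro a ha
    rw [← conj_smul_eq_iff]
    have h1 := hkey a ha
    rw [h.EE_conj (hAH ha), h.W_conj (hAH ha)] at h1
    exact h1.ge
  · intro a ha
    rw [← conj_smul_eq_iff]
    obtain ⟨hB'H, hB'⟩ := h.conj_min hBH hB (hAH ha)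
    have h1 := h.EE_eq_of_W hB'H hB' hBH hB (hkey a ha)
    rw [h.EE_conj (hAH ha)] at h1
    exact h1.ge

theorem FFS.H_norm (hS3 : H = ⨆ A : {A : Subgroup G // A ≤ H ∧ IsBestOffenderOn p V A}, (A : Subgroup G)) {B : Subgroup G} (hBH : B ≤ H) (hB : IsMinOff p V B) : 
    H ≤ normalizer ((⁅V, EE p H B⁆ : Subgroup G) : Set G) ∧ H ≤ normalizer (EE p H B : Set G) := 
  ⟨h.gen_min hS3 (fun _ hAH hA => (h.norm_aux hAH hA hBH hB).1), h.gen_min hS3 (fun _ hAH hA => (h.norm_aux hAH hA hBH hB).2)⟩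

/-- different W's: E_A centralizes W_B -/
theorem FFS.cent_W {A B : Subgroup G} (hAH : A ≤ H) (hA : IsMinOff p V A) (hBH : B ≤ H) (hB : IsMinOff p V B) (hW : ⁅V, EE p H A⁆ ≠ ⁅V, EE p H B⁆) : 
    EE p H A ≤ centralizer ((⁅V, EE p H B⁆ : Subgroup G) : Set G) := by
  have h1 := h.W_disj hAH hA hBH hB hW
  have hWV : ⁅V, EE p H B⁆ ≤ V := commutator_le_self_of_norm ((h.EE_le hBH).trans h.hHV)
  refine (h.EE_gen hAH).trans (iSup_le ?_)
  rintro ⟨y, hy⟩
  have hyH := KH_le p H hy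
  obtain ⟨hA'H, hA'⟩ := h.conj_min hAH hA hyH
  change A.map (MulAut.conj y).toMonoidHom ≤ _
  rw [Subgroup.le_centralizer_iff, ← Subgroup.commutator_eq_bot_iff_le_centralizer, eq_bot_iff, ← h1]
  refine le_inf ?_ ?_
  · refine (commutator_mono hWV le_rfl).trans (commutator_mono le_rfl ?_)
    rintro _ ⟨a, ha, rfl⟩
    change y * a * y⁻¹ ∈ ⁅KH p H, A⁆ ⊔ A
    have : y * a * y⁻¹ = ⁅y, a⁆ * a := by rw [commutatorElement_def]; group
    rw [this]
    exact mul_mem (mem_sup_left (commutator_mem_commutator hy ha)) (mem_sup_right ha)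
  · exact commutator_le_self_of_norm (h.norm_aux hA'H hA' hBH hB).1

theorem FFS.structureH (hS3 : H = ⨆ A : {A : Subgroup G // A ≤ H ∧ IsBestOffenderOn p V A}, (A : Subgroup G)) {A : Subgroup G} (hAH : A ≤ H) (hA : IsMinOff p V A) : 
    ⁅EE p H A, H ⊓ centralizer ((⁅V, EE p H A⁆ : Subgroup G) : Set G)⁆ = ⊥ ∧ 
    EE p H A ⊓ (H ⊓ centralizer ((⁅V, EE p H A⁆ : Subgroup G) : Set G)) = ⊥ ∧ 
    EE p H A ⊔ (H ⊓ centralizer ((⁅V, EE p H A⁆ : Subgroup G) : Set G)) = H ∧ 
    ⁅V, H ⊓ centralizer ((⁅V, EE p H A⁆ : Subgroup G) : Set G)⁆ ≤ V ⊓ centralizer (EE p H A : Set G) := by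
  obtain ⟨n1, n2⟩ := h.H_norm hS3 hAH hA
  obtain ⟨-, a1, a2, a3, a4, -, a6⟩ := h.EE_main hAH hA
  obtain ⟨d1, d2, d3⟩ := h.decompV hAH hA
  have hEH := h.EE_le hAH
  set C := H ⊓ centralizer ((⁅V, EE p H A⁆ : Subgroup G) : Set G) with hC
  have hCH : C ≤ H := inf_le_left
  have hHC : H ≤ normalizer (C : Set G) := centralizer_normalized n1
  have hEC : EE p H A ⊓ C = ⊥ := by
    rw [eq_bot_iff, ← a3]
    exact le_inf inf_le_left (inf_le_right.trans inf_le_right)
  have hcomm : ⁅EE p H A, C⁆ = ⊥ := by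
    rw [eq_bot_iff, ← hEC]
    refine le_inf (commutator_le_self_of_norm (hCH.trans n2)) ?_
    rw [Subgroup.commutator_comm]
    exact commutator_le_self_of_norm (hEH.trans hHC)
  refine ⟨hcomm, hEC, ?_, ?_⟩
  · apply le_antisymm (sup_le hEH hCH)
    apply h.gen_min hS3
    intro B hBH hB
    by_cases hW : ⁅V, EE p H B⁆ = ⁅V, EE p H A⁆
    · rw [← h.EE_eq_of_W hBH hB hAH hA hW]
      exact le_trans (le_sup_right : B ≤ ⁅KH p H, B⁆ ⊔ B) le_sup_left
    · refine le_trans ?_ le_sup_right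
      exact le_inf hBH ((le_sup_right : B ≤ ⁅KH p H, B⁆ ⊔ B).trans (h.cent_W hBH hB hAH hA hW))
  · have hVc := comm_of_elemAb h.hV
    have hWV : ⁅V, EE p H A⁆ ≤ V := commutator_le_self_of_norm (hEH.trans h.hHV)
    have hCV := hCH.trans h.hHV
    have e1 := commutator_sup_left hVc hCV hWV (inf_le_left : V ⊓ centralizer (EE p H A : Set G) ≤ V)
    rw [d3] at e1
    rw [e1]
    apply sup_le
    · have : ⁅⁅V, EE p H A⁆, C⁆ = ⊥ := by
        rw [Subgroup.commutator_eq_bot_iff_le_centralizer, Subgroup.le_centralizer_iff]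
        exact inf_le_right
      rw [this]; exact bot_le
    · apply commutator_le_self_of_norm
      have hCE : C ≤ centralizer (EE p H A : Set G) := by
        rw [Subgroup.le_centralizer_iff]; exact Subgroup.commutator_eq_bot_iff_le_centralizer.1 hcomm
      rw [le_normalizer_iff_conj]
      intro a ha v hv
      refine ⟨le_normalizer_iff_conj.1 hCV a ha v hv.1, ?_⟩
      exact (centralizer (EE p H A : Set G)).mul_mem ((centralizer (EE p H A : Set G)).mul_mem (hCE ha) hv.2) ((centralizer (EE p H A : Set G)).inv_mem (hCE ha))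

end

end CfsgH1
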