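import Cfsg.Agent.H1.Hol

set_option autoImplicit false

/-! Failure of factorization in p-solvable groups -/

open Cfsg Subgroup CfsgH3
open scoped Pointwise commutatorElement

namespace CfsgH1

universe u v
variable {G : Type u} [Group G]

theorem JJ_normal [Finite G] {p : ℕ} {C : Subgroup G} [hC : C.Normal] : (JJ p C).Normal := by
  rw [← Subgroup.normalizer_eq_top_iff, eq_top_iff]
  refine le_trans ?_ (normalizer_le_JJ C)
  rw [Subgroup.normalizer_eq_top]

theorem hS3_hol [Finite G] {p : ℕ} [hp : Fact p.Prime] {V : Subgroup G} [V.Normal] (hV : Good p V) : 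
    (JJ p (⊤ : Subgroup G)).map (iot V) = ⨆ A : {A : Subgroup (Hol V) // A ≤ (JJ p (⊤ : Subgroup G)).map (iot V) ∧ IsBestOffenderOn p (Vh V) A}, (A : Subgroup (Hol V)) := by
  apply le_antisymm
  · rw [Subgroup.map_le_iff_le_comap]
    apply sSup_le
    intro A hA
    rw [← Subgroup.map_le_iff_le_comap]
    have h1 := best_of_maxElem (V := V) (by rw [Subgroup.normalizer_eq_top]; exact le_top) hV hA
    exact le_iSup (fun A : {A : Subgroup (Hol V) // A ≤ (JJ p (⊤ : Subgroup G)).map (iot V) ∧ IsBestOffenderOn p (Vh V) A} => (A : Subgroup (Hol V))) 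
      ⟨A.map (iot V), Subgroup.map_mono hA.le_JJ, best_hol V h1⟩
  · exact iSup_le fun A => A.2.1

theorem quot_iso {G' : Type*} [Group G'] (f : G →* G') {K : Subgroup G} (hK : f.ker = K) (E' : Subgroup G') (hE' : E' ≤ f.range) : 
    ∃ hn : (K.subgroupOf (E'.comap f)).Normal, Nonempty ((E'.comap f ⧸ K.subgroupOf (E'.comap f)) ≃* E') := by
  have hn : K.Normal := by rw [← hK]; infer_instance
  haveI : (K.subgroupOf (E'.comap f)).Normal := inferInstance
  refine ⟨this, ?_⟩
  let g : E'.comap f →* E' := f.subgroupComap E'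
  have hg : Function.Surjective g := by
    rintro ⟨y, hy⟩
    obtain ⟨x, rfl⟩ := hE' hy
    exact ⟨⟨x, hy⟩, rfl⟩
  have hker : K.subgroupOf (E'.comap f) = g.ker := by
    ext x
    rw [Subgroup.mem_subgroupOf, MonoidHom.mem_ker, ← hK, MonoidHom.mem_ker]
    constructor
    · intro h; exact Subtype.ext h
    · intro h; exact congrArg Subtype.val h
  exact ⟨(QuotientGroup.quotientMulEquivOfEq hker).trans (QuotientGroup.quotientKerEquivOfSurjective g hg)⟩

/-- the setting of the failure of factorization for p-solvable groups -/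
theorem psolv_ff [Finite G] {p : ℕ} [hp : Fact p.Prime] (hsep : IsPSolvable p G) (hO : pPrimeCore p G = ⊥) (hnf : ¬ IsThompsonFactorizable p G) : 
    ∃ _ : (VV p G).Normal, Good p (VV p G) ∧ FFS p (Vh (VV p G)) ((JJ p (⊤ : Subgroup G)).map (iot (VV p G))) ∧ (JJ p (⊤ : Subgroup G)).map (iot (VV p G)) ≠ ⊥ := by
  haveI hn := VV_normal (G := G) p
  have hc := psolv_centralizer_pCore_le hsep hO
  have hV := VV_elemAb hc
  have hVg : Good p (VV p G) := isElementaryAbelian_iff_good.1 hV
  have hcore := pCore_quot_trivial (VV p G) (VV_gen p)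
  have hJ : ¬ JJ p (⊤ : Subgroup G) ≤ centralizer (VV p G : Set G) := fun h => hnf (thomp_fact_of_le h)
  haveI := JJ_normal (p := p) (C := (⊤ : Subgroup G))
  refine ⟨hn, hVg, ffs_hol (VV p G) hsep hVg hcore _, ?_⟩
  intro h0
  rw [Subgroup.map_eq_bot_iff, iot_ker] at h0
  exact hJ h0

theorem card_quot_eq [Finite G] {p : ℕ} [hp : Fact p.Prime] (hsep : IsPSolvable p G) (V : Subgroup G) [V.Normal] (hV : Good p V) (hO : pCore p (G ⧸ centralizer (V : Set G)) = ⊥) 
    {A : Subgroup G} (hA : MaxGood p ⊤ A) : Nat.card A * Nat.card ↥(V ⊓ centralizer (A : Set G)) = Nat.card V * Nat.card (A ⊓ centralizer (V : Set G) : Subgroup G) := by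
  have h := ffs_hol V hsep hV hO (⊤ : Subgroup G)
  have hb := best_of_maxElem (V := V) (by rw [Subgroup.normalizer_eq_top]; exact le_top) hV hA
  have h1 := h.mm_eq (Subgroup.map_mono le_top) (best_hol V hb)
  have h2 := mm_hol V A
  rw [h1, card_Vh] at h2
  exact h2

theorem JJ_comm_le [Finite G] {p : ℕ} [hp : Fact p.Prime] (hsep : IsPSolvable p G) (V : Subgroup G) [hVn : V.Normal] (hV : Good p V) (hO : pCore p (G ⧸ centralizer (V : Set G)) = ⊥) 
    {W : Subgroup G} [hWn : W.Normal] (hW : Good p W) (hWJ : W ≤ JJ p (centralizer (V : Set G))) (hWc : W ≤ centralizer (JJ p (centralizer (V : Set G)) : Set G)) : 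
    ⁅W, JJ p (⊤ : Subgroup G)⁆ ≤ V := by
  have hVC : V ≤ centralizer (V : Set G) := by
    intro x hx
    rw [Subgroup.mem_centralizer_iff]
    intro y hy
    exact hV.1 y hy x hx
  have hkey : ∀ A : Subgroup G, MaxGood p ⊤ A → ⁅W, A⁆ ≤ V := by
    intro A hA
    have h1 := card_quot_eq hsep V hV hO hA
    set D := A ⊓ centralizer (V : Set G) with hD
    have hDg : Good p D := good_of_le hA.2.1 inf_le_left
    have hB : Good p (D ⊔ V) := good_sup hDg hV (fun d hd v hv => (Subgroup.mem_centralizer_iff.1 hd.2 v hv).symm)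
    have hinf : D ⊓ V = V ⊓ centralizer (A : Set G) := by
      apply le_antisymm
      · intro x hx
        refine ⟨hx.2, ?_⟩
        change x ∈ centralizer (A : Set G)
        rw [Subgroup.mem_centralizer_iff]
        intro a ha
        exact hA.2.1.1 a ha x hx.1.1
      · have h2 : V ⊓ centralizer (A : Set G) ≤ A := le_of_maxGood hA le_top (good_of_le hV inf_le_left) (fun a ha b hb => Subgroup.mem_centralizer_iff.1 hb.2 a ha)
        exact le_inf (le_inf h2 (inf_le_left.trans hVC)) inf_le_left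
    have h2 := card_sup_mul_card_inf (H := D) (K := V) (by rw [Subgroup.normalizer_eq_top]; exact le_top)
    rw [hinf, mul_comm (Nat.card D), ← h1] at h2
    have h3 : Nat.card (D ⊔ V : Subgroup G) = Nat.card A := Nat.eq_of_mul_eq_mul_right Nat.card_pos h2
    have hBm : MaxGood p (centralizer (V : Set G)) (D ⊔ V) := by
      refine ⟨sup_le inf_le_right hVC, hB, fun B' _ hB'g => ?_⟩
      rw [h3]; exact hA.2.2 B' le_top hB'g
    have h4 : W ≤ D ⊔ V := by
      apply le_of_maxGood hBm (hWJ.trans (JJ_le _)) hW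
      intro b hb w hw
      exact Subgroup.mem_centralizer_iff.1 (hWc hw) b (hBm.le_JJ hb)
    rw [Subgroup.commutator_le]
    intro w hw a ha
    obtain ⟨d, hd, v, hv, rfl⟩ := Subgroup.mem_sup_of_normal_right.1 (h4 hw)
    have h5 : a * d = d * a := hA.2.1.1 a ha d hd.1
    have h6 : ⁅d * v, a⁆ = d * (v * (a * v⁻¹ * a⁻¹)) * d⁻¹ := by
      have h7 : d⁻¹ * a⁻¹ = a⁻¹ * d⁻¹ := by rw [← mul_inv_rev, h5, mul_inv_rev]
      calc ⁅d * v, a⁆ = d * v * a * v⁻¹ * (d⁻¹ * a⁻¹) := by rw [commutatorElement_def]; group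
        _ = d * v * a * v⁻¹ * (a⁻¹ * d⁻¹) := by rw [h7]
        _ = _ := by group
    rw [h6]
    exact hVn.conj_mem _ (V.mul_mem hv (hVn.conj_mem _ (V.inv_mem hv) a)) d
  rw [Subgroup.commutator_comm, Subgroup.commutator_le]
  intro g hg w hw
  have h1 : JJ p (⊤ : Subgroup G) ≤ closure (⋃ A ∈ {A : Subgroup G | MaxGood p ⊤ A}, (A : Set G)) := by
    apply sSup_le
    intro A hA x hx
    exact Subgroup.subset_closure (Set.mem_biUnion hA hx)
  have h2 : ⁅w, g⁆ ∈ V ⊓ W := by
    apply commutator_mem_of_gen (V := W) (M := V ⊓ W) (S := ⋃ A ∈ {A : Subgroup G | MaxGood p ⊤ A}, (A : Set G)) inf_le_right _ _ (h1 hg) w hw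
    · intro x _
      rw [Subgroup.normalizer_eq_top]; exact mem_top x
    · intro s hs v hv
      obtain ⟨A, hA, hs⟩ := Set.mem_iUnion₂.1 hs
      exact ⟨hkey A hA (commutator_mem_commutator hv hs), Subgroup.commutator_le_left W A (commutator_mem_commutator hv hs)⟩
  rw [← commutatorElement_inv]
  exact inv_mem h2.1

end CfsgH1
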