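import Cfsg.Agent.H1.ChiefFit
import Cfsg.Agent.S0120

set_option autoImplicit false

open Cfsg Subgroup
open scoped Pointwise commutatorElement

namespace CfsgH1

universe u v

variable {G : Type u} [Group G] {p : ℕ}

theorem centralize_of_omega [Finite G] [hp : Fact p.Prime] (hp2 : p ≠ 2) {X : Subgroup G} [hX : X.Normal] (hXp : IsPGroup p X) {y : G} (hy : (orderOf y).Coprime p) (h : ∀ x ∈ X, x ^ p = 1 → y * x = x * y) : 
    ∀ x ∈ X, y * x = x * y := by
  have h1 := Cfsg.Agent.S0120.omega_fix hp2 hXp (MulAut.conjNormal y : MulAut X) (Nat.Coprime.coprime_dvd_left (orderOf_map_dvd (MulAut.conjNormal : G →* MulAut X) y) hy) (by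
    intro x hx
    apply Subtype.ext
    rw [MulAut.conjNormal_apply, h x x.2 (congrArg Subtype.val hx), mul_inv_cancel_right])
  intro x hx
  have h2 : (MulAut.conjNormal y : MulAut X) ⟨x, hx⟩ = ⟨x, hx⟩ := by rw [h1]; rfl
  have h3 := congrArg Subtype.val h2
  rw [MulAut.conjNormal_apply] at h3
  exact mul_inv_eq_iff_eq_mul.1 h3

theorem commutator_lt_of_primecent [Finite G] [hp : Fact p.Prime] {K C : Subgroup G} [hK : K.Normal] (hKp : IsPGroup p K) (hKb : K ≠ ⊥) (hc : ∀ x ∈ C, (orderOf x).Coprime p → ∀ k ∈ K, x * k = k * x) : 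
    ⁅K, C⁆ < K := by
  refine lt_of_le_of_ne (Subgroup.commutator_le_left K C) fun he => hKb ?_
  obtain ⟨P, hP⟩ := exists_isSylowOf p C
  have htop : C ≤ P ⊔ centralizer (K : Set G) := by
    apply le_of_forall_sylowOf
    intro r hr
    haveI : Fact r.Prime := ⟨hr⟩
    by_cases hrp : r = p
    · subst hrp
      exact ⟨P, hP, le_sup_left⟩
    · obtain ⟨R, hR⟩ := exists_isSylowOf r C
      refine ⟨R, hR, fun x hx => mem_sup_right ?_⟩
      rw [mem_centralizer_iff]
      intro k hk
      symm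
      apply hc x (isSylowOf_le hR hx) _ k hk
      obtain ⟨j, hj⟩ := IsPGroup.iff_orderOf.1 (isSylowOf_isPGroup hR) ⟨x, hx⟩
      rw [Subgroup.orderOf_mk] at hj
      rw [hj]
      exact Nat.Coprime.pow_left j ((Nat.coprime_primes hr hp.out).2 hrp)
  have h1 : ⁅K, C⁆ ≤ ⁅K, P⁆ := by
    rw [Subgroup.commutator_le]
    intro k hk g hg
    have h2 := htop hg
    rw [← SetLike.mem_coe, Subgroup.mul_normal] at h2
    obtain ⟨x, hx, c, hcc, rfl⟩ := h2
    have h3 : ⁅k, c⁆ = 1 := by
      rw [commutatorElement_eq_one_iff_mul_comm]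
      exact mem_centralizer_iff.1 hcc k hk
    have e : ⁅k, x * c⁆ = ⁅k, x⁆ * (x * ⁅k, c⁆ * x⁻¹) := by simp only [commutatorElement_def]; group
    change ⁅k, x * c⁆ ∈ _
    rw [e, h3, mul_one, mul_inv_cancel, mul_one]
    exact Subgroup.commutator_mem_commutator hk hx
  have h2 : K ≤ ⁅K, P⁆ := he.ge.trans h1
  have hPp := isSylowOf_isPGroup hP
  have hKP : IsPGroup p (K ⊔ P : Subgroup G) := IsPGroup.to_sup_of_normal_left hKp hPp
  haveI : Group.IsNilpotent (K ⊔ P : Subgroup G) := hKP.isNilpotent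
  obtain ⟨n, hn⟩ := (Subgroup.isNilpotent_iff_lowerCentralSeries (K ⊔ P : Subgroup G)).1 inferInstance
  have h3 : ∀ k, K ≤ (K ⊔ P : Subgroup G).lowerCentralSeries k := by
    intro k
    induction k with
    | zero => exact le_sup_left
    | succ k ih => exact h2.trans (Subgroup.commutator_mono ih le_sup_right)
  have h4 := h3 n
  rw [hn, le_bot_iff] at h4
  exact h4

/-- a subgroup acting with `p`-power action on the `p`-parts centralizes chief factors -/
theorem chief_cent_of [Finite G] {C F U V : Subgroup G} [hC : C.Normal] (hF : Group.IsNilpotent F) (hUF : U ≤ F) (h : IsChief U V) 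
    (hc : ∀ p : ℕ, p.Prime → ∀ K : Subgroup G, K.Normal → K ≤ F → IsPGroup p K → ∀ x ∈ C, (orderOf x).Coprime p → ∀ k ∈ K, x * k = k * x) : ⁅U, C⁆ ≤ V := by
  have hh := h
  obtain ⟨hU, hV, hlt, hmin⟩ := h
  haveI : (⁅U, C⁆ ⊔ V : Subgroup G).Normal := inferInstance
  rcases hmin (⁅U, C⁆ ⊔ V) inferInstance le_sup_right (sup_le (Subgroup.commutator_le_left U C) hlt.le) with h1 | h1
  · rw [← h1]; exact le_sup_left
  exfalso
  have hUnil : Group.IsNilpotent U := by
    haveI := hF
    exact Group.nilpotent_of_mulEquiv (Subgroup.subgroupOfEquivOfLe hUF)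
  obtain ⟨p, hp, hpV⟩ : ∃ p : ℕ, p.Prime ∧ ¬ OO p U ≤ V := by
    by_contra hcon
    push_neg at hcon
    apply absurd _ (not_le_of_gt hlt)
    apply le_of_forall_sylowOf
    intro r hr
    haveI : Fact r.Prime := ⟨hr⟩
    obtain ⟨R, hR⟩ := exists_isSylowOf r U
    refine ⟨R, hR, le_trans ?_ (hcon r hr)⟩
    obtain ⟨Q, rfl⟩ := hR
    haveI := hUnil
    have hn : (Q : Subgroup U).Normal := inferInstance
    exact Subgroup.map_mono (CfsgH2.le_pCore hn Q.isPGroup')
  haveI : Fact p.Prime := ⟨hp⟩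
  have hXn : (OO p U).Normal := OO_normal hU
  have hX : V ⊔ OO p U = U := by
    rcases hmin (V ⊔ OO p U) inferInstance le_sup_left (sup_le hlt.le (OO_le _)) with h2 | h2
    · exact absurd (le_sup_right.trans h2.le) hpV
    · exact h2
  have key : ∀ n : ℕ, ∀ K : Subgroup G, Nat.card K = n → K.Normal → K ≤ OO p U → U ≤ K ⊔ V → False := by
    intro n
    induction n using Nat.strong_induction_on with
    | _ n ih =>
    intro K hn hK hKX hUK
    have hKp : IsPGroup p K := (OO_pgroup U).to_le hKX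
    by_cases hKb : K = ⊥
    · rw [hKb, bot_sup_eq] at hUK
      exact absurd hUK (not_le_of_gt hlt)
    · haveI := hK
      have h3 := commutator_lt_of_primecent (C := C) hKp hKb (hc p hp K hK (hKX.trans ((OO_le U).trans hUF)) hKp)
      apply ih _ (by rw [← hn]; exact card_lt_card_of_lt h3) ⁅K, C⁆ rfl inferInstance (h3.le.trans hKX)
      rw [← h1]
      refine sup_le ?_ le_sup_right
      exact (Subgroup.commutator_mono hUK le_rfl).trans commutator_sup_le
  exact key _ (OO p U) rfl hXn le_rfl (by rw [sup_comm]; exact hX.ge)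

theorem FT_top [Finite G] : FT (⊤ : Subgroup G) = fittingSubgroup G := by
  apply le_antisymm
  · exact CfsgH2.le_fittingSubgroup (FT_normal inferInstance) (FT_nilpotent _)
  · exact le_FT le_top (le_normalizer_of_normal _ _) CfsgH2.isNilpotent_fittingSubgroup

/-- **S3785** -/
theorem mem_fitting_of_prime_comm [Finite G] (hG : Group.IsSolvable G) (hodd : Odd (Nat.card (fittingSubgroup G))) (g : G) (hg : ∀ x ∈ fittingSubgroup G, (orderOf x).Prime → g * x = x * g) : g ∈ fittingSubgroup G := by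
  let C : Subgroup G := centralizer {x : G | x ∈ fittingSubgroup G ∧ (orderOf x).Prime}
  have hFn : (fittingSubgroup G).Normal := inferInstance
  have hC : C.Normal := by
    refine ⟨fun c hc h => ?_⟩
    rw [mem_centralizer_iff] at hc ⊢
    rintro x ⟨hx, hxo⟩
    have h1 := hc (h⁻¹ * x * h) ⟨by
      have := hFn.conj_mem x hx h⁻¹
      rwa [inv_inv] at this, by
      have : h⁻¹ * x * h = MulAut.conj h⁻¹ x := by simp
      rw [this, MulEquiv.orderOf_eq]; exact hxo⟩
    calc x * (h * c * h⁻¹) = h * ((h⁻¹ * x * h) * c) * h⁻¹ := by group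
      _ = h * (c * (h⁻¹ * x * h)) * h⁻¹ := by rw [h1]
      _ = _ := by group
  have hgC : g ∈ C := by
    rw [mem_centralizer_iff]
    rintro x ⟨hx, hxo⟩
    exact (hg x hx hxo).symm
  rw [← FT_top]
  apply fitting_of_chief hG (N := ⊤) inferInstance
  rw [mem_chiefCent]
  refine ⟨Subgroup.mem_top g, fun U V hUV hU u hu => ?_⟩
  rw [FT_top] at hU
  refine chief_cent_of (C := C) CfsgH2.isNilpotent_fittingSubgroup hU hUV ?_ (Subgroup.commutator_mem_commutator hu hgC)
  intro p hp K hK hKF hKp x hx hxo k hk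
  haveI : Fact p.Prime := ⟨hp⟩
  by_cases hk1 : k = 1
  · rw [hk1, mul_one, one_mul]
  have hp2 : p ≠ 2 := by
    rintro rfl
    obtain ⟨j, hj⟩ := IsPGroup.iff_card.1 hKp
    have h1 := Subgroup.card_dvd_of_le hKF
    rw [hj] at h1
    have hj0 : j ≠ 0 := by
      rintro rfl
      rw [pow_zero, Subgroup.card_eq_one] at hj
      rw [hj, Subgroup.mem_bot] at hk
      exact hk1 hk
    exact (Nat.not_even_iff_odd.2 hodd) (even_iff_two_dvd.2 ((dvd_pow_self 2 hj0).trans h1))
  apply centralize_of_omega hp2 hKp hxo _ k hk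
  intro y hy hyp
  by_cases hy1 : y = 1
  · rw [hy1, mul_one, one_mul]
  · exact ((mem_centralizer_iff.1 hx) y ⟨hKF hy, by rw [orderOf_eq_prime hyp hy1]; exact hp⟩).symm

end CfsgH1
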