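import Cfsg.Agent.H1.FF

set_option autoImplicit false

open scoped Pointwise commutatorElement

namespace CfsgH1

universe u v w
variable {G : Type u} [Group G]

open Subgroup Cfsg

theorem normal_of_maxinv [Finite G] {p : ℕ} [hp : Fact p.Prime] {A K M : Subgroup G} (hK : IsPGroup p K) 
    (hAK : A ≤ normalizer (K : Set G)) (hM2 : M ≤ K) (hM3 : M ≠ K) (hM4 : A ≤ normalizer (M : Set G)) 
    (hMmax : ∀ N : Subgroup G, N ≤ K → N ≠ K → A ≤ normalizer (N : Set G) → M ≤ N → N = M) : K ≤ normalizer (M : Set G) := by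
  have h1 : M < K ⊓ normalizer (M : Set G) := by
    haveI := hK.isNilpotent
    have hn : NormalizerCondition K := Group.normalizerCondition_of_isNilpotent
    have h2 : M.subgroupOf K < ⊤ := by
      rw [lt_top_iff_ne_top, Ne, Subgroup.subgroupOf_eq_top]
      exact fun h => hM3 (le_antisymm hM2 h)
    have h3 := hn _ h2
    refine lt_of_le_of_ne (le_inf hM2 Subgroup.le_normalizer) fun h => h3.ne ?_
    ext x
    rw [Subgroup.mem_subgroupOf]
    constructor
    · intro hx; exact Subgroup.le_normalizer (Subgroup.mem_subgroupOf.2 hx)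
    · intro hx
      rw [h]
      refine ⟨x.2, ?_⟩
      change (x : G) ∈ normalizer (M : Set G)
      rw [Subgroup.mem_normalizer_iff] at hx ⊢
      intro y
      constructor
      · intro hy
        have := (hx ⟨y, hM2 hy⟩).1 (Subgroup.mem_subgroupOf.2 hy)
        exact Subgroup.mem_subgroupOf.1 this
      · intro hy
        have hyK : y ∈ K := by
          have h5 := K.mul_mem (K.mul_mem (K.inv_mem x.2) (hM2 hy)) x.2
          have h6 : (x : G)⁻¹ * ((x : G) * y * (x : G)⁻¹) * x = y := by group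
          rwa [h6] at h5
        exact Subgroup.mem_subgroupOf.1 ((hx ⟨y, hyK⟩).2 (Subgroup.mem_subgroupOf.2 hy))
  by_contra hcon
  have h2 : K ⊓ normalizer (M : Set G) ≠ K := fun h => hcon (inf_eq_left.1 h)
  have hAn : A ≤ normalizer ((normalizer (M : Set G) : Subgroup G) : Set G) := hM4.trans Subgroup.le_normalizer
  have h3 := hMmax (K ⊓ normalizer (M : Set G)) inf_le_left h2 (le_normalizer_inf hAK hAn) h1.le
  exact h1.ne h3.symm

theorem comm_le_of_maxinv [Finite G] {p : ℕ} [hp : Fact p.Prime] {A K M : Subgroup G} (hK : IsPGroup p K) 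
    (hAK : A ≤ normalizer (K : Set G)) (hM2 : M ≤ K) (hM3 : M ≠ K) (hM4 : A ≤ normalizer (M : Set G)) 
    (hMmax : ∀ N : Subgroup G, N ≤ K → N ≠ K → A ≤ normalizer (N : Set G) → M ≤ N → N = M) : ⁅K, K⁆ ≤ M := by
  have h1 : ⁅K, K⁆ ⊔ M ≠ K := by
    intro h
    have h5 : M.subgroupOf K = ⊤ := by
      haveI := hK.isNilpotent
      apply eq_top_of_frattini_sup (F := commutator K) commutator_le_frattini
      apply Subgroup.map_injective K.subtype_injective
      rw [Subgroup.map_sup, Subgroup.subgroupOf_map_subtype, inf_eq_left.2 hM2, 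
        ← MonoidHom.range_eq_map, Subgroup.range_subtype, _root_.commutator_def, map_commutator, ← MonoidHom.range_eq_map, 
        Subgroup.range_subtype]
      exact h
    rw [Subgroup.subgroupOf_eq_top] at h5
    exact hM3 (le_antisymm hM2 h5)
  have h2 := hMmax (⁅K, K⁆ ⊔ M) (sup_le (Subgroup.commutator_le_self K) hM2) h1 
    (le_normalizer_sup (normalizer_commutator hAK hAK) hM4) le_sup_right
  rw [← h2]; exact le_sup_left

/-- generation by centralizers of cocyclic subgroups of an abelian group acting coprimely, `p`-group case -/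
theorem gen_fix_pgroup [Finite G] {p : ℕ} [Fact p.Prime] {A K : Subgroup G}
    (hAab : ∀ x ∈ A, ∀ y ∈ A, x * y = y * x) (hAK : A ≤ normalizer (K : Set G)) (hcop : (Nat.card A).Coprime (Nat.card K)) 
    (hK : IsPGroup p K) (W : Subgroup G) (hW : ∀ B ≤ A, (∃ a ∈ A, B ⊔ zpowers a = A) → K ⊓ centralizer (B : Set G) ≤ W) : K ≤ W := by
  by_contra hKW
  set W0 : Subgroup G := ⨆ B ∈ {B : Subgroup G | B ≤ A ∧ ∃ a ∈ A, B ⊔ zpowers a = A}, K ⊓ centralizer (B : Set G) with hW0
  have hW0W : W0 ≤ W := iSup₂_le fun B hB => hW B hB.1 hB.2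
  have hW0K : W0 ≤ K := iSup₂_le fun B hB => inf_le_left
  have hcn : ∀ B ≤ A, A ≤ normalizer ((centralizer (B : Set G) : Subgroup G) : Set G) := by
    intro B hB
    refine le_trans ?_ Subgroup.le_normalizer
    intro a ha
    rw [Subgroup.mem_centralizer_iff]
    intro b hb
    exact hAab b (hB hb) a ha
  have hW0A : A ≤ normalizer (W0 : Set G) := by
    intro b hb
    rw [← conj_smul_eq_self_iff, hW0, conj_smul_eq_map, Subgroup.map_iSup]
    apply iSup_congr
    intro B
    rw [Subgroup.map_iSup]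
    apply iSup_congr
    intro hB
    rw [← conj_smul_eq_map, conj_smul_eq_self_iff]
    exact le_normalizer_inf hAK (hcn B hB.1) hb
  have hlt : W0 ≠ K := fun h => hKW (h ▸ hW0W)
  -- maximal A-invariant proper subgroup containing W0
  obtain ⟨M, ⟨hM1, hM2, hM3, hM4⟩, hMmax0⟩ := exists_maximal_of_set 
    {M : Subgroup G | W0 ≤ M ∧ M ≤ K ∧ M ≠ K ∧ A ≤ normalizer (M : Set G)} ⟨W0, le_rfl, hW0K, hlt, hW0A⟩
  have hMmax : ∀ N : Subgroup G, N ≤ K → N ≠ K → A ≤ normalizer (N : Set G) → M ≤ N → N = M := 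
    fun N h1 h2 h3 h4 => hMmax0 N ⟨hM1.trans h4, h1, h2, h3⟩ h4
  have hMK := normal_of_maxinv hK hAK hM2 hM3 hM4 hMmax
  have hcomm := comm_le_of_maxinv hK hAK hM2 hM3 hM4 hMmax
  haveI hnorm : (M.subgroupOf K).Normal := normal_subgroupOf_of_le_normalizer hMK
  letI : MulDistribMulAction A (K ⧸ M.subgroupOf K) := secMDMA hAK hM4
  letI : CommGroup (K ⧸ M.subgroupOf K) := { (inferInstance : Group (K ⧸ M.subgroupOf K)) with 
    mul_comm := by
      intro a b
      obtain ⟨x, rfl⟩ := QuotientGroup.mk'_surjective _ a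
      obtain ⟨y, rfl⟩ := QuotientGroup.mk'_surjective _ b
      rw [← map_mul, ← map_mul]
      apply QuotientGroup.eq.2
      rw [Subgroup.mem_subgroupOf]
      have : (((x * y)⁻¹ * (y * x) : K) : G) = ⁅(y : G)⁻¹, (x : G)⁻¹⁆ := by
        rw [commutatorElement_def]
        simp [mul_assoc]
      rw [this]
      exact hcomm (commutator_mem_commutator (K.inv_mem y.2) (K.inv_mem x.2)) }
  haveI : Nontrivial (K ⧸ M.subgroupOf K) := by
    rw [QuotientGroup.nontrivial_iff, Ne, Subgroup.subgroupOf_eq_top]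
    exact fun h => hM3 (le_antisymm hM2 h)
  have hset : ∀ (b : A) (k : K), b • (k : K ⧸ M.subgroupOf K) = (k : K ⧸ M.subgroupOf K) ↔ (k : G)⁻¹ * ((b : G) * k * (b : G)⁻¹) ∈ M := by
    intro b k
    rw [secMDMA_smul, eq_comm, QuotientGroup.eq, Subgroup.mem_subgroupOf]; rfl
  -- irreducibility
  have hirr : ∀ (a : A) (v : K ⧸ M.subgroupOf K), v ≠ 1 → a • v = v → ∀ w : K ⧸ M.subgroupOf K, a • w = w := by
    intro a v hv hav w
    -- the subgroup of fixed points
    let F : Subgroup (K ⧸ M.subgroupOf K) := 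
      { carrier := {w | a • w = w}
        one_mem' := smul_one a
        mul_mem' := by
          intro x y hx hy
          change a • (x * y) = x * y
          rw [smul_mul', hx, hy]
        inv_mem' := by
          intro x hx
          change a • x⁻¹ = x⁻¹
          rw [smul_inv', hx] }
    have hFmem : ∀ w, w ∈ F ↔ a • w = w := fun _ => Iff.rfl
    set F' : Subgroup G := (F.comap (QuotientGroup.mk' (M.subgroupOf K))).map K.subtype with hF'
    have hF'm : ∀ k : K, (k : G) ∈ F' ↔ a • (k : K ⧸ M.subgroupOf K) = (k : K ⧸ M.subgroupOf K) := by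
      intro k
      constructor
      · rintro ⟨x, hx, hxk⟩
        have : x = k := Subtype.ext hxk
        rw [this] at hx
        exact hx
      · intro h
        exact ⟨k, h, rfl⟩
    have hF'K : F' ≤ K := Subgroup.map_subtype_le _
    have hMF : M ≤ F' := by
      intro m hm
      have h1 : ((⟨m, hM2 hm⟩ : K) : K ⧸ M.subgroupOf K) = 1 := by
        rw [QuotientGroup.eq_one_iff, Subgroup.mem_subgroupOf]; exact hm
      refine (hF'm ⟨m, hM2 hm⟩).2 ?_
      rw [h1, smul_one]
    have hAF : A ≤ normalizer (F' : Set G) := by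
      rw [le_normalizer_iff_conj]
      intro b hb x hx
      have hxK := hF'K hx
      have hbx : b * x * b⁻¹ ∈ K := le_normalizer_iff_conj.1 hAK b hb x hxK
      refine (hF'm ⟨b * x * b⁻¹, hbx⟩).2 ?_
      have h2 := (hF'm ⟨x, hxK⟩).1 hx
      have h3 : (((⟨b * x * b⁻¹, hbx⟩ : K)) : K ⧸ M.subgroupOf K) = (⟨b, hb⟩ : A) • (((⟨x, hxK⟩ : K)) : K ⧸ M.subgroupOf K) := rfl
      have hc : a * ⟨b, hb⟩ = ⟨b, hb⟩ * a := Subtype.ext (hAab a a.2 b hb)
      rw [h3, ← mul_smul, hc, mul_smul, h2]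
    have hFne : F' ≠ M := by
      intro he
      apply hv
      obtain ⟨k, rfl⟩ := QuotientGroup.mk'_surjective _ v
      change ((k : K) : K ⧸ M.subgroupOf K) = 1
      rw [QuotientGroup.eq_one_iff, Subgroup.mem_subgroupOf, ← he]
      exact (hF'm k).2 hav
    have hFK : F' = K := by
      by_contra hne
      exact hFne (hMmax F' hF'K hne hAF hMF)
    obtain ⟨k, rfl⟩ := QuotientGroup.mk'_surjective _ w
    exact (hF'm k).1 (by rw [hFK]; exact k.2)
  set φ : A →* MulAut (K ⧸ M.subgroupOf K) := MulDistribMulAction.toMulAut A (K ⧸ M.subgroupOf K) with hφ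
  have hφa : ∀ (a : A) v, φ a v = a • v := fun _ _ => rfl
  have hcyc : IsCyclic φ.range := by
    refine isCyclic_of_fpf (A := φ.range) (V := K ⧸ M.subgroupOf K) (Or.inl ?_) ?_
    · rintro ⟨_, ⟨a, rfl⟩⟩ ⟨_, ⟨b, rfl⟩⟩
      apply Subtype.ext
      change φ a * φ b = φ b * φ a
      rw [← map_mul, ← map_mul]
      congr 1
      exact Subtype.ext (hAab a a.2 b b.2)
    · rintro ⟨_, ⟨a, rfl⟩⟩ ha v hv
      by_contra hv1
      apply ha
      apply Subtype.ext
      change φ a = 1
      ext w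
      exact hirr a v hv1 hv w
  obtain ⟨⟨_, ⟨a0, rfl⟩⟩, hgen⟩ := hcyc.exists_generator
  set B : Subgroup G := φ.ker.map A.subtype with hB
  have hBA : B ≤ A := Subgroup.map_subtype_le _
  have hBa : B ⊔ zpowers (a0 : G) = A := by
    apply le_antisymm (sup_le hBA (by rw [Subgroup.zpowers_le]; exact a0.2))
    intro a ha
    obtain ⟨j, hj⟩ := Subgroup.mem_zpowers_iff.1 (hgen ⟨φ ⟨a, ha⟩, ⟨⟨a, ha⟩, rfl⟩⟩)
    have hj' : φ a0 ^ j = φ ⟨a, ha⟩ := congrArg Subtype.val hj
    have h1 : (⟨a, ha⟩ : A) * (a0 ^ j)⁻¹ ∈ φ.ker := by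
      rw [MonoidHom.mem_ker, map_mul, map_inv, map_zpow, hj', mul_inv_cancel]
    have h2 : a = (a * ((a0 : G) ^ j)⁻¹) * (a0 : G) ^ j := by group
    rw [h2]
    refine mul_mem (mem_sup_left ⟨_, h1, ?_⟩) (mem_sup_right (Subgroup.zpow_mem _ (mem_zpowers _) j))
    simp
  apply hM3
  apply le_antisymm hM2
  intro k hk
  have hfix : ∀ b ∈ B, (k : G)⁻¹ * (b * k * b⁻¹) ∈ M := by
    rintro _ ⟨b, hb, rfl⟩
    refine (hset b ⟨k, hk⟩).1 ?_
    rw [SetLike.mem_coe, MonoidHom.mem_ker] at hb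
    rw [← hφa, hb]; rfl
  obtain ⟨c, hc, hcM⟩ := coprime_fixed_quotient (A := B) (K := K) (hBA.trans hAK) 
    (Nat.Coprime.coprime_dvd_left (card_dvd_card_of_le hBA) hcop) (Or.inr (isSolvable_of_isPGroup hK)) hM2 (hBA.trans hM4)
    k hk hfix
  have hcW : c ∈ M := by
    apply hM1
    exact (le_iSup₂_of_le B ⟨hBA, a0, a0.2, hBa⟩ le_rfl : K ⊓ centralizer (B : Set G) ≤ W0) hc
  have : (k : G) = c * ((k : G)⁻¹ * c)⁻¹ := by group
  rw [this]
  exact M.mul_mem hcW (M.inv_mem hcM)

/-- generation by centralizers of cocyclic subgroups, general case -/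
theorem gen_fix [Finite G] {A K : Subgroup G}
    (hAab : ∀ x ∈ A, ∀ y ∈ A, x * y = y * x) (hAK : A ≤ normalizer (K : Set G)) (hcop : (Nat.card A).Coprime (Nat.card K)) 
    (W : Subgroup G) (hW : ∀ B ≤ A, (∃ a ∈ A, B ⊔ zpowers a = A) → K ⊓ centralizer (B : Set G) ≤ W) : K ≤ W := by
  apply le_of_forall_sylowOf
  intro r hr
  haveI : Fact r.Prime := ⟨hr⟩
  obtain ⟨⟨R, hR, hRA⟩, -⟩ := coprime_sylow hAK hcop (Or.inl (isSolvable_of_abelian hAab)) r
  refine ⟨R, hR, gen_fix_pgroup hAab hRA (Nat.Coprime.coprime_dvd_right (card_dvd_card_of_le (isSylowOf_le hR)) hcop) 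
    (isSylowOf_isPGroup hR) W fun B hB ha => (inf_le_inf_right _ (isSylowOf_le hR)).trans (hW B hB ha)⟩

end CfsgH1
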