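import Cfsg.Agent.H1.Split

set_option autoImplicit false

open Subgroup Cfsg
open scoped Pointwise commutatorElement

namespace CfsgH1

universe u v

theorem exists_mul_eq_pow {p m i : ℕ} (hp : p.Prime) (h0 : 0 < i) (hi : i < p ^ m) : ∃ k t, i * k = p ^ m * t + p ^ (m - 1) := by
  obtain ⟨a, i', hi', rfl⟩ := Nat.exists_eq_pow_mul_and_not_dvd h0.ne' p hp.ne_one
  have ham : a < m := by
    by_contra hge
    push Not at hge
    have h1 : 0 < i' := Nat.pos_of_ne_zero (by rintro rfl; exact hi' (dvd_zero p))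
    have h2 : p ^ m ≤ p ^ a := Nat.pow_le_pow_right hp.pos hge
    have h3 : p ^ a * 1 ≤ p ^ a * i' := Nat.mul_le_mul_left _ h1
    omega
  have hcop : Nat.Coprime i' (p ^ m) := ((Nat.Prime.coprime_iff_not_dvd hp).2 hi').symm.pow_right m
  obtain ⟨j, hj⟩ := Nat.exists_mul_mod_eq_one_of_coprime hcop (Nat.one_lt_pow (by omega) hp.one_lt)
  have hk : i' * j = p ^ m * (i' * j / p ^ m) + 1 := by
    conv_lhs => rw [← Nat.div_add_mod (i' * j) (p ^ m)]
    rw [hj.2]
  refine ⟨j * p ^ (m - 1 - a), (i' * j / p ^ m) * p ^ (m - 1), ?_⟩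
  have h1 : p ^ (m - 1) = p ^ a * p ^ (m - 1 - a) := by
    rw [← pow_add]; congr 1; omega
  calc p ^ a * i' * (j * p ^ (m - 1 - a)) = (i' * j) * (p ^ a * p ^ (m - 1 - a)) := by ring
    _ = (p ^ m * (i' * j / p ^ m) + 1) * p ^ (m - 1) := by rw [← hk, ← h1]
    _ = _ := by ring

/-- a Dedekind type independence argument -/
theorem dedekind_coprime {E : Type u} [Ring E] {p : ℕ} [hp : Fact p.Prime] [CharP E p] {Q : Type v} [CommGroup Q] [Finite Q] 
    (hcop : (Nat.card Q).Coprime p) (ρ : Q →* E) (σ : Q →* Q) {m : ℕ} (hm : 0 < m) (hσ : ∀ u, σ^[p ^ m] u = u) 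
    (X : ℕ → E) (hX0 : X 0 = 1) (hrel : ∀ u : Q, ∑ i ∈ Finset.range (p ^ m), ρ (σ^[i] u) * X i = 0) (u : Q) : 
    ρ u = ρ (σ^[p ^ (m - 1)] u) := by
  classical
  by_contra hne
  let Φ : MonoidAlgebra ℤ Q →ₐ[ℤ] E := MonoidAlgebra.lift ℤ E Q ρ
  have hΦ : ∀ w : Q, Φ (MonoidAlgebra.of ℤ Q w) = ρ w := fun w => MonoidAlgebra.lift_of _ _
  set o : Q →* MonoidAlgebra ℤ Q := MonoidAlgebra.of ℤ Q with ho
  set r₀ := o u - o (σ^[p ^ (m - 1)] u) with hr₀
  have hnil : ∀ n, Φ r₀ ^ n ≠ 0 := by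
    intro n h0
    have h1 : (Φ r₀) ^ (p ^ n) = 0 := pow_eq_zero_of_le (Nat.lt_pow_self hp.out.one_lt).le h0
    have hcomm : Commute (ρ u) (ρ (σ^[p ^ (m - 1)] u)) := by
      change _ * _ = _ * _
      rw [← map_mul, ← map_mul, mul_comm]
    rw [hr₀, map_sub, hΦ, hΦ, sub_pow_char_pow_of_commute _ _ hcomm, sub_eq_zero, ← map_pow, ← map_pow] at h1
    obtain ⟨j, hj⟩ := exists_pow_eq_self_of_coprime (x := ((u, σ^[p ^ (m - 1)] u) : Q × Q)) (n := p ^ n) (by
      have h2 : orderOf ((u, σ^[p ^ (m - 1)] u) : Q × Q) ∣ Nat.card Q := by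
        apply orderOf_dvd_of_pow_eq_one
        rw [Prod.pow_mk, pow_card_eq_one', pow_card_eq_one']
        rfl
      exact (Nat.Coprime.coprime_dvd_left h2 (hcop.pow_right n)).symm)
    rw [Prod.pow_mk, Prod.pow_mk, Prod.mk.injEq] at hj
    have hj1 : (u ^ p ^ n) ^ j = u := hj.1
    have hj2 : (σ^[p ^ (m - 1)] u ^ p ^ n) ^ j = σ^[p ^ (m - 1)] u := hj.2
    apply hne
    calc ρ u = ρ ((u ^ p ^ n) ^ j) := by rw [hj1]
      _ = ρ ((σ^[p ^ (m - 1)] u ^ p ^ n) ^ j) := by rw [map_pow, h1, ← map_pow]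
      _ = _ := by rw [hj2]
  obtain ⟨P, hP, hle, hdisj⟩ := Ideal.exists_le_prime_disjoint (RingHom.ker Φ.toRingHom) (Submonoid.powers r₀) (by
    rw [Set.disjoint_left]
    rintro z hz ⟨n, rfl⟩
    apply hnil n
    rw [← map_pow]
    exact hz)
  have hr₀P : r₀ ∉ P := fun h => Set.disjoint_left.1 hdisj h (Submonoid.mem_powers r₀)
  have hs : ∀ i, 0 < i → i < p ^ m → ∃ s : Q, o s - o (σ^[i] s) ∉ P := by
    intro i h0 hi
    by_contra hcon
    push Not at hcon
    have hk : ∀ k s, o s - o ((σ^[i])^[k] s) ∈ P := by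
      intro k
      induction k with
      | zero => intro s; simp
      | succ k ih =>
        intro s
        have := P.add_mem (hcon s) (ih (σ^[i] s))
        rw [Function.iterate_succ_apply]
        simpa using this
    obtain ⟨k, t, hkt⟩ := exists_mul_eq_pow hp.out h0 hi
    have h1 := hk k u
    rw [← Function.iterate_mul, hkt, add_comm, Function.iterate_add_apply] at h1
    have h2 : ∀ t, σ^[p ^ m * t] u = u := by
      intro t
      induction t with
      | zero => rfl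
      | succ t ih => rw [mul_add, mul_one, Function.iterate_add_apply, hσ, ih]
    rw [h2] at h1
    exact hr₀P h1
  choose! s hs using hs
  have key : ∀ J : Finset ℕ, ∀ w : Q, ∑ i ∈ Finset.range (p ^ m), Φ ((∏ j ∈ J, (o (σ^[i] (s j)) - o (σ^[j] (s j)))) * o (σ^[i] w)) * X i = 0 := by
    intro J
    induction J using Finset.induction_on with
    | empty => 
      intro w
      rw [← hrel w]
      apply Finset.sum_congr rfl
      intro i _
      rw [Finset.prod_empty, one_mul, hΦ]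
    | insert j J hj ih =>
      intro w
      have h1 := ih (s j * w)
      have h2 := ih w
      have h3 : ∑ i ∈ Finset.range (p ^ m), Φ ((∏ j ∈ insert j J, (o (σ^[i] (s j)) - o (σ^[j] (s j)))) * o (σ^[i] w)) * X i = 
          ∑ i ∈ Finset.range (p ^ m), Φ ((∏ j ∈ J, (o (σ^[i] (s j)) - o (σ^[j] (s j)))) * o (σ^[i] (s j * w))) * X i - 
          Φ (o (σ^[j] (s j))) * ∑ i ∈ Finset.range (p ^ m), Φ ((∏ j ∈ J, (o (σ^[i] (s j)) - o (σ^[j] (s j)))) * o (σ^[i] w)) * X i := by
        rw [Finset.mul_sum, ← Finset.sum_sub_distrib]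
        apply Finset.sum_congr rfl
        intro i _
        rw [Finset.prod_insert hj, ← mul_assoc (Φ (o (σ^[j] (s j)))), ← map_mul Φ, ← sub_mul, ← map_sub Φ, iter_mul, map_mul o]
        congr 2
        ring
      rw [h3, h1, h2, mul_zero, sub_zero]
  have hpos : 0 < p ^ m := pow_pos hp.out.pos m
  have h1 := key ((Finset.range (p ^ m)).erase 0) 1
  rw [Finset.sum_eq_single_of_mem 0 (Finset.mem_range.2 hpos)] at h1
  swap
  · intro i hi hi0
    rw [Finset.prod_eq_zero (i := i) (Finset.mem_erase.2 ⟨hi0, hi⟩) (sub_self _), zero_mul, map_zero, zero_mul]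
  rw [hX0, mul_one] at h1
  have h2 : (∏ j ∈ (Finset.range (p ^ m)).erase 0, (o (σ^[0] (s j)) - o (σ^[j] (s j)))) ∈ P := by
    apply hle
    have h3 : o (σ^[0] 1) = 1 := by
      rw [Function.iterate_zero, id, map_one]
    rw [h3, mul_one] at h1
    exact h1
  rw [hP.prod_mem_iff] at h2
  obtain ⟨j, hj, hjP⟩ := h2
  rw [Finset.mem_erase, Finset.mem_range] at hj
  exact hs j (Nat.pos_of_ne_zero hj.1) hj.2 hjP

/-- Hall-Higman Theorem B for abelian groups of operators -/
theorem hh_abelian {Γ : Type u} [Group Γ] [Finite Γ] {p : ℕ} [hp : Fact p.Prime] {V Q : Subgroup Γ} [hVn : V.Normal] 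
    (hab : ∀ x ∈ V, ∀ y ∈ V, x * y = y * x) (hVp : ∀ v ∈ V, v ^ p = 1) (hQ : ∀ a ∈ Q, ∀ b ∈ Q, a * b = b * a) 
    (hcop : (Nat.card Q).Coprime p) {x : Γ} (hx : x ∈ normalizer (Q : Set Γ)) {m : ℕ} (hm : 0 < m) 
    (hsp : ∀ v ∈ V, (v * x) ^ (p ^ m) = 1) {u : Γ} (hu : u ∈ Q) : 
    ∀ v ∈ V, u * v * u⁻¹ = (x ^ (p ^ (m - 1)) * u * (x ^ (p ^ (m - 1)))⁻¹) * v * (x ^ (p ^ (m - 1)) * u * (x ^ (p ^ (m - 1)))⁻¹)⁻¹ := by
  intro v hv
  by_cases hV : v = 1
  · rw [hV]; group
  letI : CommGroup V := { (inferInstance : Group V) with mul_comm := fun a b => Subtype.ext (hab a a.2 b b.2) }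
  letI : CommGroup Q := { (inferInstance : Group Q) with mul_comm := fun a b => Subtype.ext (hQ a a.2 b b.2) }
  let T : Γ →* AddMonoid.End (Additive V) := 
    { toFun := fun g => MonoidHom.toAdditive ((MulAut.conjNormal g : V ≃* V).toMonoidHom)
      map_one' := by
        apply AddMonoidHom.ext
        intro w
        apply Subtype.ext
        change ((MulAut.conjNormal (1 : Γ) w.toMul : V) : Γ) = (w.toMul : V)
        rw [map_one]; rfl
      map_mul' := by
        intro a b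
        apply AddMonoidHom.ext
        intro w
        apply Subtype.ext
        change ((MulAut.conjNormal (a * b) w.toMul : V) : Γ) = ((MulAut.conjNormal a (MulAut.conjNormal b w.toMul) : V) : Γ)
        rw [map_mul]; rfl }
  have hT : ∀ (g : Γ) (w : V), (((T g (Additive.ofMul w)).toMul : V) : Γ) = g * w * g⁻¹ := by
    intro g w
    exact MulAut.conjNormal_apply g w
  have hx1 : x ^ (p ^ m) = 1 := by
    have := hsp 1 V.one_mem
    rwa [one_mul] at this
  haveI : Nontrivial (AddMonoid.End (Additive V)) := by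
    refine ⟨⟨0, 1, fun h => hV ?_⟩⟩
    have h1 := congrArg (fun f : AddMonoid.End (Additive V) => ((f (Additive.ofMul (⟨v, hv⟩ : V))).toMul : V)) h
    have h2 : (1 : V) = ⟨v, hv⟩ := h1
    exact (congrArg Subtype.val h2).symm
  have hp0 : (p : AddMonoid.End (Additive V)) = 0 := by
    apply AddMonoidHom.ext
    intro w
    refine (AddMonoid.End.natCast_apply p w).trans ?_
    apply Subtype.ext
    exact hVp _ w.toMul.2
  haveI : CharP (AddMonoid.End (Additive V)) p := by
    have h1 : ringChar (AddMonoid.End (Additive V)) ∣ p := ringChar.dvd hp0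
    rcases (Nat.dvd_prime hp.out).1 h1 with h2 | h2
    · exact absurd h2 CharP.ringChar_ne_one
    · exact ringChar.eq_iff.1 h2
  have hsum : ∑ i ∈ Finset.range (p ^ m), T (x ^ i) = 0 := by
    apply AddMonoidHom.ext
    intro w
    have h1 : ∀ n, ((((∑ i ∈ Finset.range n, T (x ^ i)) (Additive.ofMul w.toMul)).toMul : V) : Γ) * x ^ n = ((w.toMul : V) * x) ^ n := by
      intro n
      induction n with
      | zero => simp
      | succ n ih =>
        rw [Finset.sum_range_succ]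
        change ((((∑ i ∈ Finset.range n, T (x ^ i)) (Additive.ofMul w.toMul)).toMul : V) : Γ) * (((T (x ^ n) (Additive.ofMul w.toMul)).toMul : V) : Γ) * x ^ (n + 1) = _
        rw [hT, pow_succ (_ * x) n, ← ih, pow_succ x n]
        simp only [mul_assoc, inv_mul_cancel_left]
    have h2 := h1 (p ^ m)
    rw [hsp _ w.toMul.2, hx1, mul_one] at h2
    exact Subtype.ext h2
  let σ : Q →* Q := ((MulAut.conj x).toMonoidHom.comp Q.subtype).codRestrict Q (fun w => (mem_normalizer_iff.1 hx w).1 w.2)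
  have hσ : ∀ (i : ℕ) (w : Q), ((σ^[i] w : Q) : Γ) = x ^ i * w * (x ^ i)⁻¹ := by
    intro i
    induction i with
    | zero => intro w; simp
    | succ i ih =>
      intro w
      rw [Function.iterate_succ_apply, ih]
      have : ((σ w : Q) : Γ) = x * w * x⁻¹ := rfl
      rw [this, pow_succ]
      group
  have h1 := dedekind_coprime (E := AddMonoid.End (Additive V)) (p := p) hcop (T.comp Q.subtype) σ hm (fun w => Subtype.ext (by rw [hσ, hx1]; simp))
    (fun i => T (x ^ i)) (by simp only [pow_zero, map_one]) (fun w => by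
      have h2 : ∀ i, (T.comp Q.subtype) (σ^[i] w) * T (x ^ i) = T (x ^ i) * T w := by
        intro i
        rw [MonoidHom.comp_apply, Subgroup.subtype_apply, hσ, ← map_mul, ← map_mul, inv_mul_cancel_right]
      simp_rw [h2]
      rw [← Finset.sum_mul, hsum, zero_mul]) ⟨u, hu⟩
  have h2 := congrArg (fun f : AddMonoid.End (Additive V) => (((f (Additive.ofMul (⟨v, hv⟩ : V))).toMul : V) : Γ)) h1
  have h3 : ∀ w : Q, ((((T.comp Q.subtype) w (Additive.ofMul (⟨v, hv⟩ : V))).toMul : V) : Γ) = w * v * (w : Γ)⁻¹ := fun w => hT w ⟨v, hv⟩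
  have h4 : ((((T.comp Q.subtype) (⟨u, hu⟩ : Q) (Additive.ofMul (⟨v, hv⟩ : V))).toMul : V) : Γ) = 
    ((((T.comp Q.subtype) (σ^[p ^ (m - 1)] ⟨u, hu⟩) (Additive.ofMul (⟨v, hv⟩ : V))).toMul : V) : Γ) := h2
  rw [h3, h3, hσ] at h4
  exact h4

end CfsgH1
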