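import Cfsg.Agent.H1.HHPrime
import Cfsg.Agent.H1.PCon
import Cfsg.Agent.L.Realize

set_option autoImplicit false

/-! The upper p-series and p-length. -/

open Cfsg Subgroup
open scoped Pointwise commutatorElement

namespace CfsgH1

universe u v

variable {G : Type u} [Group G] {p : ℕ}

/-- `U_n(G)` -/
noncomputable abbrev UU (p : ℕ) (G : Type u) [Group G] (n : ℕ) : Subgroup G := (upperPSeries p G n).1

theorem UU_odd (k : ℕ) : UU p G (2 * k + 1) = (pPrimeCore p (G ⧸ UU p G (2 * k))).comap (QuotientGroup.mk' (UU p G (2 * k))) := by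
  unfold UU
  rw [upperPSeries.eq_2]
  simp only [even_two, Even.mul_right, ↓reduceIte]

theorem UU_even (k : ℕ) : UU p G (2 * k + 2) = (pCore p (G ⧸ UU p G (2 * k + 1))).comap (QuotientGroup.mk' (UU p G (2 * k + 1))) := by
  unfold UU
  rw [upperPSeries.eq_2]
  have : ¬ Even (2 * k + 1) := by rw [Nat.not_even_iff_odd]; exact ⟨k, rfl⟩
  simp only [this, ↓reduceIte]

theorem UU_le_succ (n : ℕ) : UU p G n ≤ UU p G (n + 1) := by
  have key : ∀ (N : Subgroup G) [N.Normal] (K : Subgroup (G ⧸ N)), N ≤ K.comap (QuotientGroup.mk' N) := by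
    intro N _ K x hx
    rw [Subgroup.mem_comap, show QuotientGroup.mk' N x = 1 from (QuotientGroup.eq_one_iff x).2 hx]
    exact one_mem _
  rcases Nat.even_or_odd' n with ⟨k, rfl | rfl⟩
  · rw [UU_odd]; exact key _ _
  · rw [UU_even]; exact key _ _

theorem UU_mono {m n : ℕ} (h : m ≤ n) : UU p G m ≤ UU p G n := monotone_nat_of_le_succ UU_le_succ h

theorem pPrimeCore_quot_comap [Finite G] [hp : Fact p.Prime] (N M : Subgroup G) [N.Normal] [hMn : M.Normal] (hM : M = (pPrimeCore p (G ⧸ N)).comap (QuotientGroup.mk' N)) : 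
    pPrimeCore p (G ⧸ M) = ⊥ := by
  set K := (pPrimeCore p (G ⧸ M)).comap (QuotientGroup.mk' M) with hK
  have hKn : K.Normal := by rw [hK]; infer_instance
  have hNM : N ≤ M := by
    intro x hx
    rw [hM, Subgroup.mem_comap, show QuotientGroup.mk' N x = 1 from (QuotientGroup.eq_one_iff x).2 hx]
    exact one_mem _
  have hMK : M ≤ K := by
    intro x hx
    rw [hK, Subgroup.mem_comap, show QuotientGroup.mk' M x = 1 from (QuotientGroup.eq_one_iff x).2 hx]
    exact one_mem _
  have h1 : Nat.card (K.map (QuotientGroup.mk' N)) * Nat.card N = Nat.card K := by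
    have := card_map_mul_card_ker_of_le (QuotientGroup.mk' N) K (by rw [QuotientGroup.ker_mk']; exact hNM.trans hMK)
    rwa [QuotientGroup.ker_mk'] at this
  have h2 : Nat.card (pPrimeCore p (G ⧸ M)) * Nat.card M = Nat.card K := (CfsgH2.card_comap_mk' M _).symm
  have h3 : Nat.card (pPrimeCore p (G ⧸ N)) * Nat.card N = Nat.card M := by
    have := (CfsgH2.card_comap_mk' N (pPrimeCore p (G ⧸ N))).symm
    rwa [← hM] at this
  have h4 : (Nat.card (K.map (QuotientGroup.mk' N))).Coprime p := by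
    have h5 : Nat.card (K.map (QuotientGroup.mk' N)) * Nat.card N = (Nat.card (pPrimeCore p (G ⧸ M)) * Nat.card (pPrimeCore p (G ⧸ N))) * Nat.card N := by
      rw [h1, ← h2, ← h3]; ring
    have h6 := Nat.eq_of_mul_eq_mul_right Nat.card_pos h5
    rw [h6]
    exact Nat.Coprime.mul_left (CfsgH2.coprime_card_pPrimeCore p) (CfsgH2.coprime_card_pPrimeCore p)
  have h5 : K.map (QuotientGroup.mk' N) ≤ pPrimeCore p (G ⧸ N) := CfsgH2.le_pPrimeCore (Subgroup.Normal.map hKn _ (QuotientGroup.mk'_surjective _)) h4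
  have h6 : K ≤ M := by rw [hM, ← Subgroup.map_le_iff_le_comap]; exact h5
  rw [← Subgroup.map_comap_eq_self_of_surjective (QuotientGroup.mk'_surjective M) (pPrimeCore p (G ⧸ M)), ← hK, Subgroup.map_eq_bot_iff, QuotientGroup.ker_mk']
  exact h6

theorem UU_charP [Finite G] [hp : Fact p.Prime] (hsol : IsPSolvable p G) (k : ℕ) : CharP p (G ⧸ UU p G (2 * k + 1)) := by
  apply psolv_centralizer_pCore_le (IsPSolvable.map hsol (QuotientGroup.mk' _) (QuotientGroup.mk'_surjective _))
  exact pPrimeCore_quot_comap (UU p G (2 * k)) _ (UU_odd k)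

theorem UU_even_map (k : ℕ) : (UU p G (2 * k + 2)).map (QuotientGroup.mk' (UU p G (2 * k + 1))) = pCore p (G ⧸ UU p G (2 * k + 1)) := by
  rw [UU_even, Subgroup.map_comap_eq_self_of_surjective (QuotientGroup.mk'_surjective _)]

theorem ucs_le [Finite G] [hp : Fact p.Prime] (hsol : IsPSolvable p G) (S : Sylow p G) (k : ℕ) : (Subgroup.upperCentralSeries ↥(S : Subgroup G) k).map (S : Subgroup G).subtype ≤ UU p G (2 * k) := by
  induction k with
  | zero => 
    rw [Subgroup.upperCentralSeries_zero, Subgroup.map_bot]; exact bot_le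
  | succ k ih =>
    rintro _ ⟨x, hx, rfl⟩
    rw [show 2 * (k + 1) = 2 * k + 2 by ring, UU_even, Subgroup.mem_comap]
    apply UU_charP hsol k
    rw [Subgroup.mem_centralizer_iff]
    intro y hy
    have h1 : pCore p (G ⧸ UU p G (2 * k + 1)) ≤ (S : Subgroup G).map (QuotientGroup.mk' (UU p G (2 * k + 1))) := 
      pCore_le_sylow (S.mapSurjective (QuotientGroup.mk'_surjective _))
    obtain ⟨s, hs, rfl⟩ := h1 hy
    have h2 := (Subgroup.mem_upperCentralSeries_succ_iff).1 hx ⟨s, hs⟩
    have h3 : (x : G) * s * (x : G)⁻¹ * s⁻¹ ∈ UU p G (2 * k + 1) := (UU_le_succ _) (ih ⟨_, h2, rfl⟩)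
    rw [← QuotientGroup.eq_one_iff] at h3
    have h4 : QuotientGroup.mk' (UU p G (2 * k + 1)) ((x : G) * s * (x : G)⁻¹ * s⁻¹) = 1 := h3
    rw [map_mul, map_mul, map_mul, map_inv, map_inv, mul_inv_eq_one, mul_inv_eq_iff_eq_mul] at h4
    exact h4.symm

theorem UU_top_of_sylow_le [Finite G] [hp : Fact p.Prime] (S : Sylow p G) (k : ℕ) (h : (S : Subgroup G) ≤ UU p G (2 * k)) : UU p G (2 * k + 1) = ⊤ := by
  rw [UU_odd]
  have h1 : pPrimeCore p (G ⧸ UU p G (2 * k)) = ⊤ := by
    rw [eq_top_iff]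
    apply CfsgH2.le_pPrimeCore inferInstance
    rw [Subgroup.card_top, ← Subgroup.index_eq_card]
    apply Nat.Coprime.symm
    rw [Nat.Prime.coprime_iff_not_dvd hp.out]
    intro hd
    exact S.not_dvd_index (hd.trans (Subgroup.index_dvd_of_le h))
  rw [h1, Subgroup.comap_top]

/-- **S0635** -/
theorem plength_le_class [Finite G] [hp : Fact p.Prime] (hsol : IsPSolvable p G) (S : Sylow p G) : PLengthLE p (Group.nilpotencyClass ↥(S : Subgroup G)) G := by
  apply UU_top_of_sylow_le S
  haveI : Group.IsNilpotent ↥(S : Subgroup G) := S.2.isNilpotent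
  have h1 := ucs_le hsol S (Group.nilpotencyClass ↥(S : Subgroup G))
  rw [Subgroup.upperCentralSeries_nilpotencyClass, ← MonoidHom.range_eq_map, Subgroup.range_subtype] at h1
  exact h1

end CfsgH1
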