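import Mathlib
import Cfsg.Agent.H1.PLen
import Cfsg.Agent.H1.Syl

set_option autoImplicit false

open Cfsg Subgroup
open scoped Pointwise commutatorElement

namespace CfsgH1

universe u v
variable {G : Type u} [Group G] {p : ℕ}

structure IsCh (p : ℕ) (H : ℕ → Subgroup G) : Prop where
  zero : H 0 = ⊥
  normal : ∀ i, (H i).Normal
  le_succ : ∀ i, H i ≤ H (i + 1)
  cop : ∀ i, ((H (2 * i)).relIndex (H (2 * i + 1))).Coprime p
  pw : ∀ i, ∃ m, (H (2 * i + 1)).relIndex (H (2 * i + 2)) = p ^ m

theorem relIndex_comap_mk' (N : Subgroup G) [N.Normal] (K : Subgroup (G ⧸ N)) : N.relIndex (K.comap (QuotientGroup.mk' N)) = Nat.card K := by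
  have h1 := Subgroup.relIndex_ker (K.comap (QuotientGroup.mk' N)) (QuotientGroup.mk' N)
  rw [QuotientGroup.ker_mk', Subgroup.map_comap_eq_self_of_surjective (QuotientGroup.mk'_surjective N)] at h1
  exact h1

theorem relIndex_eq_card_map (N L : Subgroup G) [N.Normal] : N.relIndex L = Nat.card (L.map (QuotientGroup.mk' N)) := by
  have h1 := Subgroup.relIndex_ker L (QuotientGroup.mk' N)
  rw [QuotientGroup.ker_mk'] at h1
  exact h1

theorem UU_zero : UU p G 0 = ⊥ := rfl

theorem UU_isCh [Finite G] [hp : Fact p.Prime] : IsCh p (UU p G) where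
  zero := UU_zero
  normal i := upperPSeries_normal p G i
  le_succ i := UU_le_succ i
  cop i := by
    rw [UU_odd, relIndex_comap_mk']
    exact CfsgH2.coprime_card_pPrimeCore p
  pw i := by
    rw [UU_even, relIndex_comap_mk']
    exact IsPGroup.iff_card.1 (CfsgH2.isPGroup_pCore p)

theorem IsCh.le_UU [Finite G] [hp : Fact p.Prime] {H : ℕ → Subgroup G} (h : IsCh p H) (i : ℕ) : H i ≤ UU p G i := by
  induction i with
  | zero => rw [h.zero]; exact bot_le
  | succ i ih =>
    haveI := h.normal (i + 1)
    haveI : (UU p G i).Normal := upperPSeries_normal p G i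
    have h1 : (UU p G i).relIndex (H (i + 1)) ∣ (H i).relIndex (H (i + 1)) := relIndex_dvd_of_le_left _ ih
    rw [relIndex_eq_card_map] at h1
    have h2 : ((H (i + 1)).map (QuotientGroup.mk' (UU p G i))).Normal := (h.normal (i + 1)).map _ (QuotientGroup.mk'_surjective _)
    rcases Nat.even_or_odd' i with ⟨k, rfl | rfl⟩
    · rw [UU_odd, ← map_le_iff_le_comap]
      exact CfsgH2.le_pPrimeCore h2 (Nat.Coprime.coprime_dvd_left h1 (h.cop k))
    · rw [show 2 * k + 1 + 1 = 2 * k + 2 by ring] at h1 h2 ⊢
      rw [UU_even, ← map_le_iff_le_comap]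
      apply CfsgH2.le_pCore h2
      obtain ⟨m, hm⟩ := h.pw k
      rw [hm] at h1
      obtain ⟨j, -, hj⟩ := (Nat.dvd_prime_pow hp.out).1 h1
      exact IsPGroup.of_card hj

theorem plen_iff [Finite G] [hp : Fact p.Prime] {k : ℕ} : PLengthLE p k G ↔ ∃ H : ℕ → Subgroup G, IsCh p H ∧ H (2 * k + 1) = ⊤ := by
  constructor
  · intro h
    exact ⟨UU p G, UU_isCh, h⟩
  · rintro ⟨H, hH, ht⟩
    change UU p G (2 * k + 1) = ⊤
    rw [eq_top_iff, ← ht]
    exact hH.le_UU _

theorem IsCh.map [Finite G] [hp : Fact p.Prime] {H : ℕ → Subgroup G} (h : IsCh p H) {Q : Type v} [Group Q] (f : G →* Q) (hf : Function.Surjective f) : IsCh p (fun i => (H i).map f) where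
  zero := by simp only [h.zero, Subgroup.map_bot]
  normal i := (h.normal i).map f hf
  le_succ i := Subgroup.map_mono (h.le_succ i)
  cop i := Nat.Coprime.coprime_dvd_left (relIndex_map_dvd f (h.le_succ _)) (h.cop i)
  pw i := by
    obtain ⟨m, hm⟩ := h.pw i
    have h1 := relIndex_map_dvd f (h.le_succ (2 * i + 1))
    rw [show 2 * i + 1 + 1 = 2 * i + 2 by ring, hm] at h1
    obtain ⟨j, -, hj⟩ := (Nat.dvd_prime_pow hp.out).1 h1
    exact ⟨j, hj⟩

theorem plen_surj [Finite G] [hp : Fact p.Prime] {k : ℕ} (h : PLengthLE p k G) {Q : Type v} [Group Q] [Finite Q] (f : G →* Q) (hf : Function.Surjective f) : PLengthLE p k Q := by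
  obtain ⟨H, hH, ht⟩ := plen_iff.1 h
  exact plen_iff.2 ⟨_, hH.map f hf, by rw [ht, Subgroup.map_top_of_surjective f hf]⟩

theorem IsCh.comap [Finite G] [hp : Fact p.Prime] {H : ℕ → Subgroup G} (h : IsCh p H) {Q : Type v} [Group Q] (f : Q →* G) (hf : Function.Injective f) : IsCh p (fun i => (H i).comap f) where
  zero := by
    simp only [h.zero]
    exact (MonoidHom.ker_eq_bot_iff f).2 hf
  normal i := (h.normal i).comap f
  le_succ i := Subgroup.comap_mono (h.le_succ i)
  cop i := by
    haveI := h.normal (2 * i)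
    rw [relIndex_comap, relIndex_eq_card_map]
    refine Nat.Coprime.coprime_dvd_left ?_ (h.cop i)
    rw [relIndex_eq_card_map]
    exact card_dvd_of_le (Subgroup.map_mono (map_comap_le _ _))
  pw i := by
    obtain ⟨m, hm⟩ := h.pw i
    haveI := h.normal (2 * i + 1)
    rw [relIndex_eq_card_map] at hm
    rw [relIndex_comap, relIndex_eq_card_map]
    have h1 : Nat.card ↥((((H (2 * i + 2)).comap f).map f).map (QuotientGroup.mk' (H (2 * i + 1)))) ∣ p ^ m := by
      rw [← hm]
      exact card_dvd_of_le (Subgroup.map_mono (map_comap_le _ _))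
    obtain ⟨j, -, hj⟩ := (Nat.dvd_prime_pow hp.out).1 h1
    exact ⟨j, hj⟩

theorem plen_inj [Finite G] [hp : Fact p.Prime] {k : ℕ} (h : PLengthLE p k G) {Q : Type v} [Group Q] [Finite Q] (f : Q →* G) (hf : Function.Injective f) : PLengthLE p k Q := by
  obtain ⟨H, hH, ht⟩ := plen_iff.1 h
  exact plen_iff.2 ⟨_, hH.comap f hf, by rw [ht, Subgroup.comap_top]⟩

theorem plen_sub [Finite G] [hp : Fact p.Prime] {k : ℕ} (h : PLengthLE p k G) (K : Subgroup G) : PLengthLE p k K := plen_inj h K.subtype K.subtype_injective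

theorem plen_quot [Finite G] [hp : Fact p.Prime] {k : ℕ} (h : PLengthLE p k G) (N : Subgroup G) [N.Normal] : PLengthLE p k (G ⧸ N) := plen_surj h (QuotientGroup.mk' N) (QuotientGroup.mk'_surjective N)

theorem UU_char [Finite G] [hp : Fact p.Prime] (i : ℕ) : (UU p G i).Characteristic := by
  rw [Subgroup.characteristic_iff_map_le]
  intro φ
  exact ((UU_isCh (p := p) (G := G)).map φ.toMonoidHom φ.surjective).le_UU i

/-- extensions -/
theorem plen_ext [Finite G] [hp : Fact p.Prime] {a b : ℕ} (N : Subgroup G) [hN : N.Normal] (h1 : PLengthLE p a N) (h2 : PLengthLE p b (G ⧸ N)) : PLengthLE p (a + b) G := by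
  obtain ⟨K, hK, hKt⟩ := plen_iff.1 h2
  have hU := UU_isCh (p := p) (G := N)
  have hUt : UU p N (2 * a + 1) = ⊤ := h1
  have hmapT : (⊤ : Subgroup N).map N.subtype = N := by rw [← MonoidHom.range_eq_map, Subgroup.range_subtype]
  rw [plen_iff]
  refine ⟨fun i => if i ≤ 2 * a then (UU p N i).map N.subtype else (K (i - 2 * a)).comap (QuotientGroup.mk' N), ⟨?_, ?_, ?_, ?_, ?_⟩, ?_⟩
  · simp only [Nat.zero_le, if_true]
    rw [UU_zero, Subgroup.map_bot]
  · intro i
    split_ifs with h
    · haveI := UU_char (p := p) (G := N) i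
      infer_instance
    · exact (hK.normal _).comap _
  · intro i
    split_ifs with h h' h'
    · exact Subgroup.map_mono (hU.le_succ i)
    · have : i = 2 * a := by omega
      refine (map_subtype_le _).trans ?_
      intro x hx
      rw [mem_comap]
      have : QuotientGroup.mk' N x = 1 := (QuotientGroup.eq_one_iff x).2 hx
      rw [this]; exact Subgroup.one_mem _
    · omega
    · have : i + 1 - 2 * a = (i - 2 * a) + 1 := by omega
      rw [this]
      exact Subgroup.comap_mono (hK.le_succ _)
  · intro i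
    split_ifs with h h' h'
    · rw [relIndex_map_map_of_injective _ _ N.subtype_injective]
      exact hU.cop i
    · have e1 : 2 * i = 2 * a := by omega
      have e2 : i = a := by omega
      subst e2
      rw [show 2 * i + 1 - 2 * i = 2 * 0 + 1 by omega]
      have h3 : (UU p N (2 * i)).map N.subtype ≤ N := map_subtype_le _
      have h4 : N ≤ (K (2 * 0 + 1)).comap (QuotientGroup.mk' N) := by
        intro x hx
        rw [mem_comap]
        have : QuotientGroup.mk' N x = 1 := (QuotientGroup.eq_one_iff x).2 hx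
        rw [this]; exact Subgroup.one_mem _
      rw [← relIndex_mul_relIndex _ _ _ h3 h4]
      apply Nat.Coprime.mul_left
      · have h5 := hU.cop i
        rw [hUt] at h5
        have h6 := relIndex_map_map_of_injective (UU p N (2 * i)) ⊤ N.subtype_injective
        rw [hmapT] at h6
        rw [h6]; exact h5
      · rw [relIndex_comap_mk']
        have h5 := hK.cop 0
        rw [show (2 * 0 : ℕ) = 0 by rfl, hK.zero, relIndex_bot_left] at h5
        exact h5
    · omega
    · have e1 : 2 * i - 2 * a = 2 * (i - a) := by omega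
      have e2 : 2 * i + 1 - 2 * a = 2 * (i - a) + 1 := by omega
      rw [e1, e2, relIndex_comap, Subgroup.map_comap_eq_self_of_surjective (QuotientGroup.mk'_surjective N)]
      exact hK.cop _
  · intro i
    split_ifs with h h' h'
    · rw [relIndex_map_map_of_injective _ _ N.subtype_injective]
      exact hU.pw i
    · omega
    · omega
    · have e1 : 2 * i + 1 - 2 * a = 2 * (i - a) + 1 := by omega
      have e2 : 2 * i + 2 - 2 * a = 2 * (i - a) + 2 := by omega
      rw [e1, e2, relIndex_comap, Subgroup.map_comap_eq_self_of_surjective (QuotientGroup.mk'_surjective N)]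
      exact hK.pw _
  · beta_reduce
    rw [if_neg (by omega), show 2 * (a + b) + 1 - 2 * a = 2 * b + 1 by omega, hKt, Subgroup.comap_top]

/-- dropping one layer -/
theorem plen_drop [Finite G] [hp : Fact p.Prime] {k : ℕ} (h : PLengthLE p (k + 1) G) (N : Subgroup G) [hN : N.Normal] (hNe : N = UU p G 2) : PLengthLE p k (G ⧸ N) := by
  have hU := UU_isCh (p := p) (G := G)
  rw [plen_iff]
  have hm := hU.map (QuotientGroup.mk' N) (QuotientGroup.mk'_surjective N)
  refine ⟨fun i => (UU p G (i + 2)).map (QuotientGroup.mk' N), ⟨?_, ?_, ?_, ?_, ?_⟩, ?_⟩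
  · rw [Subgroup.map_eq_bot_iff, QuotientGroup.ker_mk']
    exact hNe.ge
  · intro i; exact hm.normal _
  · intro i; exact hm.le_succ _
  · intro i
    have := hm.cop (i + 1)
    rw [show 2 * (i + 1) = 2 * i + 2 by ring] at this
    exact this
  · intro i
    have := hm.pw (i + 1)
    rw [show 2 * (i + 1) + 1 = 2 * i + 1 + 2 by ring, show 2 * (i + 1) + 2 = 2 * i + 2 + 2 by ring] at this
    exact this
  · beta_reduce
    have : UU p G (2 * k + 1 + 2) = ⊤ := h
    rw [this, Subgroup.map_top_of_surjective _ (QuotientGroup.mk'_surjective N)]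

theorem plen_zero [Finite G] [hp : Fact p.Prime] (h : ¬ p ∣ Nat.card G) : PLengthLE p 0 G := by
  rw [plen_iff]
  refine ⟨fun i => if i = 0 then ⊥ else ⊤, ⟨by simp, ?_, ?_, ?_, ?_⟩, by simp⟩
  · intro i; by_cases h0 : i = 0 <;> simp only [h0, if_true, if_false] <;> infer_instance
  · intro i; by_cases h0 : i = 0 <;> simp [h0]
  · intro i
    beta_reduce
    rw [if_neg (by omega : ¬ 2 * i + 1 = 0)]
    by_cases h0 : i = 0
    · subst h0
      rw [if_pos (by rfl), relIndex_bot_left, Subgroup.card_top]
      exact ((Nat.Prime.coprime_iff_not_dvd hp.out).2 h).symm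
    · rw [if_neg (by omega), relIndex_self]; exact Nat.coprime_one_left p
  · intro i
    refine ⟨0, ?_⟩
    beta_reduce
    rw [if_neg (by omega), if_neg (by omega), relIndex_self, pow_zero]

theorem plen_one_of_pgroup [Finite G] [hp : Fact p.Prime] (h : IsPGroup p G) : PLengthLE p 1 G := by
  rw [plen_iff]
  refine ⟨fun i => if i ≤ 1 then ⊥ else ⊤, ⟨by simp, ?_, ?_, ?_, ?_⟩, by simp⟩
  · intro i; by_cases h0 : i ≤ 1 <;> simp only [h0, if_true, if_false] <;> infer_instance
  · intro i
    beta_reduce
    by_cases h0 : i ≤ 1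
    · rw [if_pos h0]; exact bot_le
    · rw [if_neg h0, if_neg (by omega)]
  · intro i
    beta_reduce
    by_cases h0 : i = 0
    · subst h0
      rw [if_pos (by omega), if_pos (by omega), relIndex_self]; exact Nat.coprime_one_left p
    · rw [if_neg (by omega), if_neg (by omega), relIndex_self]; exact Nat.coprime_one_left p
  · intro i
    beta_reduce
    rw [if_neg (by omega : ¬ 2 * i + 2 ≤ 1)]
    by_cases h0 : i = 0
    · subst h0
      rw [if_pos (by omega), relIndex_bot_left, Subgroup.card_top]
      exact IsPGroup.iff_card.1 h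
    · exact ⟨0, by rw [if_neg (by omega), relIndex_self, pow_zero]⟩

theorem UU_one_coprime [Finite G] [hp : Fact p.Prime] : (Nat.card (UU p G 1)).Coprime p := by
  have := (UU_isCh (p := p) (G := G)).cop 0
  rw [show (2 * 0 : ℕ) = 0 by rfl, UU_zero, relIndex_bot_left] at this
  exact this

end CfsgH1
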