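import Cfsg.Agent.H1.HHAb
import Cfsg.Agent.H1.HHPrime
import Cfsg.Agent.H1.PLenCh
import Cfsg.Agent.H1.PSolv
import Cfsg.Agent.H1.CopExtra
import Cfsg.Agent.H1.CoprimeSylow
import Cfsg.Agent.H1.Frat

set_option autoImplicit false

open Subgroup Cfsg
open scoped Pointwise commutatorElement

namespace CfsgH1

universe u v
variable {G : Type u} [Group G]

/-- lifting `q`-subgroups of a quotient -/
theorem lift_qgroup [Finite G] {q : ℕ} [hq : Fact q.Prime] (N : Subgroup G) [N.Normal] {R : Subgroup (G ⧸ N)} (hR : IsPGroup q R) :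
    ∃ Q : Subgroup G, IsPGroup q Q ∧ IsSylowOf q Q (R.comap (QuotientGroup.mk' N)) ∧ Q.map (QuotientGroup.mk' N) = R := by
  obtain ⟨Q, hQ⟩ := exists_isSylowOf q (R.comap (QuotientGroup.mk' N))
  have h1 := isSylowOf_map (QuotientGroup.mk' N) hQ
  rw [Subgroup.map_comap_eq_self_of_surjective (QuotientGroup.mk'_surjective N)] at h1
  refine ⟨Q, isSylowOf_isPGroup hQ, hQ, le_antisymm (isSylowOf_le h1) ?_⟩
  have h2 := (isSylowOf_iff.1 h1).2.2
  obtain ⟨k, hk⟩ := IsPGroup.iff_card.1 hR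
  have h3 : (Q.map (QuotientGroup.mk' N)).relIndex R ∣ q ^ k := by
    rw [← hk]; exact Subgroup.index_dvd_card _
  obtain ⟨j, _, hj⟩ := (Nat.dvd_prime_pow hq.out).1 h3
  rcases Nat.eq_zero_or_pos j with h0 | h0
  · rw [h0, pow_zero] at hj
    exact Subgroup.relIndex_eq_one.1 hj
  · exact absurd (hj ▸ dvd_pow_self q h0.ne') h2

theorem pCore_quot_self [Finite G] {p : ℕ} [hp : Fact p.Prime] {R : Subgroup (G ⧸ pCore p G)} (hR : R.Normal) (hRp : IsPGroup p R) : R = ⊥ := by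
  have h1 : (R.comap (QuotientGroup.mk' (pCore p G))).Normal := hR.comap _
  have h2 : IsPGroup p (R.comap (QuotientGroup.mk' (pCore p G))) := by
    apply IsPGroup.comap_of_ker_isPGroup hRp
    rw [QuotientGroup.ker_mk']
    exact CfsgH2.isPGroup_pCore p
  have h3 := CfsgH2.le_pCore h1 h2
  rw [eq_bot_iff]
  intro r hr
  obtain ⟨g, rfl⟩ := QuotientGroup.mk'_surjective _ r
  exact (QuotientGroup.eq_one_iff g).2 (h3 hr)

theorem hh_step [Finite G] {p : ℕ} [hp : Fact p.Prime] (hC : centralizer (pCore p G : Set G) ≤ pCore p G) 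
    (hs : IsPSolvable p (G ⧸ pCore p G)) (hab : ∀ q : ℕ, q.Prime → q ≠ p → ∀ Q : Subgroup G, IsPGroup q Q → ∀ a ∈ Q, ∀ b ∈ Q, a * b = b * a)
    {x : G} {m : ℕ} (hm : 0 < m) (hx1 : x ^ p ^ m ∈ pCore p G) (hx2 : x ^ p ^ (m - 1) ∉ pCore p G) : 
    ∃ v ∈ pCore p G, (v * x) ^ p ^ m ≠ 1 := by
  by_contra hcon
  push Not at hcon
  set V := pCore p G with hV
  have hVp : IsPGroup p V := CfsgH2.isPGroup_pCore p
  haveI hVn : V.Normal := by rw [hV]; infer_instance
  set π := QuotientGroup.mk' V with hπ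
  have hπ1 : ∀ g : G, π g = 1 ↔ g ∈ V := fun g => QuotientGroup.eq_one_iff g
  set Hb := pPrimeCore p (G ⧸ V) with hHb
  haveI hHbn : Hb.Normal := by rw [hHb]; infer_instance
  have hHc : (Nat.card Hb).Coprime p := CfsgH2.coprime_card_pPrimeCore p
  have hCH : centralizer (Hb : Set (G ⧸ V)) ≤ Hb := psolv_centralizer_pPrimeCore_le hs (fun R hR hRp => pCore_quot_self hR hRp)
  have hxm : (π x) ^ p ^ m = 1 := by rw [← map_pow, hπ1]; exact hx1
  have hym : (π x) ^ p ^ (m - 1) ≠ 1 := by rw [← map_pow, Ne, hπ1]; exact hx2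
  set y := (π x) ^ p ^ (m - 1) with hy
  have hyp : y ^ p = 1 := by
    rw [hy, ← pow_mul, ← pow_succ, Nat.sub_add_cancel hm, hxm]
  have hyH : y ∉ centralizer (Hb : Set (G ⧸ V)) := by
    intro h
    have h1 := hCH h
    have h2 : orderOf y ∣ p := orderOf_dvd_of_pow_eq_one hyp
    have h3 : (orderOf y).Coprime p := Nat.Coprime.coprime_dvd_left (Subgroup.orderOf_dvd_natCard _ h1) hHc
    have h4 : orderOf y = 1 := Nat.Coprime.eq_one_of_dvd h3 h2
    exact hym (orderOf_eq_one_iff.1 h4)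
  set A := zpowers (π x) with hA
  have hAp : IsPGroup p A := by
    apply IsPGroup.of_card (n := (Nat.log p (Nat.card A)))
    have h1 : Nat.card A ∣ p ^ m := by
      rw [hA, Nat.card_zpowers]; exact orderOf_dvd_of_pow_eq_one hxm
    obtain ⟨j, _, hj⟩ := (Nat.dvd_prime_pow hp.out).1 h1
    rw [hj, Nat.log_pow hp.out.one_lt]
  have hAcop : (Nat.card A).Coprime (Nat.card Hb) := by
    obtain ⟨j, hj⟩ := IsPGroup.iff_card.1 hAp
    rw [hj]
    exact (Nat.Coprime.pow_right j hHc).symm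
  have hAsol : Group.IsSolvable A := isSolvable_of_isPGroup hAp
  -- a suitable Sylow subgroup
  obtain ⟨q, hq, Qb, hQb, hQA, hQy⟩ : ∃ q : ℕ, ∃ hq : q.Prime, ∃ Qb : Subgroup (G ⧸ V), IsSylowOf q Qb Hb ∧ A ≤ normalizer (Qb : Set (G ⧸ V)) ∧ 
      y ∉ centralizer (Qb : Set (G ⧸ V)) := by
    by_contra hno
    push Not at hno
    apply hyH
    have h1 : Hb ≤ Hb ⊓ centralizer {y} := by
      rw [← Subgroup.relIndex_eq_one]
      by_contra hne
      obtain ⟨q, hq, hqd⟩ := Nat.exists_prime_and_dvd hne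
      haveI : Fact q.Prime := ⟨hq⟩
      obtain ⟨Qb, hQb, hQA⟩ := (coprime_sylow (le_normalizer_of_normal A Hb) hAcop (Or.inl hAsol) q).1
      have h2 := hno q hq Qb hQb hQA
      have h3 : Qb ≤ Hb ⊓ centralizer {y} := by
        apply le_inf (isSylowOf_le hQb)
        intro g hg
        rw [mem_centralizer_singleton_iff]
        exact ((mem_centralizer_iff.1 h2) g hg)
      exact (isSylowOf_iff.1 hQb).2.2 (hqd.trans (Subgroup.relIndex_dvd_of_le_left _ h3))
    rw [mem_centralizer_iff]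
    intro g hg
    exact (mem_centralizer_singleton_iff.1 (h1 hg).2)
  haveI : Fact q.Prime := ⟨hq⟩
  have hQbq : IsPGroup q Qb := isSylowOf_isPGroup hQb
  have hqp : q ≠ p := by
    rintro rfl
    apply hQy
    have h1 : Qb = ⊥ := by
      have h2 : Nat.card Qb ∣ Nat.card Hb := Subgroup.card_dvd_of_le (isSylowOf_le hQb)
      obtain ⟨j, hj⟩ := IsPGroup.iff_card.1 hQbq
      rw [← Subgroup.card_eq_one]
      exact Nat.eq_one_of_dvd_coprimes (hHc.pow_right j) h2 (by rw [hj])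
    rw [h1, mem_centralizer_iff]
    intro g hg
    rw [SetLike.mem_coe, mem_bot] at hg
    rw [hg, one_mul, mul_one]
  obtain ⟨Q, hQq, hQK, hQmap⟩ := lift_qgroup V hQbq
  have hxK : x ∈ normalizer (Qb.comap π : Set G) := by
    apply Subgroup.mem_normalizer_fintype
    intro g hg
    have h1 : π x ∈ normalizer (Qb : Set (G ⧸ V)) := hQA (mem_zpowers _)
    have h2 := (mem_normalizer_iff.1 h1 (π g)).1 hg
    change π (x * g * x⁻¹) ∈ Qb
    rw [map_mul, map_mul, map_inv]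
    exact h2
  obtain ⟨k, hkK, hk⟩ := isSylowOf_conj_trans (isSylowOf_conj hQK hxK) hQK
  obtain ⟨u, hu, huk⟩ : ∃ u ∈ Q, π u = π k := by
    have h1 : π k ∈ Q.map π := by rw [hQmap]; exact hkK
    exact h1
  have hv' : u⁻¹ * k ∈ V := by rw [← hπ1, map_mul, map_inv, huk, inv_mul_cancel]
  set x' := u⁻¹ * k * x with hx'
  have hx'N : x' ∈ normalizer (Q : Set G) := by
    rw [hx', mul_assoc]
    apply Subgroup.mul_mem
    · exact Subgroup.inv_mem _ (le_normalizer hu)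
    · rw [← conj_smul_eq_self_iff, map_mul, mul_smul, hk]
  have hsp : ∀ v ∈ V, (v * x') ^ p ^ m = 1 := by
    intro v hv
    rw [hx', ← mul_assoc]
    exact hcon _ (V.mul_mem hv hv')
  have hπx' : π x' = π x := by
    rw [hx', map_mul, (hπ1 _).2 hv', one_mul]
  have hQab := hab q hq hqp Q hQq
  have hQcop : (Nat.card Q).Coprime p := by
    obtain ⟨j, hj⟩ := IsPGroup.iff_card.1 hQq
    rw [hj]
    exact Nat.Coprime.pow_left j ((Nat.coprime_primes hq hp.out).2 hqp)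
  -- pass to the Frattini quotient
  set D := (frattini V).map V.subtype with hD
  haveI hDn : D.Normal := normal_map_characteristic (K := V) (frattini V)
  have hDV : D ≤ V := Subgroup.map_subtype_le _
  have hDmem : ∀ v : V, v ∈ frattini V → (v : G) ∈ D := fun v hv => ⟨v, hv, rfl⟩
  haveI : Group.IsNilpotent V := hVp.isNilpotent
  set δ := QuotientGroup.mk' D with hδ
  have hδ1 : ∀ g : G, δ g = 1 ↔ g ∈ D := fun g => QuotientGroup.eq_one_iff g
  haveI hVdn : (V.map δ).Normal := hVn.map δ (QuotientGroup.mk'_surjective D)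
  have key : ∀ w ∈ Q, ∀ v ∈ V, δ w * δ v * (δ w)⁻¹ = (δ x' ^ (p ^ (m - 1)) * δ w * (δ x' ^ (p ^ (m - 1)))⁻¹) * δ v * (δ x' ^ (p ^ (m - 1)) * δ w * (δ x' ^ (p ^ (m - 1)))⁻¹)⁻¹ := by
    intro w hw v hv
    refine hh_abelian (V := V.map δ) (Q := Q.map δ) (p := p) ?_ ?_ ?_ ?_ (x := δ x') ?_ hm ?_ (Subgroup.mem_map_of_mem δ hw) (δ v) (Subgroup.mem_map_of_mem δ hv)
    · rintro _ ⟨a, ha, rfl⟩ _ ⟨b, hb, rfl⟩
      rw [← mul_inv_eq_one, mul_inv_rev, ← map_mul, ← map_inv, ← map_inv, ← map_mul, ← map_mul, hδ1]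
      have h1 : ⁅(⟨a, ha⟩ : V), ⟨b, hb⟩⁆ ∈ frattini V := commutator_le_frattini (commutator_mem_commutator (mem_top _) (mem_top _))
      have h2 := hDmem _ h1
      have h3 : ((⁅(⟨a, ha⟩ : V), ⟨b, hb⟩⁆ : V) : G) = a * b * (a⁻¹ * b⁻¹) := by
        rw [commutatorElement_def]; simp [mul_assoc]
      rwa [h3] at h2
    · rintro _ ⟨a, ha, rfl⟩
      rw [← map_pow, hδ1]
      exact hDmem (⟨a, ha⟩ ^ p) (pow_mem_frattini hVp _)
    · rintro _ ⟨a, ha, rfl⟩ _ ⟨b, hb, rfl⟩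
      rw [← map_mul, hQab a ha b hb, map_mul]
    · exact Nat.Coprime.coprime_dvd_left (Subgroup.card_map_dvd _ _) hQcop
    · apply Subgroup.mem_normalizer_fintype
      rintro _ ⟨a, ha, rfl⟩
      exact ⟨x' * a * x'⁻¹, (mem_normalizer_iff.1 hx'N a).1 ha, by simp⟩
    · rintro _ ⟨a, ha, rfl⟩
      rw [← map_mul, ← map_pow, hsp a ha, map_one]
  -- hence `y' = x'^(p^(m-1))` centralises `Q`
  set y' := x' ^ (p ^ (m - 1)) with hy'
  have hy'N : y' ∈ normalizer (Q : Set G) := Subgroup.pow_mem _ hx'N _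
  have hcomm : ∀ w ∈ Q, y' * w * y'⁻¹ = w := by
    intro w hw
    have hw' : y' * w * y'⁻¹ ∈ Q := (mem_normalizer_iff.1 hy'N w).1 hw
    set z := (y' * w * y'⁻¹)⁻¹ * w with hz
    have hzQ : z ∈ Q := Q.mul_mem (Q.inv_mem hw') hw
    have hz1 : ∀ v ∈ V, z * v * z⁻¹ * v⁻¹ ∈ D := by
      intro v hv
      have h1 := key w hw v hv
      rw [← hδ1]
      have h2 : δ (z * v * z⁻¹ * v⁻¹) = (δ (y' * w * y'⁻¹))⁻¹ * (δ w * δ v * (δ w)⁻¹) * δ (y' * w * y'⁻¹) * (δ v)⁻¹ := by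
        rw [hz]; simp only [map_mul, map_inv, mul_inv_rev, inv_inv, mul_assoc]
      rw [h2, h1, ← map_pow, ← hy']
      simp only [map_mul, map_inv]
      group
    have hcomm2 : zpowers z ≤ centralizer (V : Set G) := by
      have hnD : ∀ v ∈ V, ∀ a ∈ zpowers z, a * v * a⁻¹ * v⁻¹ ∈ D := by
        have h3 : zpowers z ≤ (centralizer ((V.map δ : Subgroup (G ⧸ D)) : Set (G ⧸ D))).comap δ := by
          rw [zpowers_le, Subgroup.mem_comap, mem_centralizer_iff]
          rintro _ ⟨v, hv, rfl⟩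
          have h4 := (hδ1 _).2 (hz1 v hv)
          rw [map_mul, map_inv, mul_inv_eq_one, map_mul, map_inv, mul_inv_eq_iff_eq_mul, map_mul] at h4
          exact h4.symm
        intro v hv a ha
        have h4 := h3 ha
        rw [Subgroup.mem_comap, mem_centralizer_iff] at h4
        have h5 := h4 (δ v) ⟨v, hv, rfl⟩
        rw [← hδ1, map_mul, map_inv, mul_inv_eq_one, map_mul, map_inv, mul_inv_eq_iff_eq_mul, map_mul]
        exact h5.symm
      refine coprime_trivial_of_frattini (le_normalizer_of_normal _ _) ?_ (fun a ha v hv => hnD v hv a ha)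
      obtain ⟨j, hj⟩ := IsPGroup.iff_card.1 (hVp.to_subgroup (frattini V))
      rw [hj]
      exact Nat.Coprime.coprime_dvd_left (Subgroup.card_dvd_of_le (zpowers_le.2 hzQ)) (hQcop.pow_right j)
    have hzV : z ∈ V := hC (hcomm2 (mem_zpowers z))
    have hz0 : z = 1 := by
      obtain ⟨j, hj⟩ := IsPGroup.iff_card.1 hVp
      have h1 : orderOf z ∣ p ^ j := by rw [← hj]; exact Subgroup.orderOf_dvd_natCard _ hzV
      have h2 : (orderOf z).Coprime (p ^ j) := (Nat.Coprime.coprime_dvd_left (Subgroup.orderOf_dvd_natCard _ hzQ) hQcop).pow_right j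
      exact orderOf_eq_one_iff.1 (Nat.Coprime.eq_one_of_dvd h2 h1)
    rw [hz, inv_mul_eq_one] at hz0
    exact hz0
  apply hQy
  rw [mem_centralizer_iff]
  intro g hg
  rw [← hQmap] at hg
  obtain ⟨w, hw, rfl⟩ := hg
  have h1 : y = π y' := by rw [hy, hy', map_pow, hπx']
  rw [h1]
  change π w * π y' = π y' * π w
  rw [← map_mul, ← map_mul, ← mul_inv_eq_iff_eq_mul.1 (hcomm w hw)]

theorem plen_exp (N : ℕ) : ∀ (G : Type u) [Group G] [Finite G] (p : ℕ) [hp : Fact p.Prime], Nat.card G = N → IsPSolvable p G → 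
    (∀ q : ℕ, q.Prime → q ≠ p → ∀ Q : Subgroup G, IsPGroup q Q → ∀ a ∈ Q, ∀ b ∈ Q, a * b = b * a) → 
    ∀ n, (∀ x : G, (∃ k, x ^ p ^ k = 1) → x ^ p ^ n = 1) → PLengthLE p n G := by
  induction N using Nat.strong_induction_on with
  | _ N IH =>
  intro G _ _ p hp hN hsol hab n hexp
  rcases subsingleton_or_nontrivial G with hsub | hnt
  · have h0 : PLengthLE p (0 + n) G := by
      have h1 : (UU p G 1 : Subgroup G) = ⊤ := Subsingleton.elim _ _
      exact Subsingleton.elim _ _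
    rwa [zero_add] at h0
  -- quotients inherit
  have hquoAb : ∀ (K : Subgroup G) [K.Normal], ∀ q : ℕ, q.Prime → q ≠ p → ∀ Q : Subgroup (G ⧸ K), IsPGroup q Q → ∀ a ∈ Q, ∀ b ∈ Q, a * b = b * a := by
    intro K _ q hq hqp Q hQ a ha b hb
    haveI : Fact q.Prime := ⟨hq⟩
    obtain ⟨R, hR, -, hRm⟩ := lift_qgroup K hQ
    rw [← hRm] at ha hb
    obtain ⟨a, ha, rfl⟩ := ha
    obtain ⟨b, hb, rfl⟩ := hb
    rw [← map_mul, hab q hq hqp R hR a ha b hb, map_mul]
  have hlift : ∀ (K : Subgroup G) [K.Normal] (x : G ⧸ K), (∃ k, x ^ p ^ k = 1) → ∃ z : G, (∃ k, z ^ p ^ k = 1) ∧ QuotientGroup.mk' K z = x := by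
    intro K _ x ⟨k, hk⟩
    have h1 : IsPGroup p (zpowers x) := by
      rw [IsPGroup.iff_card, Nat.card_zpowers]
      obtain ⟨j, _, hj⟩ := (Nat.dvd_prime_pow hp.out).1 (orderOf_dvd_of_pow_eq_one hk)
      exact ⟨j, hj⟩
    obtain ⟨R, hR, -, hRm⟩ := lift_qgroup K h1
    have h2 : x ∈ R.map (QuotientGroup.mk' K) := by rw [hRm]; exact mem_zpowers x
    obtain ⟨z, hz, hzx⟩ := h2
    obtain ⟨k, hk⟩ := hR ⟨z, hz⟩
    exact ⟨z, ⟨k, congrArg Subtype.val hk⟩, hzx⟩
  have hcardlt : ∀ (K : Subgroup G), K ≠ ⊥ → Nat.card (G ⧸ K) < N := by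
    intro K hne
    rw [← hN, ← Subgroup.card_mul_index K, ← Subgroup.index_eq_card]
    have h1 : 1 < Nat.card K := by
      rw [Subgroup.one_lt_card_iff_ne_bot]; exact hne
    have h2 : 0 < K.index := Nat.pos_of_ne_zero K.index_ne_zero_of_finite
    nlinarith
  by_cases hO : pPrimeCore p G = ⊥
  swap
  · have h1 : PLengthLE p 0 (pPrimeCore p G : Subgroup G) := plen_zero (fun hd => hp.out.one_lt.ne' (Nat.Coprime.eq_one_of_dvd (CfsgH2.coprime_card_pPrimeCore p).symm hd))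
    have h2 : PLengthLE p n (G ⧸ pPrimeCore p G) := by
      refine IH _ (hcardlt _ hO) (G ⧸ pPrimeCore p G) p rfl (CfsgH1.IsPSolvable.map hsol (QuotientGroup.mk' _) (QuotientGroup.mk'_surjective _)) (hquoAb _) n ?_
      intro x hx
      obtain ⟨z, hz, rfl⟩ := hlift _ x hx
      rw [← map_pow, hexp z hz, map_one]
    have h3 := plen_ext _ h1 h2
    rwa [zero_add] at h3
  have hC := psolv_centralizer_pCore_le hsol hO
  have hVne : pCore p G ≠ ⊥ := by
    intro h
    rw [h] at hC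
    have h1 : (⊤ : Subgroup G) ≤ ⊥ := by
      refine le_trans ?_ hC
      intro g _
      rw [mem_centralizer_iff]
      intro b hb
      rw [SetLike.mem_coe, mem_bot] at hb
      rw [hb, one_mul, mul_one]
    exact top_ne_bot (le_bot_iff.1 h1)
  have hVp : IsPGroup p (pCore p G) := CfsgH2.isPGroup_pCore p
  rcases Nat.eq_zero_or_pos n with h0 | h0
  · exfalso
    apply hVne
    rw [eq_bot_iff]
    intro v hv
    obtain ⟨k, hk⟩ := hVp ⟨v, hv⟩
    have h1 := hexp v ⟨k, congrArg Subtype.val hk⟩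
    rw [h0, pow_zero, pow_one] at h1
    rw [mem_bot, h1]
  obtain ⟨n', rfl⟩ : ∃ n', n = n' + 1 := ⟨n - 1, by omega⟩
  have h1 : PLengthLE p 1 (pCore p G) := plen_one_of_pgroup hVp
  have hsq : IsPSolvable p (G ⧸ pCore p G) := CfsgH1.IsPSolvable.map hsol (QuotientGroup.mk' _) (QuotientGroup.mk'_surjective _)
  have h2 : PLengthLE p n' (G ⧸ pCore p G) := by
    refine IH _ (hcardlt _ hVne) (G ⧸ pCore p G) p rfl hsq (hquoAb _) n' ?_
    rintro x ⟨k, hk⟩
    by_contra hne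
    obtain ⟨j, _, hj⟩ := (Nat.dvd_prime_pow hp.out).1 (orderOf_dvd_of_pow_eq_one hk)
    have hjn : n' < j := by
      by_contra hle
      push Not at hle
      apply hne
      rw [← orderOf_dvd_iff_pow_eq_one, hj]
      exact pow_dvd_pow p hle
    obtain ⟨z, rfl⟩ := QuotientGroup.mk'_surjective _ x
    have hz1 : z ^ p ^ j ∈ pCore p G := by
      rw [← QuotientGroup.eq_one_iff (N := pCore p G)]
      change QuotientGroup.mk' (pCore p G) (z ^ p ^ j) = 1
      rw [map_pow, ← hj, pow_orderOf_eq_one]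
    have hz2 : z ^ p ^ (j - 1) ∉ pCore p G := by
      intro hmem
      have h3 : QuotientGroup.mk' (pCore p G) z ^ p ^ (j - 1) = 1 := by
        rw [← map_pow]; exact (QuotientGroup.eq_one_iff _).2 hmem
      have h4 := orderOf_dvd_of_pow_eq_one h3
      rw [hj] at h4
      have h5 := (Nat.pow_dvd_pow_iff_le_right hp.out.one_lt).1 h4
      omega
    obtain ⟨v, hv, hvz⟩ := hh_step hC hsq hab (by omega : 0 < j) hz1 hz2
    apply hvz
    have h6 : (v * z) ^ p ^ j ∈ pCore p G := by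
      rw [← QuotientGroup.eq_one_iff (N := pCore p G)]
      change QuotientGroup.mk' (pCore p G) ((v * z) ^ p ^ j) = 1
      rw [map_pow, map_mul, show QuotientGroup.mk' (pCore p G) v = 1 from (QuotientGroup.eq_one_iff v).2 hv, one_mul, ← hj, pow_orderOf_eq_one]
    obtain ⟨i, hi⟩ := hVp ⟨_, h6⟩
    have h7 : (v * z) ^ p ^ (n' + 1) = 1 := by
      apply hexp
      refine ⟨j + i, ?_⟩
      rw [pow_add, pow_mul]
      exact congrArg Subtype.val hi
    rw [← Nat.sub_add_cancel hjn, pow_add, mul_comm, pow_mul, show p ^ (n' + 1) = p ^ n'.succ from rfl, h7, one_pow]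
  have h3 := plen_ext _ h1 h2
  rwa [add_comm] at h3

end CfsgH1
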