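import Cfsg.Agent.H1.GenFix

set_option autoImplicit false

open scoped Pointwise commutatorElement

namespace CfsgH1

universe u v w
variable {G : Type u} [Group G]

open Subgroup Cfsg

/-- if `K = [K,A]` then fixed points of `A` on `K` lie in every invariant subgroup with abelian quotient -/
theorem fixed_le_of_commutator_eq [Finite G] {A K N : Subgroup G} (hAK : A ≤ normalizer (K : Set G)) (hcop : (Nat.card A).Coprime (Nat.card K)) 
    (hNK : N ≤ K) (hAN : A ≤ normalizer (N : Set G)) (hKN : ⁅K, K⁆ ≤ N) (hKA : K ≤ ⁅K, A⁆) : K ⊓ centralizer (A : Set G) ≤ N := by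
  have hKnN : K ≤ normalizer (N : Set G) := by
    rw [Subgroup.le_normalizer_iff_commutator_le_right]
    exact (commutator_mono le_rfl hNK).trans hKN
  haveI hnorm : (N.subgroupOf K).Normal := normal_subgroupOf_of_le_normalizer hKnN
  letI : MulDistribMulAction A (K ⧸ N.subgroupOf K) := secMDMA hAK hAN
  letI : CommGroup (K ⧸ N.subgroupOf K) := { (inferInstance : Group (K ⧸ N.subgroupOf K)) with 
    mul_comm := by
      intro a b
      obtain ⟨x, rfl⟩ := QuotientGroup.mk'_surjective _ a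
      obtain ⟨y, rfl⟩ := QuotientGroup.mk'_surjective _ b
      rw [← map_mul, ← map_mul]
      apply QuotientGroup.eq.2
      rw [Subgroup.mem_subgroupOf]
      have : (((x * y)⁻¹ * (y * x) : K) : G) = ⁅(y : G)⁻¹, (x : G)⁻¹⁆ := by
        rw [commutatorElement_def]
        simp [mul_assoc]
      rw [this]
      exact hKN (commutator_mem_commutator (K.inv_mem y.2) (K.inv_mem x.2)) }
  -- kernel of the norm
  let F : Subgroup (K ⧸ N.subgroupOf K) := 
    { carrier := {v | nrm (⊤ : Subgroup A) v = 1}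
      one_mem' := by
        have := nrm_mul (V := K ⧸ N.subgroupOf K) (⊤ : Subgroup A) 1 1
        rw [mul_one] at this
        exact (mul_eq_left.1 this.symm)
      mul_mem' := by
        intro a b ha hb
        change nrm _ (a * b) = 1
        rw [nrm_mul, ha, hb, one_mul]
      inv_mem' := by
        intro a ha
        change nrm _ a⁻¹ = 1
        rw [nrm_inv, ha, inv_one] }
  have hF : K ≤ (F.comap (QuotientGroup.mk' (N.subgroupOf K))).map K.subtype := by
    refine hKA.trans ?_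
    rw [commutator_le]
    intro v hv a ha
    have hav : a * v⁻¹ * a⁻¹ ∈ K := le_normalizer_iff_conj.1 hAK a ha v⁻¹ (K.inv_mem hv)
    refine ⟨⟨v, hv⟩ * ⟨a * v⁻¹ * a⁻¹, hav⟩, ?_, ?_⟩
    · rw [SetLike.mem_coe, Subgroup.mem_comap, map_mul]
      have h1 : QuotientGroup.mk' (N.subgroupOf K) ⟨a * v⁻¹ * a⁻¹, hav⟩ = (⟨a, ha⟩ : A) • (QuotientGroup.mk' (N.subgroupOf K) ⟨v, hv⟩)⁻¹ := by
        rw [← map_inv]; rfl
      rw [h1]
      change nrm _ _ = 1
      rw [nrm_mul, nrm_smul _ _ (Subgroup.mem_top _), nrm_inv, mul_inv_cancel]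
    · change v * (a * v⁻¹ * a⁻¹) = ⁅v, a⁆
      rw [commutatorElement_def]; group
  rintro x ⟨hxK, hxC⟩
  obtain ⟨y, hy, hyx⟩ := hF hxK
  have hyx : (y : G) = x := hyx
  have h0 : nrm (⊤ : Subgroup A) (QuotientGroup.mk' (N.subgroupOf K) y) = 1 := hy
  have h1 : nrm (⊤ : Subgroup A) (QuotientGroup.mk' (N.subgroupOf K) y) = (QuotientGroup.mk' (N.subgroupOf K) y) ^ Nat.card (⊤ : Subgroup A) := by
    apply nrm_of_fixed
    intro a _
    change a • ((y : K) : K ⧸ N.subgroupOf K) = ((y : K) : K ⧸ N.subgroupOf K)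
    rw [secMDMA_smul]
    congr 1
    apply Subtype.ext
    change (a : G) * y * (a : G)⁻¹ = y
    rw [hyx, Subgroup.mem_centralizer_iff.1 hxC a a.2, mul_inv_cancel_right]
  rw [h0, Subgroup.card_top] at h1
  have h3 : orderOf (QuotientGroup.mk' (N.subgroupOf K) y) ∣ Nat.card A := orderOf_dvd_of_pow_eq_one h1.symm
  have h4 : orderOf (QuotientGroup.mk' (N.subgroupOf K) y) ∣ Nat.card K := (orderOf_map_dvd _ _).trans (orderOf_dvd_natCard y)
  have h5 := orderOf_eq_one_iff.1 (Nat.eq_one_of_dvd_coprimes hcop h3 h4)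
  have h6 := (QuotientGroup.eq_one_iff y).1 h5
  rw [Subgroup.mem_subgroupOf, hyx] at h6
  exact h6

/-- under the same hypotheses, an invariant subgroup `U` with `[U,A] ≤ N` lies in `N` -/
theorem le_of_commutator_eq [Finite G] {A K N U : Subgroup G} (hAK : A ≤ normalizer (K : Set G)) (hcop : (Nat.card A).Coprime (Nat.card K)) 
    (hs : Group.IsSolvable A ∨ Group.IsSolvable K)
    (hNK : N ≤ K) (hAN : A ≤ normalizer (N : Set G)) (hKN : ⁅K, K⁆ ≤ N) (hKA : K ≤ ⁅K, A⁆) (hUK : U ≤ K) (hUA : ⁅U, A⁆ ≤ N) : U ≤ N := by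
  intro u hu
  obtain ⟨c, hc, hcN⟩ := coprime_fixed_quotient hAK hcop hs hNK hAN u (hUK hu) (by
    intro a ha
    have h1 : ⁅u⁻¹, a⁆ ∈ N := hUA (commutator_mem_commutator (U.inv_mem hu) ha)
    rw [commutatorElement_def, inv_inv] at h1
    have : u⁻¹ * (a * u * a⁻¹) = u⁻¹ * a * u * a⁻¹ := by group
    rw [this]; exact h1)
  have h2 := fixed_le_of_commutator_eq hAK hcop hNK hAN hKN hKA hc
  have : u = c * (u⁻¹ * c)⁻¹ := by group
  rw [this]
  exact N.mul_mem h2 (N.inv_mem hcN)

end CfsgH1
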