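import Cfsg.Agent.H1.Hall
import Cfsg.Agent.H1.PSolv
import Cfsg.Agent.H1.CoprimeSylow
import Cfsg.Prelude.Def_OddOrderLocal

set_option autoImplicit false

open scoped Pointwise commutatorElement

namespace CfsgH1

universe u v w
variable {G : Type u} [Group G]

open Subgroup Cfsg

theorem piNum_compl_singleton_iff {p n : ℕ} [hp : Fact p.Prime] : PiNum ({p}ᶜ : Set ℕ) n ↔ n.Coprime p := by
  constructor
  · intro h
    rw [Nat.coprime_comm, hp.out.coprime_iff_not_dvd]
    intro hd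
    exact h p hp.out hd rfl
  · intro h q hq hd hqp
    rw [Set.mem_singleton_iff] at hqp
    subst hqp
    exact hq.coprime_iff_not_dvd.1 h.symm hd

theorem piNum_singleton_iff {p n : ℕ} [hp : Fact p.Prime] (hn : n ≠ 0) : PiNum ({p} : Set ℕ) n ↔ ∃ k, n = p ^ k := by
  constructor
  · intro h
    refine ⟨_, Nat.eq_prime_pow_of_unique_prime_dvd hn fun {q} hq hd => h q hq hd⟩
  · rintro ⟨k, rfl⟩
    exact PiNum.pow hp.out rfl

/-- `p`-solvable groups have Hall `p'`-subgroups -/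
theorem hallD_psolv [Finite G] {p : ℕ} [hp : Fact p.Prime] (h : IsPSolvable p G) : HallD ({p}ᶜ : Set ℕ) G := by
  refine hallD_induction (π := {p}ᶜ) (fun G _ => IsPSolvable p G) ?_ (Nat.card G) G rfl h
  intro G _ _ _ hs
  obtain ⟨N, h1, h2, h3⟩ := IsPSolvable.exists_normal hs
  refine ⟨N, h1, h2, IsPSolvable.map hs (QuotientGroup.mk' N) (QuotientGroup.mk'_surjective N), ?_⟩
  rcases h3 with ⟨m, hm⟩ | h3
  · right
    rw [compl_compl]
    refine ⟨by rw [hm]; exact PiNum.pow hp.out rfl, Or.inl ?_⟩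
    exact isSolvable_of_isPGroup (IsPGroup.of_card hm)
  · left
    exact piNum_compl_singleton_iff.2 h3

/-- solvable-by-`π` groups have Hall `π`-subgroups -/
theorem hallD_ext [Finite G] {π : Set ℕ} (N : Subgroup G) (hN : N.Normal) (hs : Group.IsSolvable N) (hi : PiNum π N.index) : HallD π G := by
  refine hallD_induction (π := π) (fun G _ => ∃ N : Subgroup G, N.Normal ∧ Group.IsSolvable N ∧ PiNum π N.index) ?_ 
    (Nat.card G) G rfl ⟨N, hN, hs, hi⟩
  clear hs hi hN N
  rintro G _ _ _ ⟨N, hN, hs, hi⟩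
  by_cases hb : N = ⊥
  · subst hb
    rw [Subgroup.index_bot] at hi
    refine ⟨⊤, inferInstance, top_ne_bot, ⟨⊤, inferInstance, ?_, ?_⟩, Or.inl (by rw [Subgroup.card_top]; exact hi)⟩
    · haveI : Subsingleton (G ⧸ (⊤ : Subgroup G)) := QuotientGroup.subsingleton_quotient_top
      infer_instance
    · rw [Subgroup.index_top]; exact PiNum.one
  · obtain ⟨M, hM1, hM2⟩ := exists_minimal_of_set {M : Subgroup G | M.Normal ∧ M ≤ N ∧ M ≠ ⊥} ⟨N, hN, le_rfl, hb⟩ 
    obtain ⟨hMn, hMN, hMb⟩ := hM1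
    have hMs : Group.IsSolvable M := isSolvable_of_le hs hMN
    obtain ⟨-, p, hp, hexp⟩ := elemAb_of_min_invariant (B := ⊤) (le_normalizer_of_normal ⊤ M) hMb hMs (by
      intro K hK hle
      by_cases hKb : K = ⊥
      · exact Or.inl hKb
      · exact Or.inr (hM2 K ⟨Subgroup.normalizer_eq_top_iff.1 (top_le_iff.1 hK), hle.trans hMN, hKb⟩ hle))
    haveI : Fact p.Prime := ⟨hp⟩
    have hMp := isPGroup_of_forall_pow_eq_one hexp
    refine ⟨M, hMn, hMb, ⟨N.map (QuotientGroup.mk' M), hN.map _ (QuotientGroup.mk'_surjective M), ?_, ?_⟩, ?_⟩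
    · haveI := hs
      exact Group.isSolvable_of_surjective ((QuotientGroup.mk' M).subgroupMap_surjective N)
    · exact hi.of_dvd (Subgroup.index_map_dvd _ (QuotientGroup.mk'_surjective M))
    · by_cases hpi : p ∈ π
      · exact Or.inl (piNum_isPGroup hMp hpi)
      · exact Or.inr ⟨piNum_isPGroup hMp hpi, Or.inl hMs⟩

end CfsgH1
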