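import Mathlib
import Cfsg.Agent.H3.Dih

set_option autoImplicit false

namespace CfsgH1

section
variable {G : Type*} [Group G]

/-- the class two formula. -/
theorem hm_pow (u v w : G) (h : v * u = u * v * w) (hu : Commute w u) (hv : Commute w v) (n : ℕ) :
    (u * v) ^ n = u ^ n * v ^ n * w ^ (n.choose 2) := by
  have h1 : ∀ n : ℕ, v ^ n * u = u * v ^ n * w ^ n := by
    intro n
    induction n with
    | zero => simp
    | succ n ih =>
      calc v ^ (n + 1) * u = v ^ n * (v * u) := by rw [pow_succ]; group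
        _ = (v ^ n * u) * v * w := by rw [h]; group
        _ = u * v ^ n * w ^ n * v * w := by rw [ih]
        _ = u * v ^ n * (w ^ n * v) * w := by group
        _ = u * v ^ n * (v * w ^ n) * w := by rw [(hv.pow_left n).eq]
        _ = u * v ^ (n + 1) * w ^ (n + 1) := by rw [pow_succ, pow_succ]; group
  induction n with
  | zero => simp
  | succ n ih =>
    have e : (n + 1).choose 2 = n + n.choose 2 := by
      rw [Nat.choose_succ_succ' n 1, Nat.choose_one_right]
    calc (u * v) ^ (n + 1) = u ^ n * v ^ n * w ^ (n.choose 2) * (u * v) := by rw [pow_succ, ih]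
      _ = u ^ n * v ^ n * (w ^ (n.choose 2) * (u * v)) := by group
      _ = u ^ n * v ^ n * ((u * v) * w ^ (n.choose 2)) := by
          rw [((hu.pow_left _).mul_right (hv.pow_left _)).eq]
      _ = u ^ n * (v ^ n * u) * v * w ^ (n.choose 2) := by group
      _ = u ^ n * (u * v ^ n * w ^ n) * v * w ^ (n.choose 2) := by rw [h1 n]
      _ = u ^ n * u * v ^ n * (w ^ n * v) * w ^ (n.choose 2) := by group
      _ = u ^ n * u * v ^ n * (v * w ^ n) * w ^ (n.choose 2) := by rw [(hv.pow_left n).eq]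
      _ = u ^ (n + 1) * v ^ (n + 1) * (w ^ n * w ^ (n.choose 2)) := by
          rw [pow_succ, pow_succ]; group
      _ = u ^ (n + 1) * v ^ (n + 1) * w ^ ((n + 1).choose 2) := by rw [← pow_add, e]

theorem hm_conj (hn : ∀ H : Subgroup G, H.Normal) (g x : G) :
    g * x * g⁻¹ ∈ Subgroup.zpowers x :=
  (hn (Subgroup.zpowers x)).conj_mem x (Subgroup.mem_zpowers x) g

/-- in a cyclic group of order `p^(a+1)` an element of order `p` generates the same group as
`x ^ p^a`. -/
theorem hm_cyc [Finite G] {p : ℕ} (hp : p.Prime) {x c : G} {a : ℕ} (hx : orderOf x = p ^ (a + 1))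
    (hc : orderOf c = p) (hcx : c ∈ Subgroup.zpowers x) :
    Subgroup.zpowers (x ^ p ^ a) = Subgroup.zpowers c := by
  have hle : Subgroup.zpowers c ≤ Subgroup.zpowers (x ^ p ^ a) := by
    rw [Subgroup.zpowers_le]
    rw [← mem_powers_iff_mem_zpowers] at hcx
    obtain ⟨k, hk⟩ := hcx
    have hk' : x ^ k = c := hk
    have h1 : x ^ (k * p) = 1 := by
      rw [pow_mul, hk', ← hc, pow_orderOf_eq_one]
    have h2 := orderOf_dvd_of_pow_eq_one h1
    rw [hx, pow_succ] at h2
    have h3 : p ^ a ∣ k := Nat.dvd_of_mul_dvd_mul_right hp.pos h2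
    obtain ⟨l, hl⟩ := h3
    rw [← hk', hl, pow_mul]
    exact Subgroup.npow_mem_zpowers _ _
  symm
  apply Subgroup.eq_of_le_of_card_ge hle
  rw [Nat.card_zpowers, Nat.card_zpowers, hc]
  apply le_of_eq
  rw [orderOf_pow' _ (pow_ne_zero _ hp.ne_zero), hx, pow_succ,
    Nat.gcd_eq_right (Dvd.intro _ rfl), Nat.mul_div_cancel_left _ (pow_pos hp.pos _)]

/-- noncommuting pair of minimal order sum. -/
theorem hm_min [Finite G] (hna : ¬ ∀ x y : G, x * y = y * x) :
    ∃ x y : G, x * y ≠ y * x ∧ orderOf y ≤ orderOf x ∧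
      ∀ x' y' : G, orderOf x' + orderOf y' < orderOf x + orderOf y → x' * y' = y' * x' := by
  classical
  push Not at hna
  obtain ⟨x₀, y₀, h₀⟩ := hna
  let P : ℕ → Prop := fun n => ∃ x y : G, x * y ≠ y * x ∧ orderOf x + orderOf y = n
  have hP : ∃ n, P n := ⟨_, x₀, y₀, h₀, rfl⟩
  obtain ⟨x, y, hxy, hs⟩ := Nat.find_spec hP
  have hmin : ∀ x' y' : G, orderOf x' + orderOf y' < orderOf x + orderOf y → x' * y' = y' * x' := by
    intro x' y' hlt
    by_contra hne
    rw [hs] at hlt
    exact Nat.find_min hP hlt ⟨x', y', hne, rfl⟩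
  rcases le_total (orderOf y) (orderOf x) with h | h
  · exact ⟨x, y, hxy, h, hmin⟩
  · refine ⟨y, x, fun e => hxy e.symm, h, ?_⟩
    intro x' y' hlt
    apply hmin
    omega

end

section
variable {G : Type*} [Group G] [Finite G]

theorem hm_ord {x y c : G} (hc1 : c ≠ 1) (hcx : Commute c x) (hxy : x * y = c * (y * x))
    (hmin : ∀ x' : G, orderOf x' < orderOf x → x' * y = y * x') (p : ℕ) (hp : p.Prime)
    (hd : p ∣ orderOf x) : orderOf c = p := by
  have h1 : ∀ n : ℕ, x ^ n * y = c ^ n * (y * x ^ n) := by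
    intro n
    induction n with
    | zero => simp
    | succ n ih =>
      calc x ^ (n + 1) * y = x ^ n * (x * y) := by rw [pow_succ]; group
        _ = x ^ n * c * y * x := by rw [hxy]; group
        _ = c * x ^ n * y * x := by rw [(hcx.pow_right n).eq]
        _ = c * (x ^ n * y) * x := by group
        _ = c * (c ^ n * (y * x ^ n)) * x := by rw [ih]
        _ = c ^ (n + 1) * (y * x ^ (n + 1)) := by rw [pow_succ', pow_succ]; group
  have h2 : x ^ p * y = y * x ^ p := by
    apply hmin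
    rw [orderOf_pow' _ hp.ne_zero, Nat.gcd_eq_right hd]
    exact Nat.div_lt_self (orderOf_pos x) hp.one_lt
  have h3 : c ^ p = 1 := by
    have := h1 p
    rw [h2] at this
    exact (mul_eq_right.mp this.symm)
  haveI := Fact.mk hp
  exact orderOf_eq_prime h3 hc1

theorem hm_q8 (hn : ∀ H : Subgroup G, H.Normal) (hna : ¬ ∀ x y : G, x * y = y * x) :
    ∃ x y : G, orderOf x = 4 ∧ orderOf y = 4 ∧ x ^ 2 = y ^ 2 ∧ x * y * x⁻¹ = y⁻¹ := by
  obtain ⟨x, y, hxy, hle, hmin⟩ := hm_min hna
  set c : G := x * y * x⁻¹ * y⁻¹ with hc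
  have hc1 : c ≠ 1 := by
    intro h
    apply hxy
    have : x * y = c * (y * x) := by rw [hc]; group
    rw [this, h, one_mul]
  have hcy : c ∈ Subgroup.zpowers y :=
    mul_mem (hm_conj hn x y) (inv_mem (Subgroup.mem_zpowers y))
  have hcx : c ∈ Subgroup.zpowers x := by
    have h1 : c = x * (y * x⁻¹ * y⁻¹) := by rw [hc]; group
    rw [h1]
    refine mul_mem (Subgroup.mem_zpowers x) ?_
    have h2 := inv_mem (hm_conj hn y x)
    have h3 : (y * x * y⁻¹)⁻¹ = y * x⁻¹ * y⁻¹ := by group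
    rwa [h3] at h2
  have hccx : Commute c x := by
    obtain ⟨k, hk⟩ := hcx
    rw [← hk]; exact (Commute.refl x).zpow_left k
  have hccy : Commute c y := by
    obtain ⟨k, hk⟩ := hcy
    rw [← hk]; exact (Commute.refl y).zpow_left k
  have hxy' : x * y = c * (y * x) := by rw [hc]; group
  have hyx' : y * x = c⁻¹ * (x * y) := by rw [hc]; group
  have hox : ∀ p : ℕ, p.Prime → p ∣ orderOf x → orderOf c = p := by
    intro p hp hd
    refine hm_ord hc1 hccx hxy' ?_ p hp hd
    intro x' hx'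
    apply hmin; omega
  have hoy : ∀ p : ℕ, p.Prime → p ∣ orderOf y → orderOf c = p := by
    intro p hp hd
    rw [← orderOf_inv]
    refine hm_ord (by simpa using hc1) hccy.inv_left hyx' ?_ p hp hd
    intro x' hx'
    apply hmin; omega
  have hx1 : orderOf x ≠ 1 := by
    intro h
    rw [orderOf_eq_one_iff] at h
    apply hxy; rw [h]; simp
  have hy1 : orderOf y ≠ 1 := by
    intro h
    rw [orderOf_eq_one_iff] at h
    apply hxy; rw [h]; simp
  obtain ⟨p, hp, hpx⟩ := Nat.exists_prime_and_dvd hx1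
  have hcp := hox p hp hpx
  obtain ⟨a, ha⟩ : ∃ a, orderOf x = p ^ a := by
    refine ⟨_, Nat.eq_prime_pow_of_unique_prime_dvd (orderOf_pos x).ne' ?_⟩
    intro d hd hdx
    rw [← hox d hd hdx, hcp]
  obtain ⟨b, hb⟩ : ∃ b, orderOf y = p ^ b := by
    refine ⟨_, Nat.eq_prime_pow_of_unique_prime_dvd (orderOf_pos y).ne' ?_⟩
    intro d hd hdx
    rw [← hoy d hd hdx, hcp]
  obtain ⟨a, rfl⟩ : ∃ a', a = a' + 1 := by
    refine Nat.exists_eq_succ_of_ne_zero ?_
    rintro rfl
    exact hx1 (by simpa using ha)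
  obtain ⟨b, rfl⟩ : ∃ a', b = a' + 1 := by
    refine Nat.exists_eq_succ_of_ne_zero ?_
    rintro rfl
    exact hy1 (by simpa using hb)
  have hab : b ≤ a := by
    rw [ha, hb] at hle
    have := (Nat.pow_le_pow_iff_right hp.one_lt).mp hle
    omega
  have hzx := hm_cyc hp ha hcp hcx
  have hzy := hm_cyc hp hb hcp hcy
  obtain ⟨t, ht⟩ : ∃ t : ℕ, (x ^ p ^ a) ^ t = (y ^ p ^ b)⁻¹ := by
    have : (y ^ p ^ b)⁻¹ ∈ Subgroup.zpowers (x ^ p ^ a) := by
      rw [hzx, ← hzy]
      exact inv_mem (Subgroup.mem_zpowers _)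
    rw [← mem_powers_iff_mem_zpowers] at this
    exact this
  set k : ℕ := t * p ^ (a - b) with hk
  have hyk : ∀ k : ℕ, y * x ^ k = x ^ k * y * (c⁻¹) ^ k := by
    intro k
    induction k with
    | zero => simp
    | succ k ih =>
      calc y * x ^ (k + 1) = (y * x ^ k) * x := by rw [pow_succ]; group
        _ = x ^ k * y * (c⁻¹ ^ k * x) := by rw [ih]; group
        _ = x ^ k * y * (x * c⁻¹ ^ k) := by rw [(hccx.inv_left.pow_left k).eq]
        _ = x ^ k * (y * x) * c⁻¹ ^ k := by group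
        _ = x ^ k * (c⁻¹ * (x * y)) * c⁻¹ ^ k := by rw [hyx']
        _ = x ^ k * ((x * y) * c⁻¹) * c⁻¹ ^ k := by
            rw [(hccx.inv_left.mul_right hccy.inv_left).eq]
        _ = x ^ (k + 1) * y * c⁻¹ ^ (k + 1) := by rw [pow_succ, pow_succ']; group
  have hz := hm_pow (x ^ k) y (c⁻¹ ^ k) (hyk k) ((hccx.inv_left.pow_left k).pow_right k)
    (hccy.inv_left.pow_left k) (p ^ b)
  have hxk : (x ^ k) ^ p ^ b = (y ^ p ^ b)⁻¹ := by
    rw [← ht, ← pow_mul, ← pow_mul, hk]
    congr 1
    rw [mul_assoc, ← pow_add, Nat.sub_add_cancel hab, mul_comm]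
  rw [hxk, inv_mul_cancel, one_mul, ← pow_mul] at hz
  have hnd : ¬ p ∣ k * (p ^ b).choose 2 := by
    intro hd
    have h1 : (x ^ k * y) ^ p ^ b = 1 := by
      rw [hz]
      apply orderOf_dvd_iff_pow_eq_one.mp
      rw [orderOf_inv, hcp]; exact hd
    have h2 := Nat.le_of_dvd (pow_pos hp.pos _) (orderOf_dvd_of_pow_eq_one h1)
    have h3 : orderOf (x ^ k * y) < orderOf y := by
      rw [hb]
      exact lt_of_le_of_lt h2 (Nat.pow_lt_pow_right hp.one_lt (by omega))
    have h4 := hmin x (x ^ k * y) (by omega)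
    apply hxy
    have h5 : x ^ k * (x * y) = x ^ k * (y * x) := by
      calc x ^ k * (x * y) = x ^ k * x * y := by group
        _ = x * x ^ k * y := by rw [← pow_succ, pow_succ']
        _ = x * (x ^ k * y) := by group
        _ = x ^ k * y * x := h4
        _ = x ^ k * (y * x) := by group
    exact mul_left_cancel h5
  have hb0 : b ≠ 0 := by
    rintro rfl
    apply hnd; simp
  have hch : 2 * (p ^ b).choose 2 = p ^ b * (p ^ b - 1) := by
    rw [Nat.choose_two_right, Nat.mul_div_cancel' (Nat.even_mul_pred_self _).two_dvd]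
  have hp2 : p = 2 := by
    by_contra hne
    apply hnd
    have h1 : p ∣ 2 * (p ^ b).choose 2 := by
      rw [hch]
      exact (dvd_pow_self p hb0).mul_right _
    have h2 : p ∣ (p ^ b).choose 2 := by
      refine (Nat.Coprime.dvd_of_dvd_mul_left ?_ h1)
      rw [Nat.coprime_primes hp Nat.prime_two]; exact hne
    exact h2.mul_left _
  subst hp2
  have hb1 : b = 1 := by
    by_contra hne
    apply hnd
    obtain ⟨b', rfl⟩ : ∃ b', b = b' + 2 := ⟨b - 2, by omega⟩
    have h1 : (2 ^ (b' + 2)).choose 2 = 2 * (2 ^ b' * (2 ^ (b' + 2) - 1)) := by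
      have e : 2 ^ (b' + 2) * (2 ^ (b' + 2) - 1) = 2 * (2 * (2 ^ b' * (2 ^ (b' + 2) - 1))) := by
        rw [pow_succ, pow_succ]; ring
      rw [e] at hch
      exact Nat.eq_of_mul_eq_mul_left two_pos hch
    rw [h1]
    exact (Dvd.intro _ rfl : 2 ∣ 2 * _).mul_left _
  subst hb1
  have ha1 : a = 1 := by
    by_contra hne
    apply hnd
    rw [hk]
    exact ((dvd_pow_self 2 (by omega : a - 1 ≠ 0)).mul_left t).mul_right _
  subst ha1
  norm_num at ha hb
  have e1 : x ^ 2 = c := by
    have h1 : x ^ 2 ^ 1 ∈ Subgroup.zpowers c := hzx ▸ Subgroup.mem_zpowers _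
    rw [pow_one] at h1
    obtain ⟨i, hi⟩ := h1
    have hi' : c ^ i = x ^ 2 := hi
    rcases Int.emod_two_eq_zero_or_one i with h | h
    · exfalso
      rw [← Int.mul_ediv_add_emod i 2, h, add_zero, zpow_mul] at hi'
      have : c ^ (2 : ℤ) = 1 := by
        have h0 := pow_orderOf_eq_one c
        rw [hcp] at h0; exact_mod_cast h0
      rw [this, one_zpow] at hi'
      have := orderOf_dvd_of_pow_eq_one hi'.symm
      rw [ha] at this; omega
    · rw [← Int.mul_ediv_add_emod i 2, h, zpow_add, zpow_mul] at hi'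
      have : c ^ (2 : ℤ) = 1 := by
        have h0 := pow_orderOf_eq_one c
        rw [hcp] at h0; exact_mod_cast h0
      rw [this, one_zpow, one_mul, zpow_one] at hi'
      exact hi'.symm
  have e2 : y ^ 2 = c := by
    have h1 : y ^ 2 ^ 1 ∈ Subgroup.zpowers c := hzy ▸ Subgroup.mem_zpowers _
    rw [pow_one] at h1
    obtain ⟨i, hi⟩ := h1
    have hi' : c ^ i = y ^ 2 := hi
    rcases Int.emod_two_eq_zero_or_one i with h | h
    · exfalso
      rw [← Int.mul_ediv_add_emod i 2, h, add_zero, zpow_mul] at hi'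
      have : c ^ (2 : ℤ) = 1 := by
        have h0 := pow_orderOf_eq_one c
        rw [hcp] at h0; exact_mod_cast h0
      rw [this, one_zpow] at hi'
      have := orderOf_dvd_of_pow_eq_one hi'.symm
      rw [hb] at this; omega
    · rw [← Int.mul_ediv_add_emod i 2, h, zpow_add, zpow_mul] at hi'
      have : c ^ (2 : ℤ) = 1 := by
        have h0 := pow_orderOf_eq_one c
        rw [hcp] at h0; exact_mod_cast h0
      rw [this, one_zpow, one_mul, zpow_one] at hi'
      exact hi'.symm
  refine ⟨x, y, ha, hb, e1.trans e2.symm, ?_⟩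
  have h4 : y ^ 4 = 1 := by rw [← hb]; exact pow_orderOf_eq_one y
  have : x * y * x⁻¹ = c * y := by rw [hc]; group
  rw [this, ← e2, eq_inv_iff_mul_eq_one, ← h4]
  group

end

end CfsgH1
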