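import Mathlib
import Cfsg.Agent.H1.Hamil

set_option autoImplicit false

namespace CfsgH1

section
variable {G : Type*} [Group G] [Finite G]

/-- conj by `g` of an element of order 4 is the element or its inverse. -/
theorem hm_conj4 (hn : ∀ H : Subgroup G, H.Normal) (g x : G) (hx : orderOf x = 4) :
    g * x * g⁻¹ = x ∨ g * x * g⁻¹ = x⁻¹ := by
  have h1 := hm_conj hn g x
  rw [← mem_powers_iff_mem_zpowers, Submonoid.mem_powers_iff] at h1
  obtain ⟨n, hnn⟩ := h1
  have h4 : x ^ 4 = 1 := by rw [← hx]; exact pow_orderOf_eq_one x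
  have hord : orderOf (g * x * g⁻¹) = 4 := by
    have : g * x * g⁻¹ = MulAut.conj g x := rfl
    rw [this, MulEquiv.orderOf_eq, hx]
  have hmod : x ^ n = x ^ (n % 4) := by rw [← hx, pow_mod_orderOf]
  rw [← hnn, hmod] at hord ⊢
  have hlt : n % 4 < 4 := Nat.mod_lt _ (by norm_num)
  interval_cases h : n % 4
  · simp at hord
  · left; simp
  · exfalso
    have : (x ^ 2) ^ 2 = 1 := by rw [← pow_mul]; exact h4
    have := orderOf_dvd_of_pow_eq_one this
    rw [hord] at this; omega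
  · right
    rw [eq_inv_iff_mul_eq_one, ← pow_succ]; exact h4

theorem hm_main (hn : ∀ H : Subgroup G, H.Normal) (hna : ¬ ∀ x y : G, x * y = y * x) :
    ∃ Q E A : Subgroup G, Nonempty (Q ≃* QuaternionGroup 2) ∧
      ((∀ x ∈ E, ∀ y ∈ E, x * y = y * x) ∧ ∀ x ∈ E, x ^ 2 = 1) ∧
      (∀ x ∈ A, ∀ y ∈ A, x * y = y * x) ∧ Odd (Nat.card A) ∧ E ⊓ A = ⊥ ∧
      Q ⊓ (E ⊔ A) = ⊥ ∧ Q ⊔ (E ⊔ A) = ⊤ := by
  classical
  obtain ⟨x, y, hx, hy, hxy2, hxy⟩ := hm_q8 hn hna
  have hx4 : x ^ 4 = 1 := by rw [← hx]; exact pow_orderOf_eq_one x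
  have hy4 : y ^ 4 = 1 := by rw [← hy]; exact pow_orderOf_eq_one y
  have hx2 : x ^ 2 ≠ 1 := by
    intro h
    have := orderOf_dvd_of_pow_eq_one h
    rw [hx] at this; omega
  have hy2 : y ^ 2 ≠ 1 := by rw [← hxy2]; exact hx2
  have hyne : y⁻¹ ≠ y := by
    intro h
    apply hy2
    rw [pow_two]
    nth_rewrite 1 [← h]
    simp
  have hxne : x⁻¹ ≠ x := by
    intro h
    apply hx2
    rw [pow_two]
    nth_rewrite 1 [← h]
    simp
  have hne : x * y ≠ y * x := by
    intro h
    apply hyne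
    rw [← hxy, h]; group
  have hyx : y * x * y⁻¹ = x⁻¹ := by
    rcases hm_conj4 hn y x hx with h | h
    · exfalso
      apply hne
      have : y * x = x * y := by
        calc y * x = (y * x * y⁻¹) * y := by group
          _ = x * y := by rw [h]
      exact this.symm
    · exact h
  set Q : Subgroup G := Subgroup.closure {y, x} with hQ
  have hxQ : x ∈ Q := Subgroup.subset_closure (by simp)
  have hyQ : y ∈ Q := Subgroup.subset_closure (by simp)
  have hxny : x ∉ Subgroup.zpowers y := by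
    rintro ⟨i, hi⟩
    apply hne
    have : y ^ i = x := hi
    rw [← this]
    exact ((Commute.refl y).zpow_left i).eq
  obtain ⟨e⟩ := CfsgH3.nonempty_quaternion_equiv 2 y x hy (by rw [← pow_two]; exact hxy2) hxy hxny
  set C : Subgroup G := Subgroup.centralizer {x, y} with hC
  have hCx : ∀ u ∈ C, x * u = u * x := fun u hu =>
    (Subgroup.mem_centralizer_iff.mp hu) x (by simp)
  have hCy : ∀ u ∈ C, y * u = u * y := fun u hu =>
    (Subgroup.mem_centralizer_iff.mp hu) y (by simp)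
  have hmC : ∀ u, x * u = u * x → y * u = u * y → u ∈ C := by
    intro u h1 h2
    rw [hC, Subgroup.mem_centralizer_iff]
    rintro z (rfl | rfl)
    · exact h1
    · exact h2
  -- G = Q C
  have hQC : ∀ g : G, ∃ q ∈ Q, ∃ u ∈ C, g = q * u := by
    intro g
    have key : ∀ q : G, q ∈ Q → g * x * g⁻¹ = q * x * q⁻¹ → g * y * g⁻¹ = q * y * q⁻¹ →
        ∃ q ∈ Q, ∃ u ∈ C, g = q * u := by
      intro q hq h1 h2
      refine ⟨q, hq, q⁻¹ * g, ?_, by group⟩
      apply hmC
      · calc x * (q⁻¹ * g) = q⁻¹ * (q * x * q⁻¹) * g := by group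
          _ = q⁻¹ * (g * x * g⁻¹) * g := by rw [h1]
          _ = q⁻¹ * g * x := by group
      · calc y * (q⁻¹ * g) = q⁻¹ * (q * y * q⁻¹) * g := by group
          _ = q⁻¹ * (g * y * g⁻¹) * g := by rw [h2]
          _ = q⁻¹ * g * y := by group
    rcases hm_conj4 hn g x hx with h1 | h1 <;> rcases hm_conj4 hn g y hy with h2 | h2
    · exact key 1 (one_mem _) (by rw [h1]; simp) (by rw [h2]; simp)
    · exact key x hxQ (by rw [h1]; simp) (by rw [h2, hxy])
    · exact key y hyQ (by rw [h1, hyx]) (by rw [h2]; simp)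
    · refine key (x * y) (mul_mem hxQ hyQ) ?_ ?_
      · rw [h1]
        calc x⁻¹ = x * x⁻¹ * x⁻¹ := by group
          _ = x * (y * x * y⁻¹) * x⁻¹ := by rw [hyx]
          _ = _ := by group
      · rw [h2, ← hxy]; group
  -- no elements of order four in C
  have hC4 : ∀ u ∈ C, u ^ 4 = 1 → u ^ 2 = 1 := by
    intro u hu hu4
    have hcu : Commute x u := hCx u hu
    have h1 : y * (x * u) * y⁻¹ = x⁻¹ * u := by
      calc y * (x * u) * y⁻¹ = y * x * (u * y⁻¹) := by group
        _ = y * x * (y⁻¹ * u) := by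
            have h0 : Commute y u := hCy u hu
            have h0' := h0.inv_left.eq
            rw [h0']
        _ = (y * x * y⁻¹) * u := by group
        _ = x⁻¹ * u := by rw [hyx]
    have h2 : x ^ 2 ∈ Subgroup.zpowers (x * u) := by
      have h3 : x ^ 2 = (x * u) * (y * (x * u) * y⁻¹)⁻¹ := by
        rw [h1]
        have : (x * u) * (x⁻¹ * u)⁻¹ = x * u * u⁻¹ * x := by group
        rw [this, pow_two]; group
      rw [h3]
      exact mul_mem (Subgroup.mem_zpowers _) (inv_mem (hm_conj hn y (x * u)))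
    have h4 : (x * u) ^ 4 = 1 := by
      rw [hcu.mul_pow, hx4, hu4, one_mul]
    rw [← mem_powers_iff_mem_zpowers, Submonoid.mem_powers_iff] at h2
    obtain ⟨n, hnn⟩ := h2
    have hn' : (x * u) ^ (n % 4) = x ^ 2 := by
      rw [← hnn]
      conv_rhs => rw [← Nat.div_add_mod n 4, pow_add, pow_mul, h4, one_pow, one_mul]
    have hlt : n % 4 < 4 := Nat.mod_lt _ (by norm_num)
    have hcase1 : x * u = x ^ 2 → u ^ 2 = 1 := by
      intro h
      exfalso
      rw [pow_two] at h
      have h5 := mul_left_cancel h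
      apply hne
      have := hCy u hu
      rw [h5] at this
      exact this.symm
    interval_cases h : n % 4
    · exfalso; exact hx2 (by rw [← hn', pow_zero])
    · rw [pow_one] at hn'; exact hcase1 hn'
    · rw [hcu.mul_pow] at hn'
      exact mul_eq_left.mp hn'
    · apply hcase1
      have h6 : (x * u) ^ 3 * (x * u) = 1 := by rw [← pow_succ]; exact h4
      rw [hn'] at h6
      have h7 : x ^ 2 * x ^ 2 = 1 := by rw [← pow_add]; exact hx4
      exact mul_left_cancel (h6.trans h7.symm)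
  have hC2k : ∀ (k : ℕ), ∀ u ∈ C, u ^ (2 ^ k) = 1 → u ^ 2 = 1 := by
    intro k
    induction k with
    | zero => intro u hu h; rw [pow_zero, pow_one] at h; rw [h, one_pow]
    | succ k ih =>
      intro u hu h
      rcases Nat.eq_zero_or_pos k with rfl | hk
      · simpa using h
      · apply ih u hu
        obtain ⟨k, rfl⟩ : ∃ k', k = k' + 1 := ⟨k - 1, by omega⟩
        have h1 := hC4 (u ^ 2 ^ k) (pow_mem hu _) (by
          rw [← pow_mul, ← h]; congr 1; rw [pow_succ, pow_succ]; ring)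
        rw [← pow_mul] at h1
        rw [pow_succ]; exact h1
  -- C abelian
  have hCab : ∀ u ∈ C, ∀ v ∈ C, u * v = v * u := by
    by_contra hcon
    push Not at hcon
    obtain ⟨u, hu, v, hv, huv⟩ := hcon
    have hnC : ∀ H : Subgroup C, H.Normal := by
      intro H
      refine ⟨fun z hz g => ?_⟩
      have h1 : ((z : C) : G) ∈ H.map C.subtype := ⟨z, hz, rfl⟩
      have h2 := (hn (H.map C.subtype)).conj_mem _ h1 (g : G)
      obtain ⟨w, hw, hw'⟩ := h2
      have : w = g * z * g⁻¹ := Subtype.ext (by simpa using hw')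
      rw [← this]; exact hw
    obtain ⟨x', y', hx', -⟩ := hm_q8 hnC (fun h => huv
      (congrArg Subtype.val (h ⟨u, hu⟩ ⟨v, hv⟩)))
    have h4 : ((x' : C) : G) ^ 4 = 1 := by
      have : x' ^ 4 = 1 := by rw [← hx']; exact pow_orderOf_eq_one x'
      exact_mod_cast congrArg Subtype.val this
    have h5 := hC4 _ x'.2 h4
    have h6 : x' ^ 2 = 1 := Subtype.ext (by push_cast; exact h5)
    have := orderOf_dvd_of_pow_eq_one h6
    rw [hx'] at this; omega
  obtain ⟨k, m, hmodd, hcard⟩ := Nat.exists_eq_two_pow_mul_odd (n := Nat.card G)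
    (Nat.card_pos (α := G)).ne'
  let A : Subgroup G :=
    { carrier := {u | u ∈ C ∧ u ^ m = 1}
      one_mem' := ⟨one_mem _, one_pow _⟩
      mul_mem' := by
        rintro u v ⟨hu, hum⟩ ⟨hv, hvm⟩
        refine ⟨mul_mem hu hv, ?_⟩
        have h0 : Commute u v := hCab u hu v hv
        rw [h0.mul_pow, hum, hvm, one_mul]
      inv_mem' := by
        rintro u ⟨hu, hum⟩
        refine ⟨inv_mem hu, ?_⟩
        rw [inv_pow, hum, inv_one] }
  have hAmem : ∀ u, u ∈ A ↔ u ∈ C ∧ u ^ m = 1 := fun u => Iff.rfl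
  have hodd : ∀ u : G, u ^ m = 1 → u ^ 2 = 1 → u = 1 := by
    intro u h1 h2
    obtain ⟨j, hj⟩ := hmodd
    rw [hj, pow_add, pow_mul, h2, one_pow, one_mul, pow_one] at h1
    exact h1
  -- E
  obtain ⟨E, ⟨hEC, hE2, hcE⟩, hEmax⟩ := (Set.toFinite {E : Subgroup G | E ≤ C ∧
    (∀ u ∈ E, u ^ 2 = 1) ∧ x ^ 2 ∉ E}).exists_maximal ⟨⊥, bot_le, by
      intro u hu; rw [Subgroup.mem_bot.mp hu, one_pow], by
      rw [Subgroup.mem_bot]; exact hx2⟩
  have hx2C : x ^ 2 ∈ C := by
    apply hmC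
    · exact ((Commute.refl x).pow_right 2).eq
    · rw [hxy2]; exact ((Commute.refl y).pow_right 2).eq
  have hx22 : (x ^ 2) ^ 2 = 1 := by rw [← pow_mul]; exact hx4
  have hET : ∀ t ∈ C, t ^ 2 = 1 → ∃ e₁ ∈ E, t = e₁ ∨ t = e₁ * x ^ 2 := by
    intro t htC ht2
    by_cases htE : t ∈ E
    · exact ⟨t, htE, Or.inl rfl⟩
    · haveI := hn E
      have hbig : x ^ 2 ∈ E ⊔ Subgroup.zpowers t := by
        by_contra hnot
        have hmem : E ⊔ Subgroup.zpowers t ∈ {E : Subgroup G | E ≤ C ∧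
            (∀ u ∈ E, u ^ 2 = 1) ∧ x ^ 2 ∉ E} := by
          refine ⟨sup_le hEC (by rw [Subgroup.zpowers_le]; exact htC), ?_, hnot⟩
          intro u hu
          rw [Subgroup.mem_sup_of_normal_left] at hu
          obtain ⟨e₁, he₁, z, ⟨i, hi⟩, rfl⟩ := hu
          have hi' : t ^ i = z := hi
          have hzC : z ∈ C := by rw [← hi']; exact zpow_mem htC i
          have h0 : Commute e₁ z := hCab e₁ (hEC he₁) z hzC
          rw [h0.mul_pow, hE2 e₁ he₁, one_mul, ← hi',
            ← zpow_natCast, ← zpow_mul, mul_comm, zpow_mul, zpow_natCast, ht2, one_zpow]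
        have h1 := hEmax hmem le_sup_left
        exact htE (h1 (Subgroup.mem_sup_right (Subgroup.mem_zpowers t)))
      rw [Subgroup.mem_sup_of_normal_left] at hbig
      obtain ⟨e₁, he₁, z, ⟨i, hi⟩, hz⟩ := hbig
      have hi' : t ^ i = z := hi
      have ht2' : t ^ (2 : ℤ) = 1 := by exact_mod_cast ht2
      rcases Int.emod_two_eq_zero_or_one i with h | h
      · exfalso
        rw [← Int.mul_ediv_add_emod i 2, h, add_zero, zpow_mul, ht2', one_zpow] at hi'
        rw [← hi', mul_one] at hz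
        exact hcE (hz ▸ he₁)
      · rw [← Int.mul_ediv_add_emod i 2, h, zpow_add, zpow_mul, ht2', one_zpow, one_mul,
          zpow_one] at hi'
        refine ⟨e₁⁻¹, inv_mem he₁, Or.inr ?_⟩
        rw [← hz, hi']; group
  -- membership in E ⊔ A
  haveI hEn := hn E
  have hEA : ∀ g, g ∈ E ⊔ A ↔ ∃ e₁ ∈ E, ∃ a ∈ A, e₁ * a = g := fun g =>
    Subgroup.mem_sup_of_normal_left
  have hAC : A ≤ C := fun u hu => hu.1
  refine ⟨Q, E, A, ⟨e⟩, ⟨fun u hu v hv => hCab u (hEC hu) v (hEC hv), hE2⟩,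
    fun u hu v hv => hCab u hu.1 v hv.1, ?_, ?_, ?_, ?_⟩
  · rw [← Nat.not_even_iff_odd, even_iff_two_dvd]
    intro h2
    haveI : Fact (Nat.Prime 2) := ⟨Nat.prime_two⟩
    obtain ⟨u, hu⟩ := exists_prime_orderOf_dvd_card' (G := A) 2 h2
    have h1 : (u : G) ^ 2 = 1 := by
      have : u ^ 2 = 1 := by rw [← hu]; exact pow_orderOf_eq_one u
      exact_mod_cast congrArg Subtype.val this
    have h3 := hodd _ u.2.2 h1
    have h4 : u = 1 := Subtype.ext h3
    rw [h4, orderOf_one] at hu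
    omega
  · rw [eq_bot_iff]
    rintro u ⟨hu1, hu2⟩
    exact Subgroup.mem_bot.mpr (hodd u hu2.2 (hE2 u hu1))
  · rw [eq_bot_iff]
    rintro g ⟨hgQ, hg⟩
    rw [Subgroup.mem_bot]
    obtain ⟨e₁, he₁, a, ha, rfl⟩ := (hEA g).mp hg
    have hgC : e₁ * a ∈ C := mul_mem (hEC he₁) (hAC ha)
    have hcent : ∀ u ∈ C, ∀ q ∈ Q, q * u = u * q := by
      intro u hu q hq
      have h1 : Q ≤ Subgroup.centralizer {u} := by
        rw [hQ, Subgroup.closure_le]
        rintro z (rfl | rfl)
        · rw [SetLike.mem_coe, Subgroup.mem_centralizer_iff]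
          rintro w rfl
          exact (hCy w hu).symm
        · rw [SetLike.mem_coe, Subgroup.mem_centralizer_iff]
          rintro w rfl
          exact (hCx w hu).symm
      exact ((Subgroup.mem_centralizer_iff.mp (h1 hq)) u rfl).symm
    have hq2 : ∀ g : QuaternionGroup 2, (∀ h, h * g = g * h) → g = 1 ∨ g = QuaternionGroup.a 2 := by
      decide
    have key : ∀ (u : G) (huQ : u ∈ Q), u ∈ C → e ⟨u, huQ⟩ = 1 ∨ e ⟨u, huQ⟩ = QuaternionGroup.a 2 := by
      intro u huQ huC
      apply hq2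
      intro h
      obtain ⟨q, rfl⟩ := e.surjective h
      rw [← map_mul, ← map_mul]
      congr 1
      exact Subtype.ext (hcent u huC q q.2)
    have hx2Q : x ^ 2 ∈ Q := pow_mem hxQ 2
    have hcx : e ⟨x ^ 2, hx2Q⟩ = QuaternionGroup.a 2 := by
      rcases key _ hx2Q hx2C with h | h
      · exfalso
        rw [map_eq_one_iff e e.injective] at h
        exact hx2 (congrArg Subtype.val h)
      · exact h
    rcases key _ hgQ hgC with h | h
    · rw [map_eq_one_iff e e.injective] at h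
      exact congrArg Subtype.val h
    · exfalso
      rw [← hcx] at h
      have h1 := congrArg Subtype.val (e.injective h)
      have h1' : e₁ * a = x ^ 2 := h1
      have h2 : a = e₁⁻¹ * x ^ 2 := by rw [← h1']; group
      have h3 : a ^ 2 = 1 := by
        have h0 : Commute e₁⁻¹ (x ^ 2) := hCab _ (inv_mem (hEC he₁)) _ hx2C
        rw [h2, h0.mul_pow, hx22, mul_one, inv_pow, hE2 e₁ he₁, inv_one]
      have h4 := hodd a ha.2 h3
      rw [h4, mul_one] at h1'
      exact hcE (h1' ▸ he₁)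
  · rw [eq_top_iff]
    intro g _
    obtain ⟨q, hq, u, hu, rfl⟩ := hQC g
    refine mul_mem (Subgroup.mem_sup_left hq) ?_
    have h1 : (u ^ m) ^ 2 ^ k = 1 := by
      rw [← pow_mul, mul_comm, ← hcard, pow_card_eq_one']
    have h2 : (u ^ m) ^ 2 = 1 := hC2k k _ (pow_mem hu m) h1
    obtain ⟨j, hj⟩ := hmodd
    have h3 : u = u ^ m * (u ^ (2 * j))⁻¹ := by
      rw [hj, pow_succ', mul_inv_cancel_right]
    have hA1 : (u ^ (2 * j))⁻¹ ∈ A := by
      refine inv_mem ⟨pow_mem hu _, ?_⟩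
      rw [← pow_mul, mul_assoc, mul_comm j m, ← mul_assoc, mul_comm 2 m, pow_mul, pow_mul, h2,
        one_pow]
    rw [h3]
    obtain ⟨e₁, he₁, h | h⟩ := hET _ (pow_mem hu m) h2
    · rw [h]
      exact Subgroup.mem_sup_right (mul_mem (Subgroup.mem_sup_left he₁)
        (Subgroup.mem_sup_right hA1))
    · rw [h]
      refine mul_mem (mul_mem ?_ ?_) ?_
      · exact Subgroup.mem_sup_right (Subgroup.mem_sup_left he₁)
      · exact Subgroup.mem_sup_left (pow_mem hxQ 2)
      · exact Subgroup.mem_sup_right (Subgroup.mem_sup_right hA1)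

end

end CfsgH1
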