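import Cfsg.Agent.H1.FF8
import Cfsg.Agent.H1.HHPrime

set_option autoImplicit false

/-! The action on a normal subgroup inside the holomorph -/

open Cfsg Subgroup CfsgH3
open scoped Pointwise commutatorElement

namespace CfsgH1

universe u v
variable {G : Type u} [Group G]

/-- the holomorph -/
abbrev Hol (V : Type*) [Group V] := SemidirectProduct V (MulAut V) (MonoidHom.id (MulAut V))

instance (V : Type*) [Group V] [Finite V] : Finite (Hol V) := by
  haveI : Finite (MulAut V) := by
    apply Finite.of_injective (fun f : MulAut V => (f : V → V))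
    intro f g hfg
    exact DFunLike.coe_injective hfg
  exact Finite.of_equiv _ (SemidirectProduct.equivProd (φ := MonoidHom.id (MulAut V))).symm

/-- the action map -/
noncomputable def iot (V : Subgroup G) [V.Normal] : G →* Hol V := (SemidirectProduct.inr).comp MulAut.conjNormal

/-- the image of V -/
noncomputable def Vh (V : Type*) [Group V] : Subgroup (Hol V) := (SemidirectProduct.inl : V →* Hol V).range

section

variable (V : Subgroup G) [hVn : V.Normal]

theorem iot_conj (g : G) (v : V) : iot V g * SemidirectProduct.inl v * (iot V g)⁻¹ = SemidirectProduct.inl (⟨g * v * g⁻¹, hVn.conj_mem v v.2 g⟩ : V) := by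
  unfold iot
  rw [MonoidHom.comp_apply, ← map_inv, ← SemidirectProduct.inl_aut]
  congr 1

theorem iot_ker : (iot V).ker = centralizer (V : Set G) := by
  ext g
  rw [MonoidHom.mem_ker]
  constructor
  · intro hg
    rw [Subgroup.mem_centralizer_iff]
    intro v hv
    have h1 := iot_conj V g ⟨v, hv⟩
    rw [hg, inv_one, one_mul, mul_one] at h1
    have h2 := congrArg Subtype.val (SemidirectProduct.inl_injective h1)
    have h3 : v = g * v * g⁻¹ := h2
    exact (mul_inv_eq_iff_eq_mul.1 h3.symm).symm
  · intro hg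
    unfold iot
    rw [MonoidHom.comp_apply]
    have : MulAut.conjNormal g = (1 : MulAut V) := by
      apply MulEquiv.ext
      intro v
      apply Subtype.ext
      rw [MulAut.conjNormal_apply]
      have := Subgroup.mem_centralizer_iff.1 hg v v.2
      change g * v * g⁻¹ = v
      rw [← this, mul_inv_cancel_right]
    rw [this, map_one]

theorem Vh_norm (X : Subgroup (Hol V)) : X ≤ normalizer (Vh V : Set (Hol V)) := by
  have : (Vh V).Normal := by
    unfold Vh
    rw [SemidirectProduct.range_inl_eq_ker_rightHom]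
    infer_instance
  rw [Subgroup.normalizer_eq_top]
  exact le_top

theorem iot_mem_cent {g : G} : iot V g ∈ centralizer (Vh V : Set (Hol V)) ↔ g ∈ centralizer (V : Set G) := by
  constructor
  · intro hg
    rw [Subgroup.mem_centralizer_iff]
    intro v hv
    have h1 := iot_conj V g ⟨v, hv⟩
    have h2 := Subgroup.mem_centralizer_iff.1 hg (SemidirectProduct.inl ⟨v, hv⟩) ⟨_, rfl⟩
    rw [← h2, mul_inv_cancel_right] at h1
    have h3 : v = g * v * g⁻¹ := congrArg Subtype.val (SemidirectProduct.inl_injective h1)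
    exact (mul_inv_eq_iff_eq_mul.1 h3.symm).symm
  · intro hg
    have : iot V g = 1 := by
      have : g ∈ (iot V).ker := by rw [iot_ker]; exact hg
      exact this
    rw [this]; exact one_mem _

theorem map_iot_inf_cent (A : Subgroup G) : A.map (iot V) ⊓ centralizer (Vh V : Set (Hol V)) = ⊥ := by
  rw [Subgroup.eq_bot_iff_forall]
  rintro _ ⟨⟨a, ha, rfl⟩, h2⟩
  have h3 := (iot_mem_cent V).1 h2
  rw [← iot_ker] at h3
  exact h3

theorem Vh_cent (A : Subgroup G) : Vh V ⊓ centralizer ((A.map (iot V) : Subgroup (Hol V)) : Set (Hol V)) = 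
    ((V ⊓ centralizer (A : Set G)).subgroupOf V).map (SemidirectProduct.inl : V →* Hol V) := by
  ext y
  constructor
  · rintro ⟨⟨v, rfl⟩, hv⟩
    refine ⟨v, ?_, rfl⟩
    rw [SetLike.mem_coe, Subgroup.mem_subgroupOf]
    refine ⟨v.2, ?_⟩
    change (v : G) ∈ centralizer (A : Set G)
    rw [Subgroup.mem_centralizer_iff]
    intro a ha
    have h1 := iot_conj V a v
    have h2 := Subgroup.mem_centralizer_iff.1 hv (iot V a) ⟨a, ha, rfl⟩
    rw [h2, mul_inv_cancel_right] at h1
    have h3 : (v : G) = a * v * a⁻¹ := congrArg Subtype.val (SemidirectProduct.inl_injective h1)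
    exact mul_inv_eq_iff_eq_mul.1 h3.symm
  · rintro ⟨v, hv, rfl⟩
    rw [SetLike.mem_coe, Subgroup.mem_subgroupOf] at hv
    refine ⟨⟨v, rfl⟩, ?_⟩
    change SemidirectProduct.inl v ∈ centralizer _
    rw [Subgroup.mem_centralizer_iff]
    rintro _ ⟨a, ha, rfl⟩
    have h1 := iot_conj V a v
    have h2 : a * v = v * a := Subgroup.mem_centralizer_iff.1 hv.2 a ha
    have h3 : (⟨a * v * a⁻¹, hVn.conj_mem v v.2 a⟩ : V) = v := Subtype.ext (by
      change a * (v : G) * a⁻¹ = v
      rw [h2, mul_inv_cancel_right])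
    rw [h3] at h1
    exact mul_inv_eq_iff_eq_mul.1 h1

theorem card_Vh : Nat.card (Vh V) = Nat.card V := by
  unfold Vh
  rw [← Nat.card_congr (MonoidHom.ofInjective SemidirectProduct.inl_injective).toEquiv]

theorem card_Vh_cent (A : Subgroup G) : Nat.card ↥(Vh V ⊓ centralizer ((A.map (iot V) : Subgroup (Hol V)) : Set (Hol V))) = Nat.card ↥(V ⊓ centralizer (A : Set G)) := by
  rw [Vh_cent, Subgroup.card_map_of_injective SemidirectProduct.inl_injective]
  exact Nat.card_congr (Subgroup.subgroupOfEquivOfLe inf_le_left).toEquiv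

theorem card_map_iot [Finite G] (A : Subgroup G) : Nat.card A = Nat.card (A.map (iot V)) * Nat.card (A ⊓ centralizer (V : Set G) : Subgroup G) := by
  have h1 : Nat.card (A.map (iot V)) = ((iot V).comp A.subtype).ker.index := by
    rw [Subgroup.index_ker, MonoidHom.range_comp, Subgroup.range_subtype]
  have h2 : ((iot V).comp A.subtype).ker = (A ⊓ centralizer (V : Set G)).subgroupOf A := by
    ext x
    rw [MonoidHom.mem_ker, Subgroup.mem_subgroupOf]
    constructor
    · intro hx
      refine ⟨x.2, ?_⟩
      change (x : G) ∈ centralizer (V : Set G)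
      rw [← iot_ker]; exact hx
    · intro hx
      have : (x : G) ∈ (iot V).ker := by rw [iot_ker]; exact hx.2
      exact this
  rw [h1, h2, ← Nat.card_congr (Subgroup.subgroupOfEquivOfLe (inf_le_left : A ⊓ centralizer (V : Set G) ≤ A)).toEquiv, mul_comm]
  exact (Subgroup.card_mul_index _).symm

theorem mm_hol [Finite G] (A : Subgroup G) : mm V A = mm (Vh V) (A.map (iot V)) * Nat.card (A ⊓ centralizer (V : Set G) : Subgroup G) := by
  unfold mm
  rw [card_Vh_cent, card_map_iot V A]; ring

theorem Vh_good {p : ℕ} (hV : Good p V) : Good p (Vh V) := by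
  constructor
  · rintro _ ⟨v, rfl⟩ _ ⟨w, rfl⟩
    rw [← map_mul, ← map_mul]
    congr 1
    exact Subtype.ext (hV.1 v v.2 w w.2)
  · rintro _ ⟨v, rfl⟩
    rw [← map_pow]
    have : v ^ p = 1 := Subtype.ext (hV.2 v v.2)
    rw [this, map_one]

theorem best_hol [Finite G] {p : ℕ} {A : Subgroup G} (hA : IsBestOffenderOn p V A) : IsBestOffenderOn p (Vh V) (A.map (iot V)) := by
  have hker : ∀ g ∈ centralizer (V : Set G), iot V g = 1 := by
    intro g hg
    have : g ∈ (iot V).ker := by rw [iot_ker]; exact hg
    exact this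
  refine ⟨?_, ?_, ?_⟩
  · intro B hB
    set B' := A ⊓ B.comap (iot V) with hB'
    have h1 : B'.map (iot V) = B := by
      apply le_antisymm
      · rintro _ ⟨b, hb, rfl⟩
        exact hb.2
      · intro y hy
        obtain ⟨a, ha, rfl⟩ := hB hy
        exact ⟨a, ⟨ha, hy⟩, rfl⟩
    have h2 : B' ⊓ centralizer (V : Set G) = A ⊓ centralizer (V : Set G) := by
      apply le_antisymm (inf_le_inf_right _ inf_le_left)
      refine le_inf (le_inf inf_le_left ?_) inf_le_right
      intro x hx
      change iot V x ∈ B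
      rw [hker x hx.2]; exact one_mem _
    have h3 := hA.1 B' inf_le_left
    change mm V B' ≤ mm V A at h3
    rw [mm_hol V B', mm_hol V A, h1, h2] at h3
    exact Nat.le_of_mul_le_mul_right h3 Nat.card_pos
  · rw [← Subgroup.map_commutator]
    rintro _ ⟨c, hc, rfl⟩
    exact (iot_mem_cent V).2 (hA.2.1 hc)
  · rintro _ ⟨a, ha, rfl⟩
    rw [← map_pow]
    exact (iot_mem_cent V).2 (hA.2.2 a ha)

/-- no nontrivial normal p-subgroups modulo the kernel -/
theorem ffs_hol [Finite G] {p : ℕ} [hp : Fact p.Prime] (hsep : IsPSolvable p G) (hV : Good p V) (hO : pCore p (G ⧸ centralizer (V : Set G)) = ⊥) (X : Subgroup G) [hX : X.Normal] : 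
    FFS p (Vh V) (X.map (iot V)) := by
  refine ⟨isElementaryAbelian_iff_good.2 (Vh_good V hV), Vh_norm V _, map_iot_inf_cent V X, ?_⟩
  have hXs : IsPSolvable p (X.map (iot V)) := IsPSolvable.map (IsPSolvable.subgroup hsep X) ((iot V).subgroupMap X) ((iot V).subgroupMap_surjective X)
  have hcore : pCore p (X.map (iot V)) = ⊥ := by
    set R := (pCore p (X.map (iot V))).map (X.map (iot V)).subtype with hR
    have hRn : (iot V).range ≤ normalizer (R : Set (Hol V)) := by
      have h1 : (iot V).range ≤ normalizer ((X.map (iot V) : Subgroup (Hol V)) : Set (Hol V)) := by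
        rw [le_normalizer_iff_conj]
        rintro _ ⟨g, rfl⟩ _ ⟨x, hx, rfl⟩
        exact ⟨g * x * g⁻¹, hX.conj_mem x hx g, by simp⟩
      exact h1.trans (normalizer_le_map_characteristic _)
    have hRp : IsPGroup p R := (CfsgH2.isPGroup_pCore p).map _
    haveI hDn : (R.comap (iot V)).Normal := by
      refine ⟨fun d hd g => ?_⟩
      rw [Subgroup.mem_comap] at hd ⊢
      rw [map_mul, map_mul, map_inv]
      exact le_normalizer_iff_conj.1 hRn (iot V g) ⟨g, rfl⟩ _ hd
    have hD : R.comap (iot V) ≤ centralizer (V : Set G) := by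
      have h1 : (R.comap (iot V)).map (QuotientGroup.mk' (centralizer (V : Set G))) ≤ pCore p (G ⧸ centralizer (V : Set G)) := by
        apply CfsgH2.le_pCore
        · exact hDn.map _ (QuotientGroup.mk'_surjective _)
        · rintro ⟨_, d, hd, rfl⟩
          obtain ⟨k, hk⟩ := hRp ⟨iot V d, hd⟩
          refine ⟨k, Subtype.ext ?_⟩
          have h2 : iot V (d ^ p ^ k) = 1 := by
            rw [map_pow]; exact congrArg Subtype.val hk
          have h3 : d ^ p ^ k ∈ centralizer (V : Set G) := by rw [← iot_ker]; exact h2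
          change (QuotientGroup.mk' (centralizer (V : Set G)) d) ^ p ^ k = 1
          rw [← map_pow]
          exact (QuotientGroup.eq_one_iff _).2 h3
      rw [hO, le_bot_iff, Subgroup.map_eq_bot_iff, QuotientGroup.ker_mk'] at h1
      exact h1
    have hR0 : R = ⊥ := by
      rw [Subgroup.eq_bot_iff_forall]
      intro y hy
      obtain ⟨x, hx, rfl⟩ := (Subgroup.map_subtype_le _ : R ≤ X.map (iot V)) hy
      have h1 := hD (show x ∈ R.comap (iot V) from hy)
      rw [← iot_ker] at h1
      exact h1
    exact (Subgroup.map_eq_bot_iff_of_injective _ (Subgroup.subtype_injective _)).1 hR0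
  apply psolv_centralizer_pPrimeCore_le hXs
  intro R hR hRp
  rw [eq_bot_iff, ← hcore]
  exact CfsgH2.le_pCore hR hRp

end

end CfsgH1
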