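import Mathlib
import Cfsg.Agent.H1.Maschke
import Cfsg.Agent.H1.MinNormal

/-! # Indecomposable coprime actions on abelian `p`-groups -/

set_option autoImplicit false

namespace CfsgH1

open Subgroup

universe u v

section
variable {X : Type u} {A : Type v} [Group X] [CommGroup A] [MulDistribMulAction X A]

/-- invariant subgroup -/
def Inv (X : Type u) {A : Type v} [Group X] [CommGroup A] [MulDistribMulAction X A] (B : Subgroup A) : Prop :=
  ∀ (x : X), ∀ b ∈ B, x • b ∈ B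

theorem Inv.sup {B C : Subgroup A} (hB : Inv X B) (hC : Inv X C) : Inv X (B ⊔ C) := by
  intro x b hb
  obtain ⟨y, hy, z, hz, rfl⟩ := Subgroup.mem_sup.1 hb
  rw [smul_mul']
  exact Subgroup.mul_mem_sup (hB x y hy) (hC x z hz)

theorem Inv.inf {B C : Subgroup A} (hB : Inv X B) (hC : Inv X C) : Inv X (B ⊓ C) :=
  fun x b hb => ⟨hB x b hb.1, hC x b hb.2⟩

theorem inv_bot : Inv X (⊥ : Subgroup A) := by
  intro x b hb
  rw [mem_bot] at hb ⊢
  rw [hb, smul_one]

theorem inv_top : Inv X (⊤ : Subgroup A) := fun _ _ _ => mem_top _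

theorem Inv.map_pow {B : Subgroup A} (hB : Inv X B) (n : ℕ) : Inv X (B.map (powMonoidHom n : A →* A)) := by
  rintro x _ ⟨b, hb, rfl⟩
  exact ⟨x • b, hB x b hb, by show (x • b) ^ n = x • b ^ n; rw [smul_pow']⟩

theorem Inv.comap_pow {B : Subgroup A} (hB : Inv X B) (n : ℕ) : Inv X (B.comap (powMonoidHom n : A →* A)) := by
  intro x b hb
  show (x • b) ^ n ∈ B
  rw [← smul_pow']
  exact hB x _ hb

/-- action on a quotient -/
def quotMDMA (D : Subgroup A) (hD : Inv X D) : MulDistribMulAction X (A ⧸ D) where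
  smul x := QuotientGroup.map D D (MulDistribMulAction.toMonoidHom A x) (fun d hd => hD x d hd)
  one_smul := by
    intro b
    induction b using QuotientGroup.induction_on with
    | H b => exact congrArg QuotientGroup.mk (one_smul X b)
  mul_smul := by
    intro x y b
    induction b using QuotientGroup.induction_on with
    | H b => exact congrArg QuotientGroup.mk (mul_smul x y b)
  smul_mul x a b := map_mul _ _ _
  smul_one x := map_one _

/-- action on an invariant subgroup -/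
def subMDMA (E : Subgroup A) (hE : Inv X E) : MulDistribMulAction X E where
  smul x e := ⟨x • (e : A), hE x e e.2⟩
  one_smul e := Subtype.ext (one_smul X (e : A))
  mul_smul x y e := Subtype.ext (mul_smul x y (e : A))
  smul_mul x a b := Subtype.ext (smul_mul' x (a : A) (b : A))
  smul_one x := Subtype.ext (smul_one x)

theorem exists_compl_elem [Finite A] {p : ℕ} (hp : p.Prime) (D U E : Subgroup A) (hDU : D ≤ U) (hUE : U ≤ E)
    (hE : ∀ x ∈ E, x ^ p ∈ D) : ∃ W : Subgroup A, D ≤ W ∧ W ≤ E ∧ U ⊓ W = D ∧ U ⊔ W = E := by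
  obtain ⟨W, ⟨hDW, hWE, hUW⟩, hmax⟩ := exists_maximal_of_set {W : Subgroup A | D ≤ W ∧ W ≤ E ∧ U ⊓ W = D}
    ⟨D, le_rfl, hDU.trans hUE, inf_eq_right.2 hDU⟩
  refine ⟨W, hDW, hWE, hUW, le_antisymm (sup_le hUE hWE) ?_⟩
  intro x hx
  by_contra hxn
  have h1 : W ⊔ zpowers x = W := by
    apply hmax
    · refine ⟨hDW.trans le_sup_left, sup_le hWE (zpowers_le.2 hx), le_antisymm ?_ (le_inf hDU (hDW.trans le_sup_left))⟩
      rintro y ⟨hyU, hy⟩
      obtain ⟨w, hw, z, hz, rfl⟩ := Subgroup.mem_sup.1 hy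
      obtain ⟨k, rfl⟩ := mem_zpowers_iff.1 hz
      by_cases hk : (p : ℤ) ∣ k
      · obtain ⟨m, rfl⟩ := hk
        have h2 : x ^ ((p : ℤ) * m) ∈ D := by
          rw [zpow_mul, zpow_natCast]
          exact zpow_mem (hE x hx) m
        have h3 : w * x ^ ((p : ℤ) * m) ∈ U ⊓ W := ⟨hyU, mul_mem hw (hDW h2)⟩
        rwa [hUW] at h3
      · exfalso
        apply hxn
        have h2 : x ^ k ∈ U ⊔ W := by
          have : x ^ k = (w * x ^ k) * w⁻¹ := by rw [mul_comm w, mul_inv_cancel_right]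
          rw [this]
          exact Subgroup.mul_mem_sup hyU (inv_mem hw)
        have h3 : x ^ (p : ℤ) ∈ U ⊔ W := by
          rw [zpow_natCast]
          exact mem_sup_right (hDW (hE x hx))
        have hcop : IsCoprime k (p : ℤ) := by
          rw [Int.isCoprime_iff_gcd_eq_one, Int.gcd_comm]
          exact (Nat.Prime.coprime_iff_not_dvd hp (n := k.natAbs)).2 (fun h => hk (Int.natCast_dvd.2 h))
        obtain ⟨a, b, hab⟩ := hcop
        have h4 : x = (x ^ k) ^ a * (x ^ (p : ℤ)) ^ b := by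
          rw [← zpow_mul, ← zpow_mul, ← zpow_add, mul_comm k, mul_comm (p : ℤ), hab, zpow_one]
        rw [h4]
        exact mul_mem (zpow_mem h2 a) (zpow_mem h3 b)
    · exact le_sup_left
  apply hxn
  rw [← h1]
  exact mem_sup_right (mem_sup_right (mem_zpowers x))

/-- relative Maschke -/
theorem maschke_rel [Finite X] [Finite A] {p : ℕ} (hp : p.Prime) (hcop : (Nat.card X).Coprime (Nat.card A))
    (D U E : Subgroup A) (hD : Inv X D) (hU : Inv X U) (hEi : Inv X E) (hDU : D ≤ U) (hUE : U ≤ E)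
    (hE : ∀ x ∈ E, x ^ p ∈ D) : ∃ W : Subgroup A, Inv X W ∧ D ≤ W ∧ W ≤ E ∧ U ⊓ W = D ∧ U ⊔ W = E := by
  obtain ⟨W₀, hDW₀, hW₀E, hUW₀, hUW₀E⟩ := exists_compl_elem hp D U E hDU hUE hE
  letI i1 := quotMDMA D hD
  have hEb : Inv X (E.map (QuotientGroup.mk' D)) := by
    rintro x _ ⟨e, he, rfl⟩
    exact ⟨x • e, hEi x e he, rfl⟩
  letI i2 := subMDMA (E.map (QuotientGroup.mk' D)) hEb
  have hcop' : (Nat.card X).Coprime (Nat.card (E.map (QuotientGroup.mk' D))) := by
    apply Nat.Coprime.coprime_dvd_right _ hcop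
    exact (Subgroup.card_subgroup_dvd_card _).trans (Subgroup.card_quotient_dvd_card D)
  have hmk : ∀ x : A, QuotientGroup.mk' D x = 1 ↔ x ∈ D := fun x => QuotientGroup.eq_one_iff x
  obtain ⟨W', hW'1, hW'2, hW'3⟩ := maschke_abs (A := X) (V := E.map (QuotientGroup.mk' D)) hcop'
    ((U.map (QuotientGroup.mk' D)).subgroupOf _) ((W₀.map (QuotientGroup.mk' D)).subgroupOf _) (by
      rintro x ⟨_, _⟩ ⟨u, hu, rfl⟩
      exact ⟨x • u, hU x u hu, rfl⟩) (by
      rw [eq_bot_iff]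
      rintro ⟨y, hy⟩ ⟨⟨u, hu, huy⟩, ⟨w, hw, hwy⟩⟩
      have huy' : QuotientGroup.mk' D u = y := huy
      have hwy' : QuotientGroup.mk' D w = y := hwy
      have h1 : u⁻¹ * w ∈ D := by rw [← hmk, map_mul, map_inv, huy', hwy', inv_mul_cancel]
      have h2 : u ∈ W₀ := by
        have h3 : u = w * (u⁻¹ * w)⁻¹ := by rw [mul_inv_rev, inv_inv, mul_inv_cancel_left]
        rw [h3]
        exact mul_mem hw (inv_mem (hDW₀ h1))
      have h3 : u ∈ U ⊓ W₀ := ⟨hu, h2⟩
      rw [hUW₀] at h3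
      rw [mem_bot]
      apply Subtype.ext
      show y = 1
      rw [← huy', (hmk u).2 h3]) (by
      rw [eq_top_iff]
      rintro ⟨_, ⟨e, he, rfl⟩⟩ _
      have he' : e ∈ U ⊔ W₀ := by rw [hUW₀E]; exact he
      obtain ⟨u, hu, w, hw, rfl⟩ := Subgroup.mem_sup.1 he'
      refine Subgroup.mem_sup.2 ⟨⟨QuotientGroup.mk' D u, u, hUE hu, rfl⟩, ⟨u, hu, rfl⟩,
        ⟨QuotientGroup.mk' D w, w, hW₀E hw, rfl⟩, ⟨w, hw, rfl⟩, ?_⟩
      exact Subtype.ext (map_mul (QuotientGroup.mk' D) u w).symm)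
  let W : Subgroup A := (W'.map (E.map (QuotientGroup.mk' D)).subtype).comap (QuotientGroup.mk' D)
  have hWmem : ∀ x, x ∈ W ↔ ∃ h : QuotientGroup.mk' D x ∈ E.map (QuotientGroup.mk' D), (⟨_, h⟩ : E.map (QuotientGroup.mk' D)) ∈ W' := by
    intro x
    constructor
    · rintro ⟨y, hy, hyx⟩
      have h1 : (y : A ⧸ D) = QuotientGroup.mk' D x := hyx
      refine ⟨h1 ▸ y.2, ?_⟩
      have h2 : (⟨QuotientGroup.mk' D x, h1 ▸ y.2⟩ : E.map (QuotientGroup.mk' D)) = y := Subtype.ext h1.symm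
      rw [h2]; exact hy
    · rintro ⟨h, h1⟩
      exact ⟨_, h1, rfl⟩
  have hEmem : ∀ x, QuotientGroup.mk' D x ∈ E.map (QuotientGroup.mk' D) → x ∈ E := by
    rintro x ⟨e, he, hex⟩
    have h1 : e⁻¹ * x ∈ D := by rw [← hmk, map_mul, map_inv, hex, inv_mul_cancel]
    have h3 : x = e * (e⁻¹ * x) := by rw [mul_inv_cancel_left]
    rw [h3]
    exact mul_mem he (hUE (hDU h1))
  have hUmem : ∀ x, QuotientGroup.mk' D x ∈ U.map (QuotientGroup.mk' D) → x ∈ U := by
    rintro x ⟨e, he, hex⟩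
    have h1 : e⁻¹ * x ∈ D := by rw [← hmk, map_mul, map_inv, hex, inv_mul_cancel]
    have h3 : x = e * (e⁻¹ * x) := by rw [mul_inv_cancel_left]
    rw [h3]
    exact mul_mem he (hDU h1)
  have hDW : D ≤ W := by
    intro d hd
    rw [hWmem]
    have h1 : QuotientGroup.mk' D d = 1 := (hmk d).2 hd
    refine ⟨by rw [h1]; exact one_mem _, ?_⟩
    have h2 : (⟨QuotientGroup.mk' D d, by rw [h1]; exact one_mem _⟩ : E.map (QuotientGroup.mk' D)) = 1 := Subtype.ext h1
    rw [h2]; exact one_mem _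
  have hWE : W ≤ E := by
    intro x hx
    exact hEmem x ((hWmem x).1 hx).1
  refine ⟨W, ?_, hDW, hWE, ?_, ?_⟩
  · intro x w hw
    obtain ⟨h, h1⟩ := (hWmem w).1 hw
    rw [hWmem]
    exact ⟨hEb x _ h, hW'1 x _ h1⟩
  · apply le_antisymm
    · rintro x ⟨hxU, hxW⟩
      obtain ⟨h, h1⟩ := (hWmem x).1 hxW
      have h2 : (⟨_, h⟩ : E.map (QuotientGroup.mk' D)) ∈ (U.map (QuotientGroup.mk' D)).subgroupOf _ ⊓ W' :=
        ⟨⟨x, hxU, rfl⟩, h1⟩
      rw [hW'2, mem_bot] at h2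
      rw [← hmk]
      exact congrArg Subtype.val h2
    · exact le_inf hDU hDW
  · apply le_antisymm (sup_le hUE hWE)
    intro e he
    have h1 : (⟨QuotientGroup.mk' D e, e, he, rfl⟩ : E.map (QuotientGroup.mk' D)) ∈
        (U.map (QuotientGroup.mk' D)).subgroupOf _ ⊔ W' := by rw [hW'3]; exact mem_top _
    obtain ⟨⟨y, hy⟩, ⟨u, hu, huy⟩, w, hw, hyw⟩ := Subgroup.mem_sup.1 h1
    have huy' : QuotientGroup.mk' D u = y := huy
    have h2 : y * (w : A ⧸ D) = QuotientGroup.mk' D e := congrArg Subtype.val hyw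
    have h3 : QuotientGroup.mk' D (u⁻¹ * e) = w := by
      rw [map_mul, map_inv, huy', ← h2, inv_mul_cancel_left]
    have h4 : u⁻¹ * e ∈ W := by
      rw [hWmem]
      refine ⟨by rw [h3]; exact w.2, ?_⟩
      have h5 : (⟨QuotientGroup.mk' D (u⁻¹ * e), by rw [h3]; exact w.2⟩ : E.map (QuotientGroup.mk' D)) = w := Subtype.ext h3
      rw [h5]; exact hw
    have h5 := Subgroup.mul_mem_sup hu h4
    rwa [mul_inv_cancel_left] at h5

/-! ### homocyclic counting -/

theorem card_ker_mul_range {V : Type*} [CommGroup V] [Finite V] (n : ℕ) :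
    Nat.card (powMonoidHom n : V →* V).range * Nat.card (powMonoidHom n : V →* V).ker = Nat.card V := by
  rw [Subgroup.card_eq_card_quotient_mul_card_subgroup (powMonoidHom n : V →* V).ker,
    Nat.card_congr (QuotientGroup.quotientKerEquivRange (powMonoidHom n : V →* V)).toEquiv]

theorem hc_one {V : Type*} [CommGroup V] [Finite V] {p e : ℕ} (he : ∀ x : V, x ^ (p * p ^ e) = 1)
    (h : (powMonoidHom p : V →* V).ker ≤ (powMonoidHom (p ^ e) : V →* V).range) :
    (powMonoidHom (p ^ e) : V →* V).ker = (powMonoidHom p : V →* V).range := by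
  symm
  apply Subgroup.eq_of_le_of_card_ge
  · rintro _ ⟨x, rfl⟩
    show (x ^ p) ^ p ^ e = 1
    rw [← pow_mul, he]
  · have h1 : Nat.card (powMonoidHom p : V →* V).ker ≤ Nat.card (powMonoidHom (p ^ e) : V →* V).range :=
      Nat.card_le_card_of_injective _ (Subgroup.inclusion_injective h)
    have h2 := card_ker_mul_range (V := V) p
    have h3 := card_ker_mul_range (V := V) (p ^ e)
    have h4 : 0 < Nat.card (powMonoidHom p : V →* V).ker := Nat.card_pos
    by_contra hlt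
    push_neg at hlt
    have h5 : Nat.card (powMonoidHom p : V →* V).range * Nat.card (powMonoidHom p : V →* V).ker <
        Nat.card (powMonoidHom (p ^ e) : V →* V).ker * Nat.card (powMonoidHom (p ^ e) : V →* V).range :=
      calc _ < Nat.card (powMonoidHom (p ^ e) : V →* V).ker * Nat.card (powMonoidHom p : V →* V).ker :=
            Nat.mul_lt_mul_of_pos_right hlt h4
        _ ≤ _ := Nat.mul_le_mul_left _ h1
    rw [h2, mul_comm, h3] at h5
    exact lt_irrefl _ h5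

theorem hc_two {V : Type*} [CommGroup V] [Finite V] {p e : ℕ} (he : ∀ x : V, x ^ (p * p ^ e) = 1)
    (h : (powMonoidHom (p ^ e) : V →* V).ker ≤ (powMonoidHom p : V →* V).range) :
    (powMonoidHom p : V →* V).ker = (powMonoidHom (p ^ e) : V →* V).range := by
  symm
  apply Subgroup.eq_of_le_of_card_ge
  · rintro _ ⟨x, rfl⟩
    show (x ^ p ^ e) ^ p = 1
    rw [← pow_mul, mul_comm, he]
  · have h1 : Nat.card (powMonoidHom (p ^ e) : V →* V).ker ≤ Nat.card (powMonoidHom p : V →* V).range :=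
      Nat.card_le_card_of_injective _ (Subgroup.inclusion_injective h)
    have h2 := card_ker_mul_range (V := V) p
    have h3 := card_ker_mul_range (V := V) (p ^ e)
    have h4 : 0 < Nat.card (powMonoidHom (p ^ e) : V →* V).ker := Nat.card_pos
    by_contra hlt
    push_neg at hlt
    have h5 : Nat.card (powMonoidHom (p ^ e) : V →* V).range * Nat.card (powMonoidHom (p ^ e) : V →* V).ker <
        Nat.card (powMonoidHom p : V →* V).ker * Nat.card (powMonoidHom p : V →* V).range :=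
      calc _ < Nat.card (powMonoidHom p : V →* V).ker * Nat.card (powMonoidHom (p ^ e) : V →* V).ker :=
            Nat.mul_lt_mul_of_pos_right hlt h4
        _ ≤ _ := Nat.mul_le_mul_left _ h1
    rw [h3, mul_comm, h2] at h5
    exact lt_irrefl _ h5

/-- main implication: indecomposable implies `Ω₁` irreducible -/
theorem omega_irred_of_indec [Finite X] [Finite A] {p : ℕ} [Fact p.Prime] (hA : IsPGroup p A)
    (hcop : (Nat.card X).Coprime (Nat.card A))
    (hind : ¬ ∃ B C : Subgroup A, B ≠ ⊥ ∧ C ≠ ⊥ ∧ Inv X B ∧ Inv X C ∧ B ⊓ C = ⊥ ∧ B ⊔ C = ⊤)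
    (B : Subgroup A) (hB : Inv X B) (hBp : ∀ b ∈ B, b ^ p = 1) : B = ⊥ ∨ ∀ a : A, a ∈ B ↔ a ^ p = 1 := by
  have hp : p.Prime := Fact.out
  by_cases hB1 : B = ⊥
  · exact Or.inl hB1
  right
  -- exponent
  obtain ⟨b, hbB, hb1⟩ : ∃ b ∈ B, b ≠ 1 := by
    by_contra hall
    push_neg at hall
    exact hB1 (eq_bot_iff.2 fun x hx => hall x hx)
  obtain ⟨e, he1, he2⟩ : ∃ e : ℕ, (∀ x : A, x ^ (p * p ^ e) = 1) ∧ ∃ x : A, x ^ p ^ e ≠ 1 := by
    obtain ⟨k, hk⟩ := IsPGroup.iff_card.1 hA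
    have hex : ∃ m : ℕ, ∀ x : A, x ^ p ^ m = 1 := ⟨k, fun x => by rw [← hk]; exact pow_card_eq_one'⟩
    classical
    let m := Nat.find hex
    have hm := Nat.find_spec hex
    have hm0 : m ≠ 0 := by
      intro h0
      have := hm b
      rw [show Nat.find hex = 0 from h0, pow_zero, pow_one] at this
      exact hb1 this
    have hmin : ¬ ∀ x : A, x ^ p ^ (m - 1) = 1 := Nat.find_min hex (by omega)
    push_neg at hmin
    refine ⟨m - 1, ?_, hmin⟩
    intro x
    rw [← pow_succ', Nat.sub_add_cancel (Nat.pos_of_ne_zero hm0)]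
    exact hm x
  -- minimal invariant subgroup M in A^{p^e}
  obtain ⟨M, ⟨hMi, hMle, hM1⟩, hMmin⟩ := exists_minimal_of_set
    {M : Subgroup A | Inv X M ∧ M ≤ (powMonoidHom (p ^ e) : A →* A).range ∧ M ≠ ⊥}
    ⟨(powMonoidHom (p ^ e) : A →* A).range, by
      rw [MonoidHom.range_eq_map]; exact inv_top.map_pow _, le_rfl, by
      obtain ⟨x, hx⟩ := he2
      intro h
      apply hx
      have : x ^ p ^ e ∈ (powMonoidHom (p ^ e) : A →* A).range := ⟨x, rfl⟩
      rwa [h, mem_bot] at this⟩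
  have hMp : ∀ x ∈ M, x ^ p = 1 := by
    intro x hx
    obtain ⟨y, rfl⟩ := hMle hx
    show (y ^ p ^ e) ^ p = 1
    rw [← pow_mul, mul_comm, he1]
  -- D
  obtain ⟨D, ⟨hDi, hDM⟩, hDmax⟩ := exists_maximal_of_set {D : Subgroup A | Inv X D ∧ D ⊓ M = ⊥} ⟨⊥, inv_bot, bot_inf_eq _⟩
  -- E = M ⊔ D
  have hE : ∀ x : A, x ^ p ∈ D → x ∈ M ⊔ D := by
    have hDE : D ≤ D.comap (powMonoidHom p : A →* A) := fun x hx => D.pow_mem hx p
    have hME : M ≤ D.comap (powMonoidHom p : A →* A) := by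
      intro x hx
      show x ^ p ∈ D
      rw [hMp x hx]; exact one_mem _
    obtain ⟨W, hWi, hDW, hWE, hUW, hUWE⟩ := maschke_rel hp hcop D (M ⊔ D) (D.comap (powMonoidHom p : A →* A)) hDi
      (hMi.sup hDi) (hDi.comap_pow p) le_sup_right (sup_le hME hDE) (fun x hx => hx)
    have hWD : W = D := by
      apply hDmax W ⟨hWi, ?_⟩ hDW
      rw [eq_bot_iff]
      rintro x ⟨hxW, hxM⟩
      have h1 : x ∈ (M ⊔ D) ⊓ W := ⟨mem_sup_left hxM, hxW⟩
      rw [hUW] at h1
      have h2 : x ∈ D ⊓ M := ⟨h1, hxM⟩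
      rwa [hDM] at h2
    intro x hx
    have h1 : x ∈ D.comap (powMonoidHom p : A →* A) := hx
    rw [← hUWE, hWD, sup_assoc, sup_idem] at h1
    exact h1
  -- quotient homocyclic
  have hq : (powMonoidHom (p ^ e) : (A ⧸ D) →* (A ⧸ D)).ker = (powMonoidHom p : (A ⧸ D) →* (A ⧸ D)).range := by
    apply hc_one
    · intro x
      obtain ⟨x, rfl⟩ := QuotientGroup.mk_surjective x
      rw [← QuotientGroup.mk_pow, he1, QuotientGroup.mk_one]
    · intro x hx
      obtain ⟨x, rfl⟩ := QuotientGroup.mk_surjective x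
      have h1 : x ^ p ∈ D := (QuotientGroup.eq_one_iff _).1 hx
      obtain ⟨m, hm, d, hd, rfl⟩ := Subgroup.mem_sup.1 (hE x h1)
      obtain ⟨y, rfl⟩ := hMle hm
      refine ⟨QuotientGroup.mk y, ?_⟩
      show (QuotientGroup.mk (y ^ p ^ e) : A ⧸ D) = QuotientGroup.mk (y ^ p ^ e * d)
      rw [QuotientGroup.eq]
      rw [inv_mul_cancel_left]
      exact hd
  have hq' : ∀ x : A, x ^ p ^ e ∈ D → ∃ y : A, ∃ d ∈ D, x = y ^ p * d := by
    intro x hx
    have h1 : (QuotientGroup.mk x : A ⧸ D) ∈ (powMonoidHom (p ^ e) : (A ⧸ D) →* (A ⧸ D)).ker := (QuotientGroup.eq_one_iff _).2 hx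
    rw [hq] at h1
    obtain ⟨y, hy⟩ := h1
    obtain ⟨y, rfl⟩ := QuotientGroup.mk_surjective y
    have h2 : (QuotientGroup.mk (y ^ p) : A ⧸ D) = QuotientGroup.mk x := hy
    rw [QuotientGroup.eq] at h2
    exact ⟨y, _, h2, (mul_inv_cancel_left _ _).symm⟩
  -- C
  obtain ⟨C, ⟨hCi, hCD⟩, hCmin⟩ := exists_minimal_of_set {C : Subgroup A | Inv X C ∧ C ⊔ D = ⊤} ⟨⊤, inv_top, top_sup_eq _⟩
  have hCp : C.map (powMonoidHom p : A →* A) ≤ C := by
    rintro _ ⟨c, hc, rfl⟩
    exact C.pow_mem hc p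
  have hCDp : C ⊓ D ≤ C.map (powMonoidHom p : A →* A) := by
    obtain ⟨W, hWi, hDW, hWE, hUW, hUWE⟩ := maschke_rel hp hcop (C.map (powMonoidHom p : A →* A))
      (C ⊓ D ⊔ C.map (powMonoidHom p : A →* A)) C (hCi.map_pow p) ((hCi.inf hDi).sup (hCi.map_pow p)) hCi le_sup_right
      (sup_le inf_le_left hCp) (fun x hx => ⟨x, hx, rfl⟩)
    have h1 : W ⊔ D = ⊤ := by
      rw [eq_top_iff, ← hCD]
      refine sup_le ?_ le_sup_right
      rw [← hUWE]
      exact sup_le (sup_le (inf_le_right.trans le_sup_right) (hDW.trans le_sup_left)) le_sup_left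
    have h2 : W = C := hCmin W ⟨hWi, h1⟩ hWE
    rw [h2] at hUW
    intro x hx
    rw [← hUW]
    exact ⟨mem_sup_left hx, hx.1⟩
  -- kernel of p^e on C
  have hCk : ∀ x ∈ C, x ^ p ^ e ∈ D → x ∈ C.map (powMonoidHom p : A →* A) := by
    intro x hx hxe
    obtain ⟨y, d, hd, rfl⟩ := hq' x hxe
    obtain ⟨c, hc, d', hd', rfl⟩ := Subgroup.mem_sup.1 (hCD.ge (mem_top y))
    have h1 : d' ^ p * d ∈ C ⊓ D := by
      refine ⟨?_, mul_mem (D.pow_mem hd' p) hd⟩
      have h2 : d' ^ p * d = (c ^ p)⁻¹ * ((c * d') ^ p * d) := by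
        rw [mul_pow, mul_assoc, inv_mul_cancel_left]
      rw [h2]
      exact C.mul_mem (C.inv_mem (C.pow_mem hc p)) hx
    have h3 : (c * d') ^ p * d = c ^ p * (d' ^ p * d) := by rw [mul_pow, mul_assoc]
    rw [h3]
    exact mul_mem ⟨c, hc, rfl⟩ (hCDp h1)
  have hCh : (powMonoidHom p : C →* C).ker = (powMonoidHom (p ^ e) : C →* C).range := by
    apply hc_two
    · intro x
      exact Subtype.ext (he1 x)
    · rintro ⟨x, hx⟩ hx1
      have h1 : x ^ p ^ e = 1 := congrArg Subtype.val hx1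
      obtain ⟨y, hy, hyx⟩ := hCk x hx (by rw [h1]; exact one_mem _)
      exact ⟨⟨y, hy⟩, Subtype.ext hyx⟩
  have hCDbot : C ⊓ D = ⊥ := by
    by_contra hne
    obtain ⟨x, hx, hxo⟩ : ∃ x ∈ C ⊓ D, orderOf x = p := by
      obtain ⟨k, hk⟩ := IsPGroup.iff_card.1 (hA.to_subgroup (C ⊓ D))
      have hk0 : k ≠ 0 := by
        rintro rfl
        rw [pow_zero] at hk
        exact hne (Subgroup.card_eq_one.1 hk)
      obtain ⟨x, hx⟩ := exists_prime_orderOf_dvd_card' (G := ↥(C ⊓ D)) p (by rw [hk]; exact dvd_pow_self p hk0)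
      exact ⟨x, x.2, by rw [Subgroup.orderOf_coe, hx]⟩
    have hxp : x ^ p = 1 := by rw [← hxo]; exact pow_orderOf_eq_one x
    have h1 : (⟨x, hx.1⟩ : C) ∈ (powMonoidHom p : C →* C).ker := Subtype.ext hxp
    rw [hCh] at h1
    obtain ⟨⟨y, hy⟩, hyx⟩ := h1
    have h2 : y ^ p ^ e = x := congrArg Subtype.val hyx
    obtain ⟨z, hz, hzy⟩ := hCk y hy (by rw [h2]; exact hx.2)
    have h3 : z ^ p = y := hzy
    have h4 : x = 1 := by rw [← h2, ← h3, ← pow_mul, he1]
    rw [h4, orderOf_one] at hxo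
    exact hp.one_lt.ne hxo
  have hCne : C ≠ ⊥ := by
    intro h
    rw [h, bot_sup_eq] at hCD
    rw [hCD, top_inf_eq] at hDM
    exact hM1 hDM
  have hDbot : D = ⊥ := by
    by_contra hDne
    exact hind ⟨C, D, hCne, hDne, hCi, hDi, hCDbot, hCD⟩
  have hEM : ∀ x : A, x ^ p = 1 → x ∈ M := by
    intro x hx
    have := hE x (by rw [hx]; exact one_mem _)
    rwa [hDbot, sup_bot_eq] at this
  have hBM : B = M := by
    apply hMmin B ⟨hB, ?_, hB1⟩ (fun x hx => hEM x (hBp x hx))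
    exact fun x hx => hMle (hEM x (hBp x hx))
  intro a
  rw [hBM]
  exact ⟨hMp a, hEM a⟩

end

end CfsgH1
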