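import Cfsg.Agent.H1.KW4

set_option autoImplicit false

open Cfsg Subgroup
open scoped Pointwise commutatorElement

namespace CfsgH1

universe u v

theorem normal_of_sup_top {G : Type u} [Group G] {A N D : Subgroup G} (h : A ⊔ N = ⊤) (hA : A ≤ normalizer (D : Set G)) (hN : N ≤ normalizer (D : Set G)) : 
    D.Normal := by
  rw [← normalizer_eq_top_iff, eq_top_iff, ← h]
  exact sup_le hA hN

theorem kw_normal (n : ℕ) : ∀ (G : Type u) [Group G] [Finite G], Nat.card G = n → ∀ A B : Subgroup G, Group.IsNilpotent A → 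
    Group.IsNilpotent B → IsFact A B → (A ≠ ⊤ ∨ B ≠ ⊤) → ∃ N : Subgroup G, N.Normal ∧ N ≠ ⊤ ∧ (A ≤ N ∨ B ≤ N) := by
  induction n using Nat.strong_induction_on with
  | _ n IH =>
  intro G _ _ hn A B hA hB hf hAB
  have hs := kegel_wielandt (Nat.card G) G rfl A B hA hB hf
  have hnil : ∀ C : Subgroup G, C ≠ ⊤ → Group.IsNilpotent G → ∃ N : Subgroup G, N.Normal ∧ N ≠ ⊤ ∧ C ≤ N := by
    intro C hC hG
    obtain ⟨M, hM, hCM⟩ := (eq_top_or_exists_le_coatom C).resolve_left hC
    exact ⟨M, (isCoatom_nilpotent hM).1, hM.1, hCM⟩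
  have htop : ∀ C : Subgroup G, Group.IsNilpotent C → C = ⊤ → Group.IsNilpotent G := by
    rintro C hC rfl
    exact Group.isNilpotent_top.1 hC
  by_cases hAt : A = ⊤
  · obtain ⟨N, h1, h2, h3⟩ := hnil B (hAB.resolve_left (not_not.2 hAt)) (htop A hA hAt)
    exact ⟨N, h1, h2, Or.inr h3⟩
  by_cases hBt : B = ⊤
  · obtain ⟨N, h1, h2, h3⟩ := hnil A hAt (htop B hB hBt)
    exact ⟨N, h1, h2, Or.inl h3⟩
  -- quotient argument
  have hquo : ∀ N : Subgroup G, ∀ [N.Normal], N ≠ ⊥ → (A ⊔ N ≠ ⊤ ∨ B ⊔ N ≠ ⊤) → ∃ N : Subgroup G, N.Normal ∧ N ≠ ⊤ ∧ (A ≤ N ∨ B ≤ N) := by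
    intro N hN hne hor
    have hmap : ∀ C : Subgroup G, C ⊔ N ≠ ⊤ → C.map (QuotientGroup.mk' N) ≠ ⊤ := by
      intro C hC h1
      apply hC
      have h2 := congrArg (Subgroup.comap (QuotientGroup.mk' N)) h1
      rwa [QuotientGroup.comap_map_mk', comap_top, sup_comm] at h2
    obtain ⟨M, h1, h2, h3⟩ := IH (Nat.card (G ⧸ N)) (by rw [← hn]; exact card_quotient_lt hne) (G ⧸ N) rfl (A.map (QuotientGroup.mk' N)) 
        (B.map (QuotientGroup.mk' N)) (isNilpotent_map _ hA) (isNilpotent_map _ hB) (hf.map _ (QuotientGroup.mk'_surjective N)) 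
        (hor.imp (hmap A) (hmap B))
    refine ⟨M.comap (QuotientGroup.mk' N), h1.comap _, ?_, h3.imp Subgroup.map_le_iff_le_comap.1 Subgroup.map_le_iff_le_comap.1⟩
    intro h4
    apply h2
    rw [eq_top_iff]
    intro x _
    obtain ⟨y, rfl⟩ := QuotientGroup.mk'_surjective N x
    have : y ∈ M.comap (QuotientGroup.mk' N) := by rw [h4]; exact mem_top _
    exact this
  haveI : Nontrivial G := by
    by_contra hnt
    rw [not_nontrivial_iff_subsingleton] at hnt
    exact hAt (Subsingleton.elim _ _)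
  obtain ⟨N, hN, hNne, hNmin, hNab, p, hp, hNp, hNpg⟩ := exists_minNormal_pgroup (G := G)
  haveI := hN
  haveI : Fact p.Prime := ⟨hp⟩
  by_cases hor : A ⊔ N ≠ ⊤ ∨ B ⊔ N ≠ ⊤
  · exact hquo N hNne hor
  push Not at hor
  obtain ⟨hAN, hBN⟩ := hor
  have hNN : N ≤ centralizer (N : Set G) := fun x hx => Subgroup.mem_centralizer_iff.2 fun y hy => hNab y hy x hx
  have hint : ∀ C : Subgroup G, C ⊔ N = ⊤ → C ≠ ⊤ → C ⊓ N = ⊥ := by
    intro C hC hCt
    haveI : (C ⊓ N : Subgroup G).Normal := by
      apply normal_of_sup_top hC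
      · exact le_normalizer_inf le_normalizer (le_normalizer_of_normal C N)
      · exact le_normalizer_of_le_centralizer (hNN.trans (centralizer_le inf_le_right))
    rcases hNmin (C ⊓ N) inferInstance inf_le_right with h1 | h1
    · exact h1
    · exfalso
      apply hCt
      rw [← hC]
      exact (sup_eq_left.2 (h1 ▸ inf_le_left)).symm
  have hAi := hint A hAN hAt
  have hBi := hint B hBN hBt
  set D := A ⊓ centralizer (N : Set G) with hD
  haveI hDn : D.Normal := by
    apply normal_of_sup_top hAN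
    · exact le_normalizer_inf le_normalizer (le_normalizer_of_normal _ _)
    · apply le_normalizer_of_le_centralizer
      rw [Subgroup.le_centralizer_iff]
      exact inf_le_right
  by_cases hDne : D = ⊥
  swap
  · refine hquo D hDne (Or.inl ?_)
    rw [sup_eq_left.2 (inf_le_left : D ≤ A)]
    exact hAt
  -- p ∤ |A|
  have hpA : ¬ p ∣ Nat.card A := by
    intro hpA
    have hsyn : A ≤ normalizer (sy p A : Set G) := le_normalizer.trans (normalizer_le_sy hA)
    haveI : (N ⊓ centralizer (sy p A : Set G) : Subgroup G).Normal := by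
      apply normal_of_sup_top hAN
      · refine le_normalizer_inf (le_normalizer_of_normal _ _) (hsyn.trans ?_)
        rw [le_normalizer_iff_conj]
        intro x hx y hy
        rw [Subgroup.mem_centralizer_iff] at hy ⊢
        intro z hz
        have hz' : x⁻¹ * z * x ∈ sy p A := by
          have := le_normalizer_iff_conj.1 (le_refl (normalizer (sy p A : Set G))) x⁻¹ (inv_mem hx) z hz
          rwa [inv_inv] at this
        have h1 := hy _ hz'
        calc z * (x * y * x⁻¹) = x * ((x⁻¹ * z * x) * y) * x⁻¹ := by group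
          _ = x * (y * (x⁻¹ * z * x)) * x⁻¹ := by rw [h1]
          _ = _ := by group
      · exact le_normalizer_of_le_centralizer (hNN.trans (centralizer_le inf_le_left))
    have h1 : N ⊓ centralizer (sy p A : Set G) ≠ ⊥ := by
      have h1 := isPGroup_sup hNpg (sy_pgroup p A) (le_normalizer_of_normal (sy p A) N)
      have h2 := inf_centralizer_ne_bot_of_nilpotent (N := N) (IsPGroup.isNilpotent h1) le_sup_left (le_normalizer_of_normal _ N) hNne
      intro h3
      apply h2
      rw [eq_bot_iff, ← h3]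
      exact inf_le_inf_left _ (Subgroup.centralizer_le (show (sy p A : Set G) ⊆ _ from fun x hx => mem_sup_right (S := N) hx))
    have h2 := (hNmin _ inferInstance inf_le_left).resolve_left h1
    have h3 : sy p A ≤ centralizer (N : Set G) := by
      rw [Subgroup.le_centralizer_iff, ← h2]
      exact inf_le_right
    apply sy_ne_bot hpA
    rw [eq_bot_iff, ← hDne]
    exact le_inf (sy_le _ _) h3
  exfalso
  apply hpA
  have h1 := card_sup_mul_card_inf (le_normalizer_of_normal A N)
  have h2 := card_sup_mul_card_inf (le_normalizer_of_normal B N)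
  rw [hAN, hAi, Subgroup.card_top, Subgroup.card_bot, mul_one] at h1
  rw [hBN, hBi, Subgroup.card_top, Subgroup.card_bot, mul_one] at h2
  have h3 : Nat.card B = Nat.card A := Nat.eq_of_mul_eq_mul_right (Nat.card_pos (α := N)) (h2.symm.trans h1)
  have h4 := isFact_iff_card.1 hf
  rw [h3, h1, mul_assoc] at h4
  have h5 := Nat.eq_of_mul_eq_mul_left Nat.card_pos h4
  have h6 : p ∣ Nat.card N := prime_pgroup_dvd hp hNpg hNne
  rw [← h5]
  exact Dvd.dvd.mul_right h6 _

end CfsgH1
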