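import Mathlib
import Cfsg.Agent.H1.Basic
import Cfsg.Agent.H1.PGrp2

set_option autoImplicit false

open Subgroup
open scoped Pointwise commutatorElement

namespace CfsgH1

universe u v
variable {G : Type u} [Group G]

theorem comm_top_lt_pg [Finite G] {p : ℕ} [hp : Fact p.Prime] (hG : IsPGroup p G) {A : Subgroup G} [hA : A.Normal] (hne : A ≠ ⊥) : 
    ⁅A, (⊤ : Subgroup G)⁆ < A := by
  haveI : Group.IsNilpotent G := hG.isNilpotent
  refine lt_of_le_of_ne (Subgroup.commutator_le_left A ⊤) fun he => hne ?_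
  have h1 : ∀ n, A ≤ (⊤ : Subgroup G).lowerCentralSeries n := by
    intro n
    induction n with
    | zero => exact le_top
    | succ n ih =>
      rw [Subgroup.lowerCentralSeries_succ, ← he]
      exact commutator_mono ih le_rfl
  obtain ⟨n, hn⟩ := Subgroup.nilpotent_iff_lowerCentralSeries.1 ‹Group.IsNilpotent G›
  rw [eq_bot_iff, ← hn]
  exact h1 n

theorem lcs_cent {p : ℕ} [hp : Fact p.Prime] (k : ℕ) : ∀ (G : Type u) [Group G] [Finite G], IsPGroup p G → ∀ A : Subgroup G, A.Normal → Nat.card A ≤ p ^ (k + 1) → 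
    ⁅A, (⊤ : Subgroup G).lowerCentralSeries k⁆ = ⊥ := by
  induction k with
  | zero =>
    intro G _ _ hG A hA hc
    by_cases hne : A = ⊥
    · rw [hne, commutator_bot_left]
    · rw [Subgroup.lowerCentralSeries_zero]
      have h1 := comm_top_lt_pg hG hne
      have h2 := card_lt_card_of_lt h1
      obtain ⟨m, hm⟩ := IsPGroup.iff_card.1 (hG.to_subgroup ⁅A, (⊤ : Subgroup G)⁆)
      rw [zero_add, pow_one] at hc
      have h3 : m = 0 := by
        by_contra h
        have h4 : p ^ 1 ≤ p ^ m := Nat.pow_le_pow_right hp.out.pos (by omega)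
        rw [pow_one] at h4
        omega
      rw [h3, pow_zero] at hm
      exact Subgroup.card_eq_one.1 hm
  | succ k IH =>
    intro G _ _ hG A hA hc
    by_cases hne : A = ⊥
    · rw [hne, commutator_bot_left]
    haveI : Group.IsNilpotent G := hG.isNilpotent
    -- central subgroup of order p
    have h1 : A ⊓ Subgroup.center G ≠ ⊥ := by
      have := inf_centralizer_ne_bot_of_nilpotent (P := ⊤) (N := A) (Group.isNilpotent_top.2 ‹_›) le_top (le_normalizer_of_normal _ A) hne
      rwa [Subgroup.coe_top, Subgroup.centralizer_univ] at this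
    have h2 : p ∣ Nat.card ↥(A ⊓ Subgroup.center G) := by
      obtain ⟨m, hm⟩ := IsPGroup.iff_card.1 (hG.to_subgroup (A ⊓ Subgroup.center G))
      rw [hm]
      apply dvd_pow_self
      rintro rfl
      rw [pow_zero] at hm
      exact h1 (Subgroup.card_eq_one.1 hm)
    obtain ⟨z, hz⟩ := exists_prime_orderOf_dvd_card' (G := ↥(A ⊓ Subgroup.center G)) p h2
    have hzA : (z : G) ∈ A := z.2.1
    have hzC : (z : G) ∈ Subgroup.center G := z.2.2
    have hzo : orderOf (z : G) = p := by rw [Subgroup.orderOf_coe, hz]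
    set Z := zpowers (z : G) with hZ
    have hZC : Z ≤ Subgroup.center G := by rw [hZ, zpowers_le]; exact hzC
    haveI hZn : Z.Normal := by
      constructor
      intro n hn g
      have := Subgroup.mem_center_iff.1 (hZC hn) g
      rw [this, mul_inv_cancel_right]
      exact hn
    have hZA : Z ≤ A := by rw [hZ, zpowers_le]; exact hzA
    have hZc : Nat.card Z = p := by rw [hZ, Nat.card_zpowers, hzo]
    -- in the quotient
    have h3 : ⁅A, (⊤ : Subgroup G).lowerCentralSeries k⁆ ≤ Z := by
      have h4 := IH (G ⧸ Z) (hG.to_quotient Z) (A.map (QuotientGroup.mk' Z)) (hA.map _ (QuotientGroup.mk'_surjective Z)) (by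
        have h6 : Nat.card ↥(A.map (QuotientGroup.mk' Z)) * p = Nat.card A := by
          have h7 := card_map_mul_card_ker_of_le (QuotientGroup.mk' Z) A (by rw [QuotientGroup.ker_mk']; exact hZA)
          rw [QuotientGroup.ker_mk', hZc] at h7
          exact h7
        have h7 : Nat.card ↥(A.map (QuotientGroup.mk' Z)) * p ≤ p ^ (k + 1) * p := by
          rw [h6, ← pow_succ]; exact hc
        exact Nat.le_of_mul_le_mul_right h7 hp.out.pos)
      have h5 : (⊤ : Subgroup (G ⧸ Z)).lowerCentralSeries k = ((⊤ : Subgroup G).lowerCentralSeries k).map (QuotientGroup.mk' Z) := by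
        rw [map_lowerCentralSeries]
        congr 1
        exact (Subgroup.map_top_of_surjective _ (QuotientGroup.mk'_surjective Z)).symm
      rw [h5, ← map_commutator] at h4
      intro x hx
      have h6 : QuotientGroup.mk' Z x ∈ (⁅A, (⊤ : Subgroup G).lowerCentralSeries k⁆).map (QuotientGroup.mk' Z) := ⟨x, hx, rfl⟩
      rw [h4, mem_bot] at h6
      exact (QuotientGroup.eq_one_iff x).1 h6
    have h4 : ⁅⁅A, (⊤ : Subgroup G).lowerCentralSeries k⁆, (⊤ : Subgroup G)⁆ = ⊥ := by
      rw [commutator_eq_bot_iff_le_centralizer]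
      refine (h3.trans hZC).trans ?_
      exact Subgroup.center_le_centralizer _
    have h5 : ⁅⁅(⊤ : Subgroup G), A⁆, (⊤ : Subgroup G).lowerCentralSeries k⁆ = ⊥ := by
      rw [commutator_comm (⊤ : Subgroup G) A]
      apply IH G hG _ inferInstance
      have h6 := card_lt_card_of_lt (comm_top_lt_pg hG hne)
      obtain ⟨m, hm⟩ := IsPGroup.iff_card.1 (hG.to_subgroup ⁅A, (⊤ : Subgroup G)⁆)
      rw [hm] at h6 ⊢
      have h7 : p ^ m < p ^ (k + 2) := lt_of_lt_of_le h6 hc
      have h8 := (Nat.pow_lt_pow_iff_right hp.out.one_lt).1 h7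
      exact Nat.pow_le_pow_right hp.out.pos (by omega)
    have h6 := commutator_commutator_eq_bot_of_rotate h5 h4
    rw [Subgroup.lowerCentralSeries_succ, commutator_comm]
    exact h6

end CfsgH1
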