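import Cfsg.Agent.H1.Hall
import Cfsg.Agent.H2.Fitting
import Cfsg.Prelude.Def_OddOrderLocal

set_option autoImplicit false

open scoped Pointwise commutatorElement

namespace CfsgH1

universe u v w
variable {G : Type u} [Group G]

open Subgroup Cfsg

theorem piNum_sup [Finite G] {π : Set ℕ} {A B : Subgroup G} (hAB : A ≤ normalizer (B : Set G)) (hA : PiNum π (Nat.card A)) (hB : PiNum π (Nat.card B)) : 
    PiNum π (Nat.card ↥(A ⊔ B)) := by
  have h1 := card_sup_mul_card_inf hAB
  exact (hA.mul hB).of_dvd (Dvd.intro _ h1)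

theorem piCore_spec [Finite G] (π : Set ℕ) : (piCore π G).Normal ∧ PiNum π (Nat.card (piCore π G)) ∧ 
    ∀ K : Subgroup G, K.Normal → PiNum π (Nat.card K) → K ≤ piCore π G := by
  obtain ⟨N, ⟨h1, h2⟩, h3⟩ := exists_maximal_of_set {N : Subgroup G | N.Normal ∧ PiNum π (Nat.card N)} 
    ⟨⊥, inferInstance, by rw [Subgroup.card_bot]; exact PiNum.one⟩
  have h4 : piCore π G = N := by
    apply le_antisymm
    · refine sSup_le fun K hK => ?_
      haveI := hK.1
      have h5 := h3 (K ⊔ N) ⟨Subgroup.sup_normal K N, piNum_sup (le_normalizer_of_normal K N) hK.2 h2⟩ le_sup_right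
      rw [← h5]; exact le_sup_left
    · exact le_sSup ⟨h1, h2⟩
  rw [h4]
  refine ⟨h1, h2, fun K hK hK2 => ?_⟩
  rw [← h4]
  exact le_sSup ⟨hK, hK2⟩

theorem piCore_characteristic [Finite G] (π : Set ℕ) : (piCore π G).Characteristic := by
  rw [Subgroup.characteristic_iff_map_le]
  intro φ
  haveI := (piCore_spec (G := G) π).1
  refine (piCore_spec π).2.2 _ (this.map _ φ.surjective) ?_
  rw [card_map_of_injOn φ.toMonoidHom _ (by
    have : φ.toMonoidHom.ker = ⊥ := (MonoidHom.ker_eq_bot_iff _).2 φ.injective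
    rw [this, inf_bot_eq])]
  exact (piCore_spec π).2.1

theorem piCore_map_subtype_le_of_le_normalizer [Finite G] {π : Set ℕ} {K L : Subgroup G} (hKL : K ≤ L)
    (hn : L ≤ normalizer (((piCore π K).map K.subtype : Subgroup G) : Set G)) :
    (piCore π K).map K.subtype ≤ (piCore π L).map L.subtype := by
  have hle : (piCore π K).map K.subtype ≤ L := (Subgroup.map_subtype_le _).trans hKL
  have h1 : (((piCore π K).map K.subtype).subgroupOf L) ≤ piCore π L := by
    refine (piCore_spec π).2.2 _ ?_ ?_
    · exact (Subgroup.normal_subgroupOf_iff_le_normalizer hle).mpr hn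
    · rw [Nat.card_congr (Subgroup.subgroupOfEquivOfLe hle).toEquiv,
        Nat.card_congr ((piCore π K).equivMapOfInjective K.subtype K.subtype_injective).toEquiv.symm]
      exact (piCore_spec π).2.1
  intro x hx
  exact ⟨⟨x, hle hx⟩, h1 hx, rfl⟩

theorem piCore_top_of [Finite G] {π : Set ℕ} (h : PiNum π (Nat.card G)) : piCore π G = ⊤ := 
  top_le_iff.1 ((piCore_spec π).2.2 ⊤ inferInstance (by rw [Subgroup.card_top]; exact h))

theorem subnormal_le_piCore [Finite G] {π : Set ℕ} {A : Subgroup G} (hA : A.IsSubnormal) (h : PiNum π (Nat.card A)) : A ≤ piCore π G := by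
  have h1 : (piCore π A).map A.subtype ≤ (piCore π (⊤ : Subgroup G)).map (⊤ : Subgroup G).subtype := by
    refine CfsgH2.IsSubnormal.le_of_radical (fun K => (piCore π K).map K.subtype) (fun K => ?_) (fun K L hKL hn => piCore_map_subtype_le_of_le_normalizer hKL hn) hA
    haveI := piCore_characteristic (G := K) π
    exact CfsgH2.normalizer_le_normalizer_map_of_characteristic _
  rw [piCore_top_of h, ← MonoidHom.range_eq_map, Subgroup.range_subtype] at h1
  refine h1.trans ?_
  apply (piCore_spec π).2.2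
  · haveI := (piCore_spec (G := (⊤ : Subgroup G)) π).1
    rw [CfsgH2.map_subtype_top]
    exact this.map _ (Subgroup.topEquiv (G := G)).surjective
  · rw [Nat.card_congr ((piCore π (⊤ : Subgroup G)).equivMapOfInjective _ (Subgroup.subtype_injective _)).toEquiv.symm]
    exact (piCore_spec π).2.1

end CfsgH1
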