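import Mathlib
import Cfsg.Agent.H1.Basic

set_option autoImplicit false

open Subgroup
open scoped Pointwise commutatorElement

namespace CfsgH1

universe u v
variable {G : Type u} [Group G]

/-- sum of a `±1`-valued homomorphism -/
theorem sum_hom_one {H : Type u} [Group H] [Fintype H] (f : H →* ℤˣ) (h : ∀ x, f x = 1) : 
    (∑ x : H, ((f x : ℤˣ) : ℤ)) = (Nat.card H : ℤ) := by
  rw [Finset.sum_congr rfl (fun x _ => by rw [h x])]
  simp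

theorem sum_hom_zero {H : Type u} [Group H] [Fintype H] (f : H →* ℤˣ) (h : ¬ ∀ x, f x = 1) : 
    (∑ x : H, ((f x : ℤˣ) : ℤ)) = 0 := by
  classical
  push Not at h
  obtain ⟨x₀, hx₀⟩ := h
  have h1 : f x₀ = -1 := (Int.units_eq_one_or (f x₀)).resolve_left hx₀
  have h2 : (∑ x : H, ((f x : ℤˣ) : ℤ)) = ∑ x : H, ((f (x₀ * x) : ℤˣ) : ℤ) := 
    (Equiv.sum_comp (Equiv.mulLeft x₀) (fun x => ((f x : ℤˣ) : ℤ))).symm
  have h3 : ∑ x : H, ((f (x₀ * x) : ℤˣ) : ℤ) = - ∑ x : H, ((f x : ℤˣ) : ℤ) := by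
    rw [← Finset.sum_neg_distrib]
    apply Finset.sum_congr rfl
    intro x _
    rw [map_mul, h1]; simp
  rw [h3] at h2
  linarith

section quad

variable {Z : Subgroup G} (hsq : ∀ x : G, x ^ 2 ∈ Z) (hcm : ∀ x y : G, ⁅x, y⁆ ∈ Z) (χ : Z →* ℤˣ)

def qf (x : G) : ℤˣ := χ ⟨x ^ 2, hsq x⟩

def bf (u x : G) : ℤˣ := χ ⟨⁅u, x⁆, hcm u x⟩

variable {hsq hcm χ}

theorem bf_mul (hZ : Z ≤ Subgroup.center G) (u x y : G) : bf hcm χ u (x * y) = bf hcm χ u x * bf hcm χ u y := by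
  unfold bf
  rw [← map_mul]
  congr 1
  apply Subtype.ext
  change ⁅u, x * y⁆ = ⁅u, x⁆ * ⁅u, y⁆
  have h1 := Subgroup.mem_center_iff.1 (hZ (hcm u y)) x
  have h2 : ⁅u, x * y⁆ = ⁅u, x⁆ * (x * ⁅u, y⁆ * x⁻¹) := by
    simp only [commutatorElement_def]; group
  rw [h2, h1, mul_inv_cancel_right]

theorem bf_mul_left (hZ : Z ≤ Subgroup.center G) (u v x : G) : bf hcm χ (u * v) x = bf hcm χ u x * bf hcm χ v x := by
  unfold bf
  rw [← map_mul]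
  congr 1
  apply Subtype.ext
  change ⁅u * v, x⁆ = ⁅u, x⁆ * ⁅v, x⁆
  have h1 := Subgroup.mem_center_iff.1 (hZ (hcm v x)) u
  have h3 := Subgroup.mem_center_iff.1 (hZ (hcm u x)) ⁅v, x⁆
  have h2 : ⁅u * v, x⁆ = (u * ⁅v, x⁆ * u⁻¹) * ⁅u, x⁆ := by
    simp only [commutatorElement_def]; group
  rw [h2, h1, mul_inv_cancel_right, h3]

theorem qf_mul (hZ : Z ≤ Subgroup.center G) (x u : G) : qf hsq χ (x * u) = qf hsq χ x * qf hsq χ u * bf hcm χ u x := by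
  unfold bf qf
  rw [← map_mul, ← map_mul]
  congr 1
  apply Subtype.ext
  change (x * u) ^ 2 = x ^ 2 * u ^ 2 * ⁅u, x⁆
  have h1 := Subgroup.mem_center_iff.1 (hZ (hcm u x)) u
  have h2 := Subgroup.mem_center_iff.1 (hZ (hcm u x)) x
  -- x u x u = x (u x) u = x (⁅u,x⁆ x u) u
  have h3 : u * x = ⁅u, x⁆ * (x * u) := by simp only [commutatorElement_def]; group
  calc (x * u) ^ 2 = x * (u * x) * u := by rw [sq]; group
    _ = x * (⁅u, x⁆ * (x * u)) * u := by rw [← h3]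
    _ = (x * ⁅u, x⁆) * x * u ^ 2 := by rw [sq]; group
    _ = (⁅u, x⁆ * x) * x * u ^ 2 := by rw [h2]
    _ = ⁅u, x⁆ * (x ^ 2 * u ^ 2) := by rw [sq x]; group
    _ = x ^ 2 * u ^ 2 * ⁅u, x⁆ := (Subgroup.mem_center_iff.1 (hZ (hcm u x)) _).symm

theorem bf_one (u : G) : bf hcm χ u 1 = 1 := by
  unfold bf
  have : (⟨⁅u, 1⁆, hcm u 1⟩ : Z) = 1 := Subtype.ext (by simp)
  rw [this, map_one]

theorem bf_one_left (x : G) : bf hcm χ 1 x = 1 := by
  unfold bf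
  have : (⟨⁅1, x⁆, hcm 1 x⟩ : Z) = 1 := Subtype.ext (by simp)
  rw [this, map_one]

/-- the radical -/
def rad (hZ : Z ≤ Subgroup.center G) (hcm : ∀ x y : G, ⁅x, y⁆ ∈ Z) (χ : Z →* ℤˣ) : Subgroup G where
  carrier := {u | ∀ x, bf hcm χ u x = 1}
  mul_mem' := by
    intro a b ha hb x
    rw [bf_mul_left hZ, ha x, hb x, one_mul]
  one_mem' := fun x => bf_one_left x
  inv_mem' := by
    intro a ha x
    have h1 := bf_mul_left (hcm := hcm) (χ := χ) hZ a a⁻¹ x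
    rw [mul_inv_cancel, bf_one_left, ha x, one_mul] at h1
    exact h1.symm

theorem mem_rad (hZ : Z ≤ Subgroup.center G) {u : G} : u ∈ rad hZ hcm χ ↔ ∀ x, bf hcm χ u x = 1 := Iff.rfl

theorem center_le_rad (hZ : Z ≤ Subgroup.center G) : Subgroup.center G ≤ rad hZ hcm χ := by
  intro u hu x
  unfold bf
  have : (⟨⁅u, x⁆, hcm u x⟩ : Z) = 1 := by
    apply Subtype.ext
    change ⁅u, x⁆ = 1
    rw [commutatorElement_eq_one_iff_mul_comm]
    exact (Subgroup.mem_center_iff.1 hu x).symm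
  rw [this, map_one]

variable (hsq χ) in
noncomputable def TT [Fintype G] : ℤ := ∑ x : G, ((qf hsq χ x : ℤˣ) : ℤ)

theorem TT_sq [Fintype G] (hZ : Z ≤ Subgroup.center G) (hcm : ∀ x y : G, ⁅x, y⁆ ∈ Z) : 
    ((∀ u ∈ rad hZ hcm χ, qf hsq χ u = 1) ∧ (TT hsq χ) ^ 2 = (Nat.card G : ℤ) * (Nat.card (rad hZ hcm χ) : ℤ)) ∨ 
    ((¬ ∀ u ∈ rad hZ hcm χ, qf hsq χ u = 1) ∧ (TT hsq χ) ^ 2 = 0) := by
  classical
  have h1 : (TT hsq χ) ^ 2 = ∑ u : G, ((qf hsq χ u : ℤˣ) : ℤ) * ∑ x : G, ((bf hcm χ u x : ℤˣ) : ℤ) := by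
    unfold TT
    rw [sq, Finset.sum_mul_sum]
    have h2 : ∀ x : G, ∑ y : G, ((qf hsq χ x : ℤˣ) : ℤ) * ((qf hsq χ y : ℤˣ) : ℤ) = ∑ u : G, ((qf hsq χ u : ℤˣ) : ℤ) * ((bf hcm χ u x : ℤˣ) : ℤ) := by
      intro x
      rw [← Equiv.sum_comp (Equiv.mulLeft x)]
      apply Finset.sum_congr rfl
      intro u _
      rw [Equiv.coe_mulLeft, qf_mul (hcm := hcm) hZ]
      have h3 : ((qf hsq χ x : ℤˣ) : ℤ) * ((qf hsq χ x : ℤˣ) : ℤ) = 1 := by
        rw [← Units.val_mul, Int.units_mul_self, Units.val_one]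
      push_cast
      linear_combination ((qf hsq χ u : ℤˣ) : ℤ) * ((bf hcm χ u x : ℤˣ) : ℤ) * h3
    rw [Finset.sum_congr rfl (fun x _ => h2 x), Finset.sum_comm]
    apply Finset.sum_congr rfl
    intro u _
    rw [Finset.mul_sum]
  rw [h1]
  have h2 : ∀ u : G, ∑ x : G, ((bf hcm χ u x : ℤˣ) : ℤ) = if u ∈ rad hZ hcm χ then (Nat.card G : ℤ) else 0 := by
    intro u
    let f : G →* ℤˣ := { toFun := bf hcm χ u, map_one' := bf_one u, map_mul' := bf_mul hZ u }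
    split_ifs with h
    · exact sum_hom_one f h
    · exact sum_hom_zero f h
  have h3 : ∑ u : G, ((qf hsq χ u : ℤˣ) : ℤ) * ∑ x : G, ((bf hcm χ u x : ℤˣ) : ℤ) = (Nat.card G : ℤ) * ∑ u : rad hZ hcm χ, ((qf hsq χ (u : G) : ℤˣ) : ℤ) := by
    rw [Finset.mul_sum]
    rw [Finset.sum_congr rfl (fun u _ => by rw [h2 u])]
    rw [← Finset.sum_subtype (Finset.univ.filter (fun u => u ∈ rad hZ hcm χ)) (fun u => by simp) (fun u => (Nat.card G : ℤ) * ((qf hsq χ u : ℤˣ) : ℤ))]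
    rw [Finset.sum_filter]
    apply Finset.sum_congr rfl
    intro u _
    split_ifs <;> ring
  rw [h3]
  let f : rad hZ hcm χ →* ℤˣ := 
    { toFun := fun u => qf hsq χ (u : G)
      map_one' := by
        unfold qf
        have : (⟨((1 : rad hZ hcm χ) : G) ^ 2, hsq _⟩ : Z) = 1 := Subtype.ext (by simp)
        rw [this, map_one]
      map_mul' := fun x y => by
        rw [Subgroup.coe_mul, qf_mul (hcm := hcm) hZ, (mem_rad hZ).1 y.2, mul_one] }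
  by_cases h : ∀ u ∈ rad hZ hcm χ, qf hsq χ u = 1
  · left
    refine ⟨h, ?_⟩
    have h4 := sum_hom_one f (fun x => h x x.2)
    change _ * (∑ x : rad hZ hcm χ, ((f x : ℤˣ) : ℤ)) = _
    rw [h4]
  · right
    refine ⟨h, ?_⟩
    have h4 := sum_hom_zero f (fun h' => h (fun u hu => h' ⟨u, hu⟩))
    change _ * (∑ x : rad hZ hcm χ, ((f x : ℤˣ) : ℤ)) = _
    rw [h4, mul_zero]

end quad

end CfsgH1
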