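import Mathlib
import Cfsg.Agent.H1.QuadSum
import Cfsg.Agent.H1.Frat
import Cfsg.Prelude.Def_Transfer

set_option autoImplicit false

open Subgroup
open scoped Pointwise commutatorElement

namespace CfsgH1

universe u v

def s2 (a : ZMod 2) : ℤˣ := if a = 0 then 1 else -1

theorem s2_add : ∀ a b : ZMod 2, s2 (a + b) = s2 a * s2 b := by decide

theorem s2_eq_one : ∀ a : ZMod 2, s2 a = 1 ↔ a = 0 := by decide

section
variable {Z : Type u} [CommGroup Z] [Finite Z]

/-- the character of a dual vector -/
def chr [Module (ZMod 2) (Additive Z)] (lam : Module.Dual (ZMod 2) (Additive Z)) : Z →* ℤˣ where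
  toFun z := s2 (lam (Additive.ofMul z))
  map_one' := by rw [ofMul_one, map_zero]; rfl
  map_mul' a b := by rw [ofMul_mul, map_add, s2_add]

theorem chr_apply [Module (ZMod 2) (Additive Z)] (lam : Module.Dual (ZMod 2) (Additive Z)) (z : Z) : chr lam z = s2 (lam (Additive.ofMul z)) := rfl

theorem sum_chr [Module (ZMod 2) (Additive Z)] [Fintype (Module.Dual (ZMod 2) (Additive Z))] (z : Z) [Decidable (z = 1)] : 
    ∑ lam : Module.Dual (ZMod 2) (Additive Z), ((chr lam z : ℤˣ) : ℤ) = if z = 1 then (Nat.card Z : ℤ) else 0 := by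
  classical
  let f : Multiplicative (Module.Dual (ZMod 2) (Additive Z)) →* ℤˣ := 
    { toFun := fun l => chr (Multiplicative.toAdd l) z
      map_one' := by
        rw [toAdd_one, chr_apply]; rfl
      map_mul' := fun a b => by
        rw [toAdd_mul, chr_apply, LinearMap.add_apply, s2_add]; rfl }
  haveI : Finite (Additive Z) := inferInstanceAs (Finite Z)
  haveI : Fintype (Additive Z) := Fintype.ofFinite _
  have hcard : Nat.card (Multiplicative (Module.Dual (ZMod 2) (Additive Z))) = Nat.card Z := by
    have h1 : Nat.card (Multiplicative (Module.Dual (ZMod 2) (Additive Z))) = Nat.card (Module.Dual (ZMod 2) (Additive Z)) := rfl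
    have h2 : Nat.card Z = Nat.card (Additive Z) := rfl
    haveI : FiniteDimensional (ZMod 2) (Additive Z) := Module.Finite.of_finite
    rw [h1, h2, Module.natCard_eq_pow_finrank (K := ZMod 2), Module.natCard_eq_pow_finrank (K := ZMod 2) (V := Additive Z), Subspace.dual_finrank_eq]
  haveI : Fintype (Multiplicative (Module.Dual (ZMod 2) (Additive Z))) := inferInstanceAs (Fintype (Module.Dual (ZMod 2) (Additive Z)))
  have hsum : ∑ lam : Module.Dual (ZMod 2) (Additive Z), ((chr lam z : ℤˣ) : ℤ) = ∑ l : Multiplicative (Module.Dual (ZMod 2) (Additive Z)), ((f l : ℤˣ) : ℤ) := 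
    (Equiv.sum_comp Multiplicative.ofAdd (fun l => ((f l : ℤˣ) : ℤ))).symm ▸ rfl
  rw [hsum]
  split_ifs with h
  · rw [sum_hom_one f (fun l => by subst h; change chr _ 1 = 1; rw [map_one]), hcard]
  · apply sum_hom_zero
    intro hcon
    apply h
    have h1 : Additive.ofMul z = 0 := by
      rw [← Module.forall_dual_apply_eq_zero_iff (ZMod 2)]
      intro l
      exact (s2_eq_one _).1 (hcon (Multiplicative.ofAdd l))
    exact h1

end

end CfsgH1
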