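import Mathlib
import Cfsg.Prelude.Def_KGroupFacts

/-! # Schur multipliers through free presentations -/

set_option autoImplicit false

namespace CfsgH1

open Subgroup Cfsg
open scoped commutatorElement

universe u v w

/-! ## The class of groups with free abelianization -/

/-- the abelianization is free of finite rank -/
def AbFree (E : Type u) [Group E] : Prop :=
  Module.Free ℤ (Additive (Abelianization E)) ∧ Module.Finite ℤ (Additive (Abelianization E))

theorem abFree_of_free (F : Type u) [Group F] [IsFreeGroup F] [Group.FG F] : AbFree F := by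
  constructor
  · let e1 : Abelianization F ≃* Abelianization (FreeGroup (IsFreeGroup.Generators F)) :=
      (IsFreeGroup.toFreeGroup F).abelianizationCongr
    let e2 : Additive (Abelianization F) ≃+ FreeAbelianGroup (IsFreeGroup.Generators F) :=
      MulEquiv.toAdditive e1
    let e3 : Additive (Abelianization F) ≃+ (IsFreeGroup.Generators F →₀ ℤ) :=
      e2.trans (FreeAbelianGroup.equivFinsupp _)
    exact Module.Free.of_equiv e3.toIntLinearEquiv.symm
  · haveI : Group.FG (Abelianization F) := Group.fg_of_surjective (f := (Abelianization.of : F →* _)) QuotientGroup.mk_surjective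
    haveI : AddGroup.FG (Additive (Abelianization F)) := inferInstance
    exact Module.Finite.iff_addGroup_fg.2 inferInstance

theorem abFree_equiv {E₁ : Type u} {E₂ : Type v} [Group E₁] [Group E₂] (e : Abelianization E₁ ≃* Abelianization E₂)
    (h : AbFree E₁) : AbFree E₂ := by
  obtain ⟨h1, h2⟩ := h
  let e2 : Additive (Abelianization E₁) ≃+ Additive (Abelianization E₂) := MulEquiv.toAdditive e
  exact ⟨Module.Free.of_equiv e2.toIntLinearEquiv, Module.Finite.equiv e2.toIntLinearEquiv⟩

/-- splitting lemma -/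
theorem exists_split {E : Type u} [Group E] (hE : AbFree E) (K : Subgroup E) (hK : K ≤ center E) :
    ∃ S : Subgroup E, S ≤ K ∧ S ⊓ commutator E = ⊥ ∧ S ⊔ (K ⊓ commutator E) = K := by
  obtain ⟨h1, h2⟩ := hE
  letI : CommGroup K := { (inferInstance : Group K) with
    mul_comm := by
      intro a b
      apply Subtype.ext
      exact (mem_center_iff.1 (hK a.2) b.1).symm }
  let φ : K →* Abelianization E := Abelianization.of.comp K.subtype
  let φ' : Additive K →+ Additive (Abelianization E) := MonoidHom.toAdditive φ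
  let φ'' : Additive K →ₗ[ℤ] Additive (Abelianization E) := φ'.toIntLinearMap
  haveI : Module.Free ℤ (LinearMap.range φ'') := inferInstance
  obtain ⟨s, hs⟩ := Module.projective_lifting_property φ''.rangeRestrict LinearMap.id φ''.surjective_rangeRestrict
  -- s : range → Additive K
  let ψ : LinearMap.range φ'' →+ Additive K := s.toAddMonoidHom
  have hψ : ∀ x, φ'' (ψ x) = x := by
    intro x
    have := LinearMap.congr_fun hs x
    have h3 := congrArg Subtype.val this
    exact h3
  let T : Subgroup K := AddSubgroup.toSubgroup ψ.range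
  have hT : ∀ k : K, k ∈ T ↔ ∃ x, ψ x = Additive.ofMul k := by
    intro k
    rfl
  have hφ : ∀ k : K, φ'' (Additive.ofMul k) = Additive.ofMul (Abelianization.of (k : E)) := fun k => rfl
  refine ⟨T.map K.subtype, ?_, ?_, ?_⟩
  · rintro _ ⟨k, _, rfl⟩
    exact k.2
  · rw [eq_bot_iff]
    rintro x ⟨⟨k, hk, rfl⟩, hx⟩
    obtain ⟨y, hy⟩ := (hT k).1 hk
    have h3 : φ'' (ψ y) = 0 := by
      rw [hy, hφ]
      have : Abelianization.of (k : E) = 1 := by
        rw [← MonoidHom.mem_ker, Abelianization.ker_of]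
        exact hx
      rw [this]; rfl
    rw [hψ] at h3
    have h4 : y = 0 := Subtype.ext h3
    rw [h4, map_zero] at hy
    rw [mem_bot]
    have : k = 1 := by
      apply Additive.ofMul.injective
      rw [← hy]; rfl
    rw [this]; rfl
  · apply le_antisymm
    · refine sup_le ?_ inf_le_left
      rintro _ ⟨k, _, rfl⟩
      exact k.2
    · intro x hx
      let k : K := ⟨x, hx⟩
      let y : LinearMap.range φ'' := ⟨φ'' (Additive.ofMul k), ⟨_, rfl⟩⟩
      let t : K := Additive.toMul (ψ y)
      have ht : Abelianization.of (t : E) = Abelianization.of (x : E) := by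
        have := hψ y
        exact congrArg Additive.toMul this
      have h3 : (t : E) ∈ T.map K.subtype := ⟨t, (hT t).2 ⟨y, rfl⟩, rfl⟩
      have h4 : (t : E)⁻¹ * x ∈ K ⊓ commutator E := by
        refine ⟨K.mul_mem (K.inv_mem t.2) hx, ?_⟩
        have h6 : (t : E)⁻¹ * x ∈ (Abelianization.of : E →* _).ker := by
          rw [MonoidHom.mem_ker, map_mul, map_inv, ht, inv_mul_cancel]
        rwa [Abelianization.ker_of] at h6
      have h5 := mul_mem (mem_sup_left h3 : (t : E) ∈ T.map K.subtype ⊔ (K ⊓ commutator E)) (mem_sup_right h4)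
      rwa [mul_inv_cancel_left] at h5

/-! ## The universal central extension `F/[F,R]` -/

section E
variable {F : Type u} [Group F] {Q : Type v} [Group Q] (π : F →* Q)

abbrev EE : Type u := F ⧸ (⁅π.ker, (⊤ : Subgroup F)⁆)

theorem comm_le_ker : ⁅π.ker, (⊤ : Subgroup F)⁆ ≤ π.ker := commutator_le_left _ _

def eps : EE π →* Q := QuotientGroup.lift _ π (fun _ hx => comm_le_ker π hx)

theorem eps_mk (x : F) : eps π (QuotientGroup.mk x) = π x := rfl

theorem eps_surj (h : Function.Surjective π) : Function.Surjective (eps π) := by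
  intro q
  obtain ⟨x, rfl⟩ := h q
  exact ⟨QuotientGroup.mk x, rfl⟩

theorem eps_ker_le : (eps π).ker ≤ center (EE π) := by
  intro x hx
  induction x using QuotientGroup.induction_on with
  | H x =>
    rw [mem_center_iff]
    intro g
    induction g using QuotientGroup.induction_on with
    | H g =>
      have hx' : x ∈ π.ker := hx
      have h1 : ⁅x, g⁆ ∈ ⁅π.ker, (⊤ : Subgroup F)⁆ := commutator_mem_commutator hx' (mem_top g)
      rw [← QuotientGroup.eq_one_iff] at h1
      have h2 : ⁅(QuotientGroup.mk x : EE π), (QuotientGroup.mk g : EE π)⁆ = 1 := h1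
      rw [commutatorElement_eq_one_iff_mul_comm] at h2
      exact h2.symm

theorem abFree_EE (h : AbFree F) : AbFree (EE π) := by
  refine abFree_equiv (E₁ := F) ?_ h
  have hle : ⁅π.ker, (⊤ : Subgroup F)⁆ ≤ commutator F := by
    rw [_root_.commutator_def]
    exact commutator_mono le_top le_rfl
  refine
    { toFun := Abelianization.map (QuotientGroup.mk' _)
      invFun := Abelianization.lift (QuotientGroup.lift _ Abelianization.of (by
        intro x hx
        have := hle hx
        rwa [← Abelianization.ker_of] at this))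
      left_inv := ?_
      right_inv := ?_
      map_mul' := map_mul _ }
  · intro x
    obtain ⟨x, rfl⟩ := QuotientGroup.mk_surjective x
    rfl
  · intro x
    obtain ⟨x, rfl⟩ := QuotientGroup.mk_surjective x
    induction x using QuotientGroup.induction_on with
    | H x => rfl

theorem exists_lift [IsFreeGroup F] {Δ : Type w} [Group Δ] (τ : Δ →* Q) (hτ : Function.Surjective τ) :
    ∃ f : F →* Δ, τ.comp f = π := by
  classical
  have h : ∀ x : IsFreeGroup.Generators F, ∃ d : Δ, τ d = π (IsFreeGroup.of x) := fun x => hτ _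
  choose d hd using h
  refine ⟨IsFreeGroup.lift d, ?_⟩
  apply IsFreeGroup.ext_hom
  intro x
  rw [MonoidHom.comp_apply, IsFreeGroup.lift_of, hd]

theorem exists_lift_EE [IsFreeGroup F] {Δ : Type w} [Group Δ] (τ : Δ →* Q) (hτ : Function.Surjective τ)
    (hc : τ.ker ≤ center Δ) :
    ∃ f : EE π →* Δ, τ.comp f = eps π := by
  obtain ⟨f, hf⟩ := exists_lift π τ hτ
  have h1 : ⁅π.ker, (⊤ : Subgroup F)⁆ ≤ f.ker := by
    rw [commutator_le]
    intro x hx y _
    have h2 : f x ∈ τ.ker := by
      rw [MonoidHom.mem_ker, ← MonoidHom.comp_apply, hf]; exact hx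
    rw [MonoidHom.mem_ker, map_commutatorElement, commutatorElement_eq_one_iff_mul_comm]
    exact (mem_center_iff.1 (hc h2) (f y)).symm
  refine ⟨QuotientGroup.lift _ f (fun _ hx => h1 hx), ?_⟩
  ext x
  exact DFunLike.congr_fun hf x

end E

/-! ## general facts on central extensions -/

section Gen
variable {E : Type u} [Group E] {Q : Type v} [Group Q] {Δ : Type w} [Group Δ]

theorem map_commutator_eq {τ : Δ →* Q} (hc : τ.ker ≤ center Δ) {ε : E →* Q} (hε : Function.Surjective ε)
    {f : E →* Δ} (hf : τ.comp f = ε) : (commutator E).map f = commutator Δ := by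
  apply le_antisymm
  · rw [_root_.commutator_def, map_commutator, _root_.commutator_def]
    exact commutator_mono le_top le_top
  · rw [_root_.commutator_def, commutator_le]
    intro x _ y _
    obtain ⟨a, ha⟩ := hε (τ x)
    obtain ⟨b, hb⟩ := hε (τ y)
    have h1 : (f a)⁻¹ * x ∈ center Δ := by
      apply hc
      rw [MonoidHom.mem_ker, map_mul, map_inv, ← MonoidHom.comp_apply, hf, ha, inv_mul_cancel]
    have h2 : (f b)⁻¹ * y ∈ center Δ := by
      apply hc
      rw [MonoidHom.mem_ker, map_mul, map_inv, ← MonoidHom.comp_apply, hf, hb, inv_mul_cancel]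
    have h3 : ⁅x, y⁆ = f ⁅a, b⁆ := by
      obtain ⟨z1, hz1, rfl⟩ : ∃ z ∈ center Δ, x = f a * z := ⟨_, h1, by group⟩
      obtain ⟨z2, hz2, rfl⟩ : ∃ z ∈ center Δ, y = f b * z := ⟨_, h2, by group⟩
      rw [map_commutatorElement]
      have c1 : ∀ g, g * z1 = z1 * g := fun g => mem_center_iff.1 hz1 g
      have c2 : ∀ g, g * z2 = z2 * g := fun g => mem_center_iff.1 hz2 g
      simp only [commutatorElement_def, mul_inv_rev]
      calc f a * z1 * (f b * z2) * (z1⁻¹ * (f a)⁻¹) * (z2⁻¹ * (f b)⁻¹)
          = f a * (z1 * (f b * z2)) * z1⁻¹ * (f a)⁻¹ * (z2⁻¹ * (f b)⁻¹) := by group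
        _ = f a * ((f b * z2) * z1) * z1⁻¹ * (f a)⁻¹ * (z2⁻¹ * (f b)⁻¹) := by rw [← c1]
        _ = f a * (f b * (z2 * (f a)⁻¹)) * (z2⁻¹ * (f b)⁻¹) := by group
        _ = f a * (f b * ((f a)⁻¹ * z2)) * (z2⁻¹ * (f b)⁻¹) := by rw [← c2]
        _ = f a * f b * (f a)⁻¹ * (f b)⁻¹ := by group
    rw [h3]
    refine ⟨_, ?_, rfl⟩
    exact commutator_mem_commutator (mem_top _) (mem_top _)

theorem map_ker_inf {τ : Δ →* Q} (hc : τ.ker ≤ center Δ) {ε : E →* Q} (hε : Function.Surjective ε)
    {f : E →* Δ} (hf : τ.comp f = ε) : (ε.ker ⊓ commutator E).map f = τ.ker ⊓ commutator Δ := by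
  apply le_antisymm
  · rintro _ ⟨x, ⟨hx1, hx2⟩, rfl⟩
    refine ⟨?_, ?_⟩
    · show τ (f x) = 1
      rw [← MonoidHom.comp_apply, hf]; exact hx1
    · rw [← map_commutator_eq hc hε hf]
      exact mem_map_of_mem f hx2
  · rintro x ⟨hx1, hx2⟩
    rw [← map_commutator_eq hc hε hf] at hx2
    obtain ⟨y, hy, rfl⟩ := hx2
    refine ⟨y, ⟨?_, hy⟩, rfl⟩
    show ε y = 1
    rw [← hf]; exact hx1

theorem stem_surj {τ : Δ →* Q} (hτ : IsStemExtension τ) {ε : E →* Q} (hε : Function.Surjective ε)
    {f : E →* Δ} (hf : τ.comp f = ε) : Function.Surjective f := by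
  intro x
  obtain ⟨a, ha⟩ := hε (τ x)
  have h1 : (f a)⁻¹ * x ∈ τ.ker := by
    rw [MonoidHom.mem_ker, map_mul, map_inv, ← MonoidHom.comp_apply, hf, ha, inv_mul_cancel]
  have h2 := hτ.2.2 h1
  rw [← map_commutator_eq hτ.2.1 hε hf] at h2
  obtain ⟨b, _, hb⟩ := h2
  exact ⟨a * b, by rw [map_mul, hb, mul_inv_cancel_left]⟩

theorem finite_commutator_of_center [Finite (E ⧸ center E)] : Finite (commutator E) := by
  classical
  haveI : Finite (commutatorSet E) := by
    have : commutatorSet E ⊆ Set.range (fun p : (E ⧸ center E) × (E ⧸ center E) => ⁅p.1.out, p.2.out⁆) := by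
      rintro _ ⟨x, y, rfl⟩
      refine ⟨(QuotientGroup.mk x, QuotientGroup.mk y), ?_⟩
      have h1 : (QuotientGroup.mk x : E ⧸ center E).out⁻¹ * x ∈ center E := by
        exact QuotientGroup.eq.1 (QuotientGroup.out_eq' _)
      have h2 : (QuotientGroup.mk y : E ⧸ center E).out⁻¹ * y ∈ center E := by
        exact QuotientGroup.eq.1 (QuotientGroup.out_eq' _)
      dsimp only
      generalize (QuotientGroup.mk x : E ⧸ center E).out = a at h1
      generalize (QuotientGroup.mk y : E ⧸ center E).out = b at h2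
      obtain ⟨z1, hz1, rfl⟩ : ∃ z ∈ center E, x = a * z := ⟨_, h1, by group⟩
      obtain ⟨z2, hz2, rfl⟩ : ∃ z ∈ center E, y = b * z := ⟨_, h2, by group⟩
      have c1 : ∀ g, g * z1 = z1 * g := fun g => mem_center_iff.1 hz1 g
      have c2 : ∀ g, g * z2 = z2 * g := fun g => mem_center_iff.1 hz2 g
      simp only [commutatorElement_def, mul_inv_rev]
      symm
      calc a * z1 * (b * z2) * (z1⁻¹ * a⁻¹) * (z2⁻¹ * b⁻¹)
          = a * (z1 * (b * z2)) * z1⁻¹ * a⁻¹ * (z2⁻¹ * b⁻¹) := by group
        _ = a * ((b * z2) * z1) * z1⁻¹ * a⁻¹ * (z2⁻¹ * b⁻¹) := by rw [← c1]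
        _ = a * (b * (z2 * a⁻¹)) * (z2⁻¹ * b⁻¹) := by group
        _ = a * (b * (a⁻¹ * z2)) * (z2⁻¹ * b⁻¹) := by rw [← c2]
        _ = a * b * a⁻¹ * b⁻¹ := by group
    exact Set.Finite.subset (Set.finite_range _) this
  infer_instance

theorem finite_inf [Finite Q] {ε : E →* Q} (hc : ε.ker ≤ center E) : Finite (commutator E) := by
  haveI : Finite (E ⧸ center E) := by
    haveI : Finite (E ⧸ ε.ker) := Finite.of_injective _ (QuotientGroup.kerLift_injective ε)
    exact Finite.of_surjective (QuotientGroup.map ε.ker (center E) (MonoidHom.id E) (fun _ h => hc h)) (by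
      intro x
      induction x using QuotientGroup.induction_on with
      | H x => exact ⟨QuotientGroup.mk x, rfl⟩)
  exact finite_commutator_of_center

end Gen

end CfsgH1
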