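import Mathlib
import Cfsg.Agent.H1.Schur1

/-! # Schur multipliers through free presentations, part 2 -/

set_option autoImplicit false

namespace CfsgH1

open Subgroup Cfsg
open scoped commutatorElement

universe u v w x

section Basic
variable {Q : Type u} [Group Q] {A : Type v} [CommGroup A] {B : Type w} [CommGroup B]

theorem schur_finite (hA : HasSchurMultiplier Q A) : Finite A := by
  obtain ⟨⟨Γ, _, _, σ, _, ⟨e⟩⟩, _⟩ := hA
  exact Finite.of_equiv _ e.toEquiv

theorem schur_unique (hA : HasSchurMultiplier Q A) (hB : HasSchurMultiplier Q B) : Nonempty (A ≃* B) := by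
  haveI := schur_finite hA
  haveI := schur_finite hB
  obtain ⟨⟨Γ, _, _, σ, hσ, ⟨e⟩⟩, hA2⟩ := hA
  obtain ⟨⟨Γ', _, _, σ', hσ', ⟨e'⟩⟩, hB2⟩ := hB
  obtain ⟨p, hp⟩ := hA2 Γ' σ' hσ'
  obtain ⟨q, hq⟩ := hB2 Γ σ hσ
  have h1 : Function.Surjective (e'.toMonoidHom.comp p) := e'.surjective.comp hp
  have h2 : Function.Surjective (e.toMonoidHom.comp q) := e.surjective.comp hq
  have c1 := Nat.card_le_card_of_surjective _ h1
  have c2 := Nat.card_le_card_of_surjective _ h2
  have h3 : Function.Bijective (e'.toMonoidHom.comp p) :=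
    (Nat.bijective_iff_surjective_and_card _).2 ⟨h1, le_antisymm c2 c1⟩
  exact ⟨MulEquiv.ofBijective _ h3⟩

theorem schur_congr (hA : HasSchurMultiplier Q A) (e : A ≃* B) : HasSchurMultiplier Q B := by
  obtain ⟨⟨Γ, _, _, σ, hσ, ⟨e'⟩⟩, hA2⟩ := hA
  refine ⟨⟨Γ, _, ‹_›, σ, hσ, ⟨e'.trans e⟩⟩, ?_⟩
  intro Γ' _ _ σ' hσ'
  obtain ⟨p, hp⟩ := hA2 Γ' σ' hσ'
  exact ⟨p.comp e.symm.toMonoidHom, hp.comp e.symm.surjective⟩

end Basic

section Quot
variable {E : Type u} [Group E] {Q : Type v} [Group Q] {ε : E →* Q}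

theorem normal_of_le_center' {S : Subgroup E} (h : S ≤ center E) : S.Normal := by
  constructor
  intro n hn g
  rw [mem_center_iff.1 (h hn) g, mul_inv_cancel_right]
  exact hn

theorem lift_ker {S : Subgroup E} [S.Normal] (hS : S ≤ ε.ker) :
    (QuotientGroup.lift S ε (fun _ h => hS h)).ker = ε.ker.map (QuotientGroup.mk' S) := by
  ext y
  induction y using QuotientGroup.induction_on with
  | H y =>
    constructor
    · intro h
      exact ⟨y, h, rfl⟩
    · rintro ⟨z, hz, hzy⟩
      rw [← hzy]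
      exact hz

theorem quot_stem (hε : Function.Surjective ε) (hc : ε.ker ≤ center E) {S : Subgroup E} [S.Normal] (hS : S ≤ ε.ker)
    (h2 : ε.ker ≤ S ⊔ commutator E) : IsStemExtension (QuotientGroup.lift S ε (fun _ h => hS h)) := by
  refine ⟨?_, ?_, ?_⟩
  · intro q
    obtain ⟨e, rfl⟩ := hε q
    exact ⟨QuotientGroup.mk e, rfl⟩
  · rw [lift_ker hS]
    rintro _ ⟨z, hz, rfl⟩
    rw [mem_center_iff]
    intro g
    induction g using QuotientGroup.induction_on with
    | H g =>
      have := mem_center_iff.1 (hc hz) g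
      exact congrArg (QuotientGroup.mk' S) this
  · rw [lift_ker hS]
    rintro _ ⟨z, hz, rfl⟩
    have hz2 := h2 hz
    rw [← SetLike.mem_coe, mul_normal] at hz2
    obtain ⟨s, hs, c, hc', rfl⟩ := hz2
    have h3 : QuotientGroup.mk' S (s * c) = QuotientGroup.mk' S c := by
      rw [map_mul, (QuotientGroup.eq_one_iff s).2 hs |> fun h => (h : QuotientGroup.mk' S s = 1), one_mul]
    have h4 : (commutator E).map (QuotientGroup.mk' S) ≤ commutator (E ⧸ S) := by
      rw [_root_.commutator_def, map_commutator, _root_.commutator_def]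
      exact commutator_mono le_top le_top
    have h5 := h4 (mem_map_of_mem (QuotientGroup.mk' S) hc')
    exact h3 ▸ h5

theorem quot_equiv {S : Subgroup E} [S.Normal] (hS : S ≤ ε.ker) (h1 : S ⊓ commutator E = ⊥)
    (h2 : ε.ker ≤ S ⊔ commutator E) :
    Nonempty ((QuotientGroup.lift S ε (fun _ h => hS h)).ker ≃* (ε.ker ⊓ commutator E : Subgroup E)) := by
  let g : (ε.ker ⊓ commutator E : Subgroup E) →* (QuotientGroup.lift S ε (fun _ h => hS h)).ker :=
    ((QuotientGroup.mk' S).comp (ε.ker ⊓ commutator E : Subgroup E).subtype).codRestrict _ (by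
      intro x
      exact x.2.1)
  have hg : Function.Bijective g := by
    constructor
    · rw [injective_iff_map_eq_one]
      intro x hx
      have h3 : QuotientGroup.mk' S (x : E) = 1 := congrArg Subtype.val hx
      have h4 : (x : E) ∈ S := (QuotientGroup.eq_one_iff _).1 h3
      have h5 : (x : E) ∈ S ⊓ commutator E := ⟨h4, x.2.2⟩
      rw [h1, mem_bot] at h5
      exact Subtype.ext h5
    · rintro ⟨y, hy⟩
      induction y using QuotientGroup.induction_on with
      | H y =>
        have hy1 : y ∈ ε.ker := hy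
        have hy2 := h2 hy1
        rw [← SetLike.mem_coe, mul_normal] at hy2
        obtain ⟨s, hs, c, hc', rfl⟩ := hy2
        refine ⟨⟨c, ?_, hc'⟩, ?_⟩
        · have := mul_mem (inv_mem (hS hs)) hy1
          rwa [inv_mul_cancel_left] at this
        · apply Subtype.ext
          show QuotientGroup.mk' S c = QuotientGroup.mk' S (s * c)
          rw [map_mul, (QuotientGroup.eq_one_iff s).2 hs |> fun h => (h : QuotientGroup.mk' S s = 1), one_mul]
  exact ⟨(MulEquiv.ofBijective g hg).symm⟩

theorem finite_of_ker {G : Type u} [Group G] {H : Type v} [Group H] [Finite H] (f : G →* H) (hk : Finite f.ker) :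
    Finite G := by
  haveI : Finite (G ⧸ f.ker) := Finite.of_injective _ (QuotientGroup.kerLift_injective f)
  exact Finite.of_equiv _ (Subgroup.groupEquivQuotientProdSubgroup (s := f.ker)).symm

end Quot

section MM
variable {F : Type u} [Group F] {Q : Type v} [Group Q] (π : F →* Q)

def MM : Subgroup (EE π) := (eps π).ker ⊓ commutator (EE π)

instance : CommGroup (MM π) :=
  { (inferInstance : Group (MM π)) with
    mul_comm := by
      intro a b
      apply Subtype.ext
      exact (mem_center_iff.1 (eps_ker_le π a.2.1) b.1).symm }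

theorem MM_finite [Finite Q] : Finite (MM π) := by
  haveI := finite_inf (eps_ker_le π)
  exact Finite.of_injective (Subgroup.inclusion (inf_le_right : MM π ≤ commutator (EE π))) (Subgroup.inclusion_injective _)

theorem MM_image [IsFreeGroup F] (hπ : Function.Surjective π) {Δ : Type w} [Group Δ] (τ : Δ →* Q)
    (hτ : Function.Surjective τ) (hc : τ.ker ≤ center Δ) :
    ∃ f : EE π →* Δ, τ.comp f = eps π ∧ (MM π).map f = τ.ker ⊓ commutator Δ := by
  obtain ⟨f, hf⟩ := exists_lift_EE π τ hτ hc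
  exact ⟨f, hf, map_ker_inf hc (eps_surj π hπ) hf⟩

/-- a central subgroup with the right properties -/
def Good (S : Subgroup (EE π)) : Prop :=
  S ≤ (eps π).ker ∧ S ⊓ commutator (EE π) = ⊥ ∧ (eps π).ker ≤ S ⊔ commutator (EE π)

theorem exists_good [IsFreeGroup F] [Group.FG F] (K : Subgroup (EE π)) (hK : K ≤ (eps π).ker)
    (h2 : (eps π).ker ≤ K ⊔ commutator (EE π)) : ∃ S, S ≤ K ∧ Good π S := by
  obtain ⟨S, hS1, hS2, hS3⟩ := exists_split (abFree_EE π (abFree_of_free F)) K (hK.trans (eps_ker_le π))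
  refine ⟨S, hS1, hS1.trans hK, hS2, h2.trans ?_⟩
  refine sup_le ?_ le_sup_right
  conv_lhs => rw [← hS3]
  exact sup_le le_sup_left (inf_le_right.trans le_sup_right)

theorem Good.normal {S : Subgroup (EE π)} (h : Good π S) : S.Normal :=
  normal_of_le_center' (h.1.trans (eps_ker_le π))

theorem Good.stem (hπ : Function.Surjective π) {S : Subgroup (EE π)} (h : Good π S) [S.Normal] :
    IsStemExtension (QuotientGroup.lift S (eps π) (fun _ hx => h.1 hx)) :=
  quot_stem (eps_surj π hπ) (eps_ker_le π) h.1 h.2.2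

theorem Good.equiv {S : Subgroup (EE π)} (h : Good π S) [S.Normal] :
    Nonempty ((QuotientGroup.lift S (eps π) (fun _ hx => h.1 hx)).ker ≃* MM π) :=
  quot_equiv h.1 h.2.1 h.2.2

theorem Good.finite [Finite Q] {S : Subgroup (EE π)} (h : Good π S) [S.Normal] : Finite (EE π ⧸ S) := by
  obtain ⟨e⟩ := h.equiv
  haveI := MM_finite π
  haveI : Finite (QuotientGroup.lift S (eps π) (fun _ hx => h.1 hx)).ker := Finite.of_equiv _ e.symm.toEquiv
  exact finite_of_ker _ this

end MM

section Main
variable {F : Type u} [Group F] {Q : Type u} [Group Q] (π : F →* Q)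

theorem hasSchur_MM [Finite Q] [IsFreeGroup F] [Group.FG F] (hπ : Function.Surjective π) :
    HasSchurMultiplier Q (MM π) := by
  constructor
  · obtain ⟨S, _, hS⟩ := exists_good π (eps π).ker le_rfl le_sup_left
    haveI := hS.normal
    exact ⟨EE π ⧸ S, inferInstance, hS.finite, _, hS.stem π hπ, hS.equiv⟩
  · intro Γ _ _ σ hσ
    obtain ⟨f, hf, hf2⟩ := MM_image π hπ σ hσ.1 hσ.2.1
    have h1 : ∀ x : MM π, f x ∈ σ.ker := by
      intro x
      have : f x ∈ (MM π).map f := mem_map_of_mem f x.2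
      rw [hf2] at this
      exact this.1
    refine ⟨(f.comp (MM π).subtype).codRestrict _ h1, ?_⟩
    rintro ⟨y, hy⟩
    have h2 : y ∈ (MM π).map f := by rw [hf2]; exact ⟨hy, hσ.2.2 hy⟩
    obtain ⟨x, hx, rfl⟩ := h2
    exact ⟨⟨x, hx⟩, rfl⟩

end Main

/-! ## The standard presentation -/

section Std
variable (Q : Type u) [Group Q]

def piQ : FreeGroup Q →* Q := FreeGroup.lift id

theorem piQ_surj : Function.Surjective (piQ Q) := by
  intro q
  exact ⟨FreeGroup.of q, by simp [piQ]⟩

theorem freeFG [Finite Q] : Group.FG (FreeGroup Q) := inferInstance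

theorem hasSchur_std [Finite Q] : HasSchurMultiplier Q (MM (piQ Q)) := hasSchur_MM (piQ Q) (piQ_surj Q)

variable {Q}

theorem schur_equiv_MM [Finite Q] {A : Type v} [CommGroup A] (hA : HasSchurMultiplier Q A) :
    Nonempty (A ≃* MM (piQ Q)) := schur_unique hA (hasSchur_std Q)

/-- for every central extension, `ker ∩ Δ'` is an image of the multiplier -/
theorem schur_image [Finite Q] {A : Type v} [CommGroup A] (hA : HasSchurMultiplier Q A) {Δ : Type w} [Group Δ]
    (τ : Δ →* Q) (hτ : Function.Surjective τ) (hc : τ.ker ≤ center Δ) :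
    ∃ g : A →* (τ.ker ⊓ commutator Δ : Subgroup Δ), Function.Surjective g := by
  obtain ⟨e⟩ := schur_equiv_MM hA
  obtain ⟨f, hf, hf2⟩ := MM_image (piQ Q) (piQ_surj Q) τ hτ hc
  have h1 : ∀ x : MM (piQ Q), f x ∈ (τ.ker ⊓ commutator Δ : Subgroup Δ) := by
    intro x
    rw [← hf2]
    exact mem_map_of_mem f x.2
  refine ⟨((f.comp (MM (piQ Q)).subtype).codRestrict _ h1).comp e.toMonoidHom, ?_⟩
  rintro ⟨y, hy⟩
  have h2 : y ∈ (MM (piQ Q)).map f := by rw [hf2]; exact hy
  obtain ⟨x, hx, rfl⟩ := h2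
  exact ⟨e.symm ⟨x, hx⟩, by apply Subtype.ext; simp; rfl⟩

end Std

end CfsgH1
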