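import Mathlib
import Cfsg.Agent.H1.Schur2

/-! # Schur multipliers and projective representations -/

set_option autoImplicit false

namespace CfsgH1

open Subgroup Cfsg
open scoped commutatorElement

universe u v w x

/-- extending homomorphisms into divisible groups -/
theorem extend_hom {E : Type u} [Group E] (S : Subgroup E) (hS : S ⊓ commutator E = ⊥) {Z : Type v} [CommGroup Z]
    (hZ : ∀ (n : ℕ), n ≠ 0 → ∀ z : Z, ∃ y : Z, y ^ n = z) (φ : S →* Z) :
    ∃ μ : E →* Z, ∀ s : S, μ s = φ s := by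
  letI : CommGroup S := { (inferInstance : Group S) with
    mul_comm := by
      intro a b
      have h1 : ⁅(a : E), (b : E)⁆ ∈ S ⊓ commutator E := ⟨by
        rw [commutatorElement_def]
        exact S.mul_mem (S.mul_mem (S.mul_mem a.2 b.2) (S.inv_mem a.2)) (S.inv_mem b.2),
        commutator_mem_commutator (mem_top _) (mem_top _)⟩
      rw [hS, mem_bot, commutatorElement_eq_one_iff_mul_comm] at h1
      exact Subtype.ext h1 }
  letI : DivisibleBy (Additive Z) ℤ := divisibleByOfSMulRightSurj _ _ (by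
    intro n hn z
    obtain ⟨y, hy⟩ := hZ n.natAbs (Int.natAbs_ne_zero.2 hn) (Additive.toMul z)
    rcases Int.natAbs_eq n with h | h
    · refine ⟨Additive.ofMul y, ?_⟩
      show n • Additive.ofMul y = z
      rw [h, natCast_zsmul, ← ofMul_pow, hy]; rfl
    · refine ⟨Additive.ofMul y⁻¹, ?_⟩
      show n • Additive.ofMul y⁻¹ = z
      rw [h, neg_smul, natCast_zsmul, ← ofMul_pow, inv_pow, hy, ofMul_inv, neg_neg]; rfl)
  let i : Additive S →+ Additive (Abelianization E) := MonoidHom.toAdditive (Abelianization.of.comp S.subtype)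
  have hi : Function.Injective i := by
    rw [injective_iff_map_eq_zero]
    intro a ha
    have h1 : Abelianization.of ((Additive.toMul a : S) : E) = 1 := ha
    rw [← MonoidHom.mem_ker, Abelianization.ker_of] at h1
    have h2 : ((Additive.toMul a : S) : E) ∈ S ⊓ commutator E := ⟨(Additive.toMul a : S).2, h1⟩
    rw [hS, mem_bot] at h2
    exact Subtype.ext h2
  obtain ⟨h, hh⟩ := (Module.Baer.of_divisible (Additive Z)).extension_property_addMonoidHom i hi
    (MonoidHom.toAdditive φ)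
  refine ⟨(MonoidHom.toAdditive.symm h).comp Abelianization.of, ?_⟩
  intro s
  exact congrArg Additive.toMul (DFunLike.congr_fun hh (Additive.ofMul s))

theorem comm_mul_center' {Y : Type*} [Group Y] {a b z1 z2 : Y} (h1 : z1 ∈ center Y) (h2 : z2 ∈ center Y) :
    ⁅a * z1, b * z2⁆ = ⁅a, b⁆ := by
  have c1 : ∀ g, g * z1 = z1 * g := fun g => mem_center_iff.1 h1 g
  have c2 : ∀ g, g * z2 = z2 * g := fun g => mem_center_iff.1 h2 g
  simp only [commutatorElement_def, mul_inv_rev]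
  calc a * z1 * (b * z2) * (z1⁻¹ * a⁻¹) * (z2⁻¹ * b⁻¹)
      = a * (z1 * (b * z2)) * z1⁻¹ * a⁻¹ * (z2⁻¹ * b⁻¹) := by group
    _ = a * ((b * z2) * z1) * z1⁻¹ * a⁻¹ * (z2⁻¹ * b⁻¹) := by rw [← c1]
    _ = a * (b * (z2 * a⁻¹)) * (z2⁻¹ * b⁻¹) := by group
    _ = a * (b * (a⁻¹ * z2)) * (z2⁻¹ * b⁻¹) := by rw [← c2]
    _ = a * b * a⁻¹ * b⁻¹ := by group

/-- homomorphisms agreeing modulo the center agree on commutators -/
theorem agree_on_commutator {E : Type u} [Group E] {G : Type v} [Group G] (a b : E →* G)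
    (h : ∀ x, (b x)⁻¹ * a x ∈ center G) : ∀ m ∈ commutator E, a m = b m := by
  have h1 : commutator E ≤ MonoidHom.eqLocus a b := by
    rw [_root_.commutator_def, commutator_le]
    intro x _ y _
    show a ⁅x, y⁆ = b ⁅x, y⁆
    rw [map_commutatorElement, map_commutatorElement]
    have e1 : a x = b x * ((b x)⁻¹ * a x) := by group
    have e2 : a y = b y * ((b y)⁻¹ * a y) := by group
    rw [e1, e2, comm_mul_center' (h x) (h y)]
  exact fun m hm => h1 hm

theorem center_GL_div (n : ℕ) (k : ℕ) (hk : k ≠ 0) (z : center (GL (Fin n) ℂ)) : ∃ y : center (GL (Fin n) ℂ), y ^ k = z := by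
  have hcen := Matrix.GeneralLinearGroup.center_eq_range_scalar (n := Fin n) (R := ℂ)
  have hz : (z : GL (Fin n) ℂ) ∈ (Matrix.GeneralLinearGroup.scalar (R := ℂ) (Fin n)).range := hcen.le z.2
  obtain ⟨a, ha⟩ := hz
  obtain ⟨b, hb⟩ := IsAlgClosed.exists_pow_nat_eq (a : ℂ) (Nat.pos_of_ne_zero hk)
  have hb0 : b ≠ 0 := by
    rintro rfl
    rw [zero_pow hk] at hb
    exact a.ne_zero hb.symm
  refine ⟨⟨Matrix.GeneralLinearGroup.scalar (Fin n) (Units.mk0 b hb0), ?_⟩, ?_⟩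
  · rw [hcen]; exact ⟨_, rfl⟩
  · apply Subtype.ext
    show (Matrix.GeneralLinearGroup.scalar (Fin n) (Units.mk0 b hb0)) ^ k = z
    rw [← ha, ← map_pow]
    congr 1
    apply Units.ext
    simpa using hb

/-- S3955 -/
theorem lift_proj {Q : Type u} [Group Q] [Finite Q] {A : Type v} [CommGroup A] (hA : HasSchurMultiplier Q A)
    {Γ : Type w} [Group Γ] [Finite Γ] (σ : Γ →* Q) (hσ : IsStemExtension σ) (hk : Nonempty (σ.ker ≃* A)) (n : ℕ)
    (γ : Q →* (GL (Fin n) ℂ ⧸ Subgroup.center (GL (Fin n) ℂ))) :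
    ∃ ρ : Γ →* GL (Fin n) ℂ, (QuotientGroup.mk' (Subgroup.center (GL (Fin n) ℂ))).comp ρ = γ.comp σ := by
  -- lift of γ to EE
  let X : Subgroup (Q × GL (Fin n) ℂ) :=
    MonoidHom.eqLocus (γ.comp (MonoidHom.fst _ _)) ((QuotientGroup.mk' (Subgroup.center (GL (Fin n) ℂ))).comp (MonoidHom.snd _ _))
  let τ : X →* Q := (MonoidHom.fst _ _).comp X.subtype
  have hτs : Function.Surjective τ := by
    intro q
    obtain ⟨g, hg⟩ := QuotientGroup.mk'_surjective (Subgroup.center (GL (Fin n) ℂ)) (γ q)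
    exact ⟨⟨(q, g), hg.symm⟩, rfl⟩
  have hτc : τ.ker ≤ center X := by
    rintro ⟨⟨q, g⟩, hX⟩ hx
    have h1 : q = 1 := hx
    subst h1
    have h2 : g ∈ center (GL (Fin n) ℂ) := by
      rw [← QuotientGroup.eq_one_iff]
      have h3 : γ 1 = QuotientGroup.mk' (Subgroup.center (GL (Fin n) ℂ)) g := hX
      rw [map_one] at h3
      exact h3.symm
    rw [mem_center_iff]
    rintro ⟨⟨q', g'⟩, _⟩
    apply Subtype.ext
    apply Prod.ext
    · show q' * 1 = 1 * q'
      rw [mul_one, one_mul]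
    · exact mem_center_iff.1 h2 g'
  obtain ⟨fX, hfX⟩ := exists_lift_EE (piQ Q) τ hτs hτc
  let φ : EE (piQ Q) →* GL (Fin n) ℂ := (MonoidHom.snd _ _).comp (X.subtype.comp fX)
  have hφ : ∀ e, QuotientGroup.mk' (Subgroup.center (GL (Fin n) ℂ)) (φ e) = γ (eps (piQ Q) e) := by
    intro e
    rw [← hfX]
    exact (fX e).2.symm
  obtain ⟨f, hf, hf2⟩ := MM_image (piQ Q) (piQ_surj Q) σ hσ.1 hσ.2.1
  have hfs : Function.Surjective f := stem_surj hσ (eps_surj _ (piQ_surj Q)) hf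
  have hfe : ∀ e, σ (f e) = eps (piQ Q) e := fun e => DFunLike.congr_fun hf e
  have hKle : f.ker ≤ (eps (piQ Q)).ker := by
    intro x hx
    rw [MonoidHom.mem_ker, ← hfe, MonoidHom.mem_ker.1 hx, map_one]
  haveI := MM_finite (piQ Q)
  -- f injective on MM
  have h1 : ∀ x : MM (piQ Q), f x ∈ σ.ker := by
    intro x
    rw [MonoidHom.mem_ker, hfe]
    exact x.2.1
  let fM : MM (piQ Q) →* σ.ker := (f.comp (MM (piQ Q)).subtype).codRestrict _ h1
  have hfMs : Function.Surjective fM := by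
    rintro ⟨y, hy⟩
    have h2 : y ∈ (MM (piQ Q)).map f := by rw [hf2]; exact ⟨hy, hσ.2.2 hy⟩
    obtain ⟨x, hx, rfl⟩ := h2
    exact ⟨⟨x, hx⟩, rfl⟩
  have hfMi : Function.Injective fM := by
    obtain ⟨e1⟩ := hk
    obtain ⟨e2⟩ := schur_equiv_MM hA
    have hc : Nat.card (MM (piQ Q)) = Nat.card σ.ker := by
      rw [Nat.card_congr e1.toEquiv, Nat.card_congr e2.toEquiv]
    exact ((Nat.bijective_iff_surjective_and_card _).2 ⟨hfMs, hc⟩).1
  have hK : f.ker ⊓ commutator (EE (piQ Q)) = ⊥ := by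
    rw [eq_bot_iff]
    rintro x ⟨hx1, hx2⟩
    have h2 : fM ⟨x, hKle hx1, hx2⟩ = fM 1 := by
      apply Subtype.ext
      show f x = f (1 : MM (piQ Q))
      rw [OneMemClass.coe_one, map_one]
      exact hx1
    have h3 := congrArg Subtype.val (hfMi h2)
    exact h3
  -- φ on K is central
  have hφK : ∀ k : f.ker, φ k ∈ center (GL (Fin n) ℂ) := by
    intro k
    rw [← QuotientGroup.eq_one_iff]
    show QuotientGroup.mk' (Subgroup.center (GL (Fin n) ℂ)) (φ k) = 1
    rw [hφ, MonoidHom.mem_ker.1 (hKle k.2), map_one]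
  letI : CommGroup (center (GL (Fin n) ℂ)) := { (inferInstance : Group (center (GL (Fin n) ℂ))) with
    mul_comm := fun a b => Subtype.ext (mem_center_iff.1 b.2 a) }
  obtain ⟨μ, hμ⟩ := extend_hom (Z := center (GL (Fin n) ℂ)) f.ker hK (center_GL_div n) ((φ.comp f.ker.subtype).codRestrict _ hφK)
  let φ' : EE (piQ Q) →* GL (Fin n) ℂ :=
    { toFun := fun e => φ e * ((μ e)⁻¹ : center (GL (Fin n) ℂ))
      map_one' := by simp
      map_mul' := by
        intro a b
        rw [map_mul, map_mul, mul_inv, coe_mul]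
        have h2 := mem_center_iff.1 ((μ a)⁻¹).2 (φ b)
        calc φ a * φ b * (↑(μ a)⁻¹ * ↑(μ b)⁻¹) = φ a * (φ b * ↑(μ a)⁻¹) * ↑(μ b)⁻¹ := by group
          _ = φ a * (↑(μ a)⁻¹ * φ b) * ↑(μ b)⁻¹ := by rw [h2]
          _ = _ := by group }
  have hφ'K : f.ker ≤ φ'.ker := by
    intro k hk'
    have h2 := congrArg Subtype.val (hμ ⟨k, hk'⟩)
    have h3 : ((μ k : center (GL (Fin n) ℂ)) : GL (Fin n) ℂ) = φ k := h2
    show φ k * ((μ k)⁻¹ : center (GL (Fin n) ℂ)) = 1
    rw [InvMemClass.coe_inv, h3, mul_inv_cancel]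
  refine ⟨(f.liftOfSurjective hfs) ⟨φ', hφ'K⟩, ?_⟩
  ext y
  obtain ⟨e, rfl⟩ := hfs y
  rw [MonoidHom.comp_apply, MonoidHom.comp_apply, hfe, ← hφ]
  have h4 : (f.liftOfSurjective hfs) ⟨φ', hφ'K⟩ (f e) = φ' e :=
    MonoidHom.liftOfRightInverse_comp_apply f _ _ ⟨φ', hφ'K⟩ e
  rw [h4]
  show QuotientGroup.mk' (Subgroup.center (GL (Fin n) ℂ)) (φ e * ((μ e)⁻¹ : center (GL (Fin n) ℂ))) = _
  rw [map_mul]
  have h5 : QuotientGroup.mk' (Subgroup.center (GL (Fin n) ℂ)) ((μ e)⁻¹ : center (GL (Fin n) ℂ)) = 1 :=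
    (QuotientGroup.eq_one_iff _).2 ((μ e)⁻¹).2
  rw [h5, mul_one]

end CfsgH1
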