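import Mathlib
import Cfsg.Agent.H1.Schur3

/-! # Schur multipliers: covers and projective representations, part 2 -/

set_option autoImplicit false

namespace CfsgH1

open Subgroup Cfsg
open scoped commutatorElement

universe u v w x

/-- induced representation from a linear character of a central subgroup -/
theorem exists_rep {Δ : Type u} [Group Δ] [Finite Δ] (T : Subgroup Δ) (hT : T ≤ center Δ) (t : Δ) (ht : t ∈ T) (ht1 : t ≠ 1) :
    ∃ (n : ℕ) (D : Δ →* GL (Fin n) ℂ), (∀ s ∈ T, D s ∈ center (GL (Fin n) ℂ)) ∧ D t ≠ 1 := by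
  classical
  letI : CommGroup T := { (inferInstance : Group T) with
    mul_comm := fun a b => Subtype.ext (mem_center_iff.1 (hT b.2) a) }
  obtain ⟨χ, hχ⟩ := CommGroup.exists_apply_ne_one_of_hasEnoughRootsOfUnity T ℂ (a := (⟨t, ht⟩ : T))
    (fun h => ht1 (congrArg Subtype.val h))
  let V : Submodule ℂ (Δ → ℂ) :=
    { carrier := {φ | ∀ (x : Δ) (s : T), φ (x * s) = (χ s : ℂ) * φ x}
      add_mem' := by
        intro a b ha hb x s
        rw [Pi.add_apply, Pi.add_apply, ha, hb, mul_add]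
      zero_mem' := by
        intro x s
        simp
      smul_mem' := by
        intro c a ha x s
        rw [Pi.smul_apply, Pi.smul_apply, ha, smul_eq_mul, smul_eq_mul]
        ring }
  let act : Δ → (V →ₗ[ℂ] V) := fun d =>
    { toFun := fun φ => ⟨fun x => φ.1 (d⁻¹ * x), by
        intro x s
        show φ.1 (d⁻¹ * (x * s)) = _
        rw [← mul_assoc]
        exact φ.2 _ _⟩
      map_add' := fun _ _ => rfl
      map_smul' := fun _ _ => rfl }
  let R : Δ →* Module.End ℂ V :=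
    { toFun := act
      map_one' := by
        ext φ x
        show φ.1 (1⁻¹ * x) = φ.1 x
        rw [inv_one, one_mul]
      map_mul' := by
        intro a b
        ext φ x
        show φ.1 ((a * b)⁻¹ * x) = φ.1 (b⁻¹ * (a⁻¹ * x))
        rw [mul_inv_rev, mul_assoc] }
  have hR : ∀ s : T, R s = ((χ s : ℂ)⁻¹) • (1 : Module.End ℂ V) := by
    intro s
    ext φ x
    show φ.1 ((s : Δ)⁻¹ * x) = (χ s : ℂ)⁻¹ * φ.1 x
    have h1 : (s : Δ)⁻¹ * x = x * ((s⁻¹ : T) : Δ) := by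
      rw [InvMemClass.coe_inv]
      exact (mem_center_iff.1 (inv_mem (hT s.2)) x).symm
    rw [h1, φ.2, map_inv, Units.val_inv_eq_inv_val]
  let φ₀ : V := ⟨fun x => if h : x ∈ T then (χ ⟨x, h⟩ : ℂ) else 0, by
    intro x s
    dsimp only
    by_cases hx : x ∈ T
    · rw [dif_pos hx, dif_pos (T.mul_mem hx s.2)]
      have : (⟨x * s, T.mul_mem hx s.2⟩ : T) = s * ⟨x, hx⟩ := by
        rw [mul_comm]; rfl
      rw [this, map_mul]; rfl
    · rw [dif_neg hx, dif_neg (fun h => hx ((T.mul_mem_cancel_right s.2).1 h)), mul_zero]⟩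
  let b := Module.finBasis ℂ V
  let D : Δ →* GL (Fin (Module.finrank ℂ V)) ℂ :=
    MonoidHom.toHomUnits (((LinearMap.toMatrixAlgEquiv b).toAlgHom : _ →* Matrix _ _ ℂ).comp R)
  have hD : ∀ d, (D d).val = LinearMap.toMatrixAlgEquiv b (R d) := fun d => rfl
  have hDs : ∀ s : T, (D s).val = ((χ s : ℂ)⁻¹) • (1 : Matrix _ _ ℂ) := by
    intro s
    rw [hD, hR, map_smul, map_one]
  refine ⟨_, D, ?_, ?_⟩
  · intro s hs
    rw [mem_center_iff]
    intro g
    apply Units.ext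
    rw [Units.val_mul, Units.val_mul]
    rw [hDs ⟨s, hs⟩, mul_smul_comm, smul_mul_assoc, mul_one, one_mul]
  · intro h
    have h1 : R t = 1 := by
      apply (LinearMap.toMatrixAlgEquiv b).injective
      rw [← hD, h, map_one]; rfl
    have h2 := hR ⟨t, ht⟩
    rw [h1] at h2
    have h3 := LinearMap.congr_fun h2 φ₀
    have h4 : ((χ ⟨t, ht⟩ : ℂ)⁻¹) * φ₀.1 1 = φ₀.1 1 := (congrFun (congrArg Subtype.val h3) 1).symm
    have h5 : φ₀.1 1 = 1 := by
      show (if h : (1 : Δ) ∈ T then (χ ⟨1, h⟩ : ℂ) else 0) = 1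
      rw [dif_pos T.one_mem]
      have : (⟨1, T.one_mem⟩ : T) = 1 := rfl
      rw [this, map_one, Units.val_one]
    rw [h5, mul_one] at h4
    apply hχ
    apply Units.ext
    rw [Units.val_one, ← inv_inv (χ ⟨t, ht⟩ : ℂ), h4, inv_one]

/-- S3956 -/
theorem cover_of_lift {Q : Type u} [Group Q] [Finite Q] {Γ : Type v} [Group Γ] [Finite Γ] (σ : Γ →* Q)
    (hσ : IsStemExtension σ)
    (hlift : ∀ (n : ℕ) (γ : Q →* (GL (Fin n) ℂ ⧸ Subgroup.center (GL (Fin n) ℂ))), ∃ ρ : Γ →* GL (Fin n) ℂ,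
      (QuotientGroup.mk' (Subgroup.center (GL (Fin n) ℂ))).comp ρ = γ.comp σ)
    (Δ : Type w) [Group Δ] [Finite Δ] (τ : Δ →* Q) (hτ : IsStemExtension τ) :
    ∃ π : σ.ker →* τ.ker, Function.Surjective π := by
  obtain ⟨f, hf, hf2⟩ := MM_image (piQ Q) (piQ_surj Q) σ hσ.1 hσ.2.1
  obtain ⟨g, hg, hg2⟩ := MM_image (piQ Q) (piQ_surj Q) τ hτ.1 hτ.2.1
  have hfe : ∀ e, σ (f e) = eps (piQ Q) e := fun e => DFunLike.congr_fun hf e
  have hge : ∀ e, τ (g e) = eps (piQ Q) e := fun e => DFunLike.congr_fun hg e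
  have h1 : ∀ x : MM (piQ Q), f x ∈ σ.ker := by
    intro x
    rw [MonoidHom.mem_ker, hfe]
    exact x.2.1
  have h1' : ∀ x : MM (piQ Q), g x ∈ τ.ker := by
    intro x
    rw [MonoidHom.mem_ker, hge]
    exact x.2.1
  let fM : MM (piQ Q) →* σ.ker := (f.comp (MM (piQ Q)).subtype).codRestrict _ h1
  let gM : MM (piQ Q) →* τ.ker := (g.comp (MM (piQ Q)).subtype).codRestrict _ h1'
  have hfMs : Function.Surjective fM := by
    rintro ⟨y, hy⟩
    have h2 : y ∈ (MM (piQ Q)).map f := by rw [hf2]; exact ⟨hy, hσ.2.2 hy⟩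
    obtain ⟨x, hx, rfl⟩ := h2
    exact ⟨⟨x, hx⟩, rfl⟩
  have hgMs : Function.Surjective gM := by
    rintro ⟨y, hy⟩
    have h2 : y ∈ (MM (piQ Q)).map g := by rw [hg2]; exact ⟨hy, hτ.2.2 hy⟩
    obtain ⟨x, hx, rfl⟩ := h2
    exact ⟨⟨x, hx⟩, rfl⟩
  have hle : fM.ker ≤ gM.ker := by
    intro m hm
    have hm' : f m = 1 := congrArg Subtype.val hm
    by_contra hne
    have hne' : g m ≠ 1 := by
      intro h
      exact hne (Subtype.ext h)
    obtain ⟨n, D, hD1, hD2⟩ := exists_rep τ.ker hτ.2.1 (g m) (h1' m) hne'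
    have hDle : τ.ker ≤ ((QuotientGroup.mk' (Subgroup.center (GL (Fin n) ℂ))).comp D).ker := by
      intro s hs
      exact (QuotientGroup.eq_one_iff _).2 (hD1 s hs)
    let γ := (τ.liftOfSurjective hτ.1) ⟨(QuotientGroup.mk' (Subgroup.center (GL (Fin n) ℂ))).comp D, hDle⟩
    have hγ : ∀ d, γ (τ d) = QuotientGroup.mk' (Subgroup.center (GL (Fin n) ℂ)) (D d) := by
      intro d
      exact MonoidHom.liftOfRightInverse_comp_apply τ _ _ ⟨_, hDle⟩ d
    obtain ⟨ρ, hρ⟩ := hlift n γ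
    have h3 := agree_on_commutator (D.comp g) (ρ.comp f) (by
      intro x
      have e1 : QuotientGroup.mk' (Subgroup.center (GL (Fin n) ℂ)) (D (g x)) =
          QuotientGroup.mk' (Subgroup.center (GL (Fin n) ℂ)) (ρ (f x)) := by
        have e2 := DFunLike.congr_fun hρ (f x)
        rw [MonoidHom.comp_apply, MonoidHom.comp_apply] at e2
        rw [e2, ← hγ, hge, hfe]
      exact QuotientGroup.eq.1 e1.symm) m m.2.2
    rw [MonoidHom.comp_apply, MonoidHom.comp_apply, hm', map_one] at h3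
    exact hD2 h3
  refine ⟨(fM.liftOfSurjective hfMs) ⟨gM, hle⟩, ?_⟩
  intro y
  obtain ⟨x, rfl⟩ := hgMs y
  exact ⟨fM x, MonoidHom.liftOfRightInverse_comp_apply fM _ _ ⟨gM, hle⟩ x⟩

/-- S3957 -/
theorem cover_over {Q : Type u} [Group Q] [Finite Q] {A : Type v} [CommGroup A] (hA : HasSchurMultiplier Q A)
    {Δ : Type u} [Group Δ] [Finite Δ] (τ : Δ →* Q) (hτ : IsStemExtension τ) :
    ∃ (Γ : Type u) (_ : Group Γ) (_ : Finite Γ) (σ : Γ →* Q), IsStemExtension σ ∧ Nonempty (σ.ker ≃* A) ∧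
      ∃ β : Γ →* Δ, Function.Surjective β ∧ τ.comp β = σ := by
  obtain ⟨f, hf, hf2⟩ := MM_image (piQ Q) (piQ_surj Q) τ hτ.1 hτ.2.1
  have hfe : ∀ e, τ (f e) = eps (piQ Q) e := fun e => DFunLike.congr_fun hf e
  have hfs : Function.Surjective f := stem_surj hτ (eps_surj _ (piQ_surj Q)) hf
  have hKle : f.ker ≤ (eps (piQ Q)).ker := by
    intro x hx
    rw [MonoidHom.mem_ker, ← hfe, MonoidHom.mem_ker.1 hx, map_one]
  have h2 : (eps (piQ Q)).ker ≤ f.ker ⊔ commutator (EE (piQ Q)) := by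
    intro x hx
    have h3 : f x ∈ (MM (piQ Q)).map f := by
      rw [hf2]
      have h4 : f x ∈ τ.ker := by rw [MonoidHom.mem_ker, hfe]; exact hx
      exact ⟨h4, hτ.2.2 h4⟩
    obtain ⟨m, hm, hmx⟩ := h3
    have h5 : x * m⁻¹ ∈ f.ker := by
      rw [MonoidHom.mem_ker, map_mul, map_inv, hmx, mul_inv_cancel]
    have h6 := mul_mem (mem_sup_left h5 : x * m⁻¹ ∈ f.ker ⊔ commutator (EE (piQ Q))) (mem_sup_right hm.2)
    rwa [inv_mul_cancel_right] at h6
  obtain ⟨S, hS1, hS⟩ := exists_good (piQ Q) f.ker hKle h2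
  haveI := hS.normal
  obtain ⟨e1⟩ := hS.equiv
  obtain ⟨e2⟩ := schur_equiv_MM hA
  refine ⟨EE (piQ Q) ⧸ S, inferInstance, hS.finite, _, hS.stem _ (piQ_surj Q), ⟨e1.trans e2.symm⟩,
    QuotientGroup.lift S f (fun x hx => hS1 hx), ?_, ?_⟩
  · intro y
    obtain ⟨x, rfl⟩ := hfs y
    exact ⟨QuotientGroup.mk x, rfl⟩
  · ext x
    exact hfe _

/-- S3958 -/
theorem cover_of_trivial {Q : Type u} [Group Q] [Finite Q] {Γ : Type v} [Group Γ] [Finite Γ] (σ : Γ →* Q)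
    (hσ : IsStemExtension σ) (hΓ : HasCyclicSchurMultiplier Γ 1) (Δ : Type w) [Group Δ] [Finite Δ] (τ : Δ →* Q)
    (hτ : IsStemExtension τ) : ∃ π : σ.ker →* τ.ker, Function.Surjective π := by
  obtain ⟨f, hf, hf2⟩ := MM_image (piQ Q) (piQ_surj Q) σ hσ.1 hσ.2.1
  obtain ⟨g, hg, hg2⟩ := MM_image (piQ Q) (piQ_surj Q) τ hτ.1 hτ.2.1
  have hfe : ∀ e, σ (f e) = eps (piQ Q) e := fun e => DFunLike.congr_fun hf e
  have hge : ∀ e, τ (g e) = eps (piQ Q) e := fun e => DFunLike.congr_fun hg e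
  have hfs : Function.Surjective f := stem_surj hσ (eps_surj _ (piQ_surj Q)) hf
  have hKle : f.ker ≤ (eps (piQ Q)).ker := by
    intro x hx
    rw [MonoidHom.mem_ker, ← hfe, MonoidHom.mem_ker.1 hx, map_one]
  obtain ⟨p, hp⟩ := schur_image hΓ f hfs (hKle.trans (eps_ker_le _))
  have hbot : f.ker ⊓ commutator (EE (piQ Q)) = ⊥ := by
    rw [eq_bot_iff]
    intro x hx
    obtain ⟨a, ha⟩ := hp ⟨x, hx⟩
    have ha1 : a = 1 := Subsingleton.elim (α := ZMod 1) _ _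
    rw [ha1, map_one] at ha
    exact (congrArg Subtype.val ha).symm
  have h1 : ∀ x : MM (piQ Q), f x ∈ σ.ker := by
    intro x
    rw [MonoidHom.mem_ker, hfe]
    exact x.2.1
  have h1' : ∀ x : MM (piQ Q), g x ∈ τ.ker := by
    intro x
    rw [MonoidHom.mem_ker, hge]
    exact x.2.1
  let fM : MM (piQ Q) →* σ.ker := (f.comp (MM (piQ Q)).subtype).codRestrict _ h1
  let gM : MM (piQ Q) →* τ.ker := (g.comp (MM (piQ Q)).subtype).codRestrict _ h1'
  have hfMs : Function.Surjective fM := by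
    rintro ⟨y, hy⟩
    have h2 : y ∈ (MM (piQ Q)).map f := by rw [hf2]; exact ⟨hy, hσ.2.2 hy⟩
    obtain ⟨x, hx, rfl⟩ := h2
    exact ⟨⟨x, hx⟩, rfl⟩
  have hgMs : Function.Surjective gM := by
    rintro ⟨y, hy⟩
    have h2 : y ∈ (MM (piQ Q)).map g := by rw [hg2]; exact ⟨hy, hτ.2.2 hy⟩
    obtain ⟨x, hx, rfl⟩ := h2
    exact ⟨⟨x, hx⟩, rfl⟩
  have hle : fM.ker ≤ gM.ker := by
    intro m hm
    have hm' : f m = 1 := congrArg Subtype.val hm
    have h3 : (m : EE (piQ Q)) ∈ f.ker ⊓ commutator (EE (piQ Q)) := ⟨hm', m.2.2⟩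
    rw [hbot, mem_bot] at h3
    have h4 : m = 1 := Subtype.ext h3
    rw [h4]
    exact one_mem _
  refine ⟨(fM.liftOfSurjective hfMs) ⟨gM, hle⟩, ?_⟩
  intro y
  obtain ⟨x, rfl⟩ := hgMs y
  exact ⟨fM x, MonoidHom.liftOfRightInverse_comp_apply fM _ _ ⟨gM, hle⟩ x⟩

end CfsgH1
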