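import Mathlib
import Cfsg.Agent.H1.Schur4

/-! # Schur multipliers: uniqueness of covers -/

set_option autoImplicit false

namespace CfsgH1

open Subgroup Cfsg
open scoped commutatorElement

universe u v w x

theorem cover_data {Q : Type u} [Group Q] [Finite Q] {A : Type v} [CommGroup A] (hA : HasSchurMultiplier Q A)
    {Γ : Type w} [Group Γ] [Finite Γ] (σ : Γ →* Q) (hσ : IsStemExtension σ) (hk : Nonempty (σ.ker ≃* A)) :
    ∃ f : EE (piQ Q) →* Γ, (∀ e, σ (f e) = eps (piQ Q) e) ∧ Function.Surjective f ∧ Good (piQ Q) f.ker := by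
  obtain ⟨f, hf, hf2⟩ := MM_image (piQ Q) (piQ_surj Q) σ hσ.1 hσ.2.1
  have hfs : Function.Surjective f := stem_surj hσ (eps_surj _ (piQ_surj Q)) hf
  have hfe : ∀ e, σ (f e) = eps (piQ Q) e := fun e => DFunLike.congr_fun hf e
  have hKle : f.ker ≤ (eps (piQ Q)).ker := by
    intro x hx
    rw [MonoidHom.mem_ker, ← hfe, MonoidHom.mem_ker.1 hx, map_one]
  haveI := MM_finite (piQ Q)
  have h1 : ∀ x : MM (piQ Q), f x ∈ σ.ker := by
    intro x
    rw [MonoidHom.mem_ker, hfe]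
    exact x.2.1
  let fM : MM (piQ Q) →* σ.ker := (f.comp (MM (piQ Q)).subtype).codRestrict _ h1
  have hfMs : Function.Surjective fM := by
    rintro ⟨y, hy⟩
    have h2 : y ∈ (MM (piQ Q)).map f := by rw [hf2]; exact ⟨hy, hσ.2.2 hy⟩
    obtain ⟨x, hx, rfl⟩ := h2
    exact ⟨⟨x, hx⟩, rfl⟩
  have hfMi : Function.Injective fM := by
    obtain ⟨e1⟩ := hk
    obtain ⟨e2⟩ := schur_equiv_MM hA
    have hc : Nat.card (MM (piQ Q)) = Nat.card σ.ker := by
      rw [Nat.card_congr e1.toEquiv, Nat.card_congr e2.toEquiv]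
    exact ((Nat.bijective_iff_surjective_and_card _).2 ⟨hfMs, hc⟩).1
  have hK : f.ker ⊓ commutator (EE (piQ Q)) = ⊥ := by
    rw [eq_bot_iff]
    rintro x ⟨hx1, hx2⟩
    have h2 : fM ⟨x, hKle hx1, hx2⟩ = fM 1 := by
      apply Subtype.ext
      show f x = f (1 : MM (piQ Q))
      rw [OneMemClass.coe_one, map_one]
      exact hx1
    have h3 := congrArg Subtype.val (hfMi h2)
    exact h3
  refine ⟨f, hfe, hfs, hKle, hK, ?_⟩
  intro x hx
  have h3 : f x ∈ (MM (piQ Q)).map f := by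
    rw [hf2]
    have h4 : f x ∈ σ.ker := by rw [MonoidHom.mem_ker, hfe]; exact hx
    exact ⟨h4, hσ.2.2 h4⟩
  obtain ⟨m, hm, hmx⟩ := h3
  have h5 : x * m⁻¹ ∈ f.ker := by
    rw [MonoidHom.mem_ker, map_mul, map_inv, hmx, mul_inv_cancel]
  have h6 := mul_mem (mem_sup_left h5 : x * m⁻¹ ∈ f.ker ⊔ commutator (EE (piQ Q))) (mem_sup_right hm.2)
  rwa [inv_mul_cancel_right] at h6

theorem inv_modEq_aux {k n : ℕ} (h : Nat.Coprime k n) : ∃ m : ℕ, k * m ≡ 1 [MOD n] := by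
  rcases Nat.eq_zero_or_pos n with hn | hn
  · subst hn
    rw [Nat.coprime_zero_right] at h
    exact ⟨1, by rw [h]⟩
  · obtain ⟨m, hm⟩ := Int.mod_coprime h
    refine ⟨(m % n).toNat, ?_⟩
    have h0 : 0 ≤ m % (n : ℤ) := Int.emod_nonneg _ (by exact_mod_cast hn.ne')
    rw [← Int.natCast_modEq_iff]
    push_cast
    rw [Int.toNat_of_nonneg h0]
    exact ((Int.ModEq.refl _).mul (Int.mod_modEq m n)).trans hm

theorem card_cover {Q : Type u} [Group Q] [Finite Q] {Γ : Type w} [Group Γ] [Finite Γ] (σ : Γ →* Q)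
    (hσ : Function.Surjective σ) : Nat.card Γ = Nat.card Q * Nat.card σ.ker := by
  rw [Subgroup.card_eq_card_quotient_mul_card_subgroup σ.ker,
    Nat.card_congr (QuotientGroup.quotientKerEquivOfSurjective σ hσ).toEquiv]

/-- an element of `E` dying in `Q^ab` lies in `S ⊔ E'` -/
theorem Good.mem_of_ab {Q : Type u} [Group Q] {S : Subgroup (EE (piQ Q))} (hS : Good (piQ Q) S) (x : EE (piQ Q))
    (hx : (Abelianization.of (eps (piQ Q) x) : Abelianization Q) = 1) : x ∈ S ⊔ commutator (EE (piQ Q)) := by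
  rw [← MonoidHom.mem_ker, Abelianization.ker_of] at hx
  have h1 : (commutator (EE (piQ Q))).map (eps (piQ Q)) = commutator Q := by
    rw [_root_.commutator_def, map_commutator, Subgroup.map_top_of_surjective _ (eps_surj _ (piQ_surj Q)),
      ← _root_.commutator_def]
  rw [← h1] at hx
  obtain ⟨c, hc, hcx⟩ := hx
  have h2 : x * c⁻¹ ∈ (eps (piQ Q)).ker := by
    rw [MonoidHom.mem_ker, map_mul, map_inv, hcx, mul_inv_cancel]
  have h3 := mul_mem (hS.2.2 h2) (mem_sup_right hc)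
  rwa [inv_mul_cancel_right] at h3

theorem covers_iso_of_coprime {Q : Type u} [Group Q] [Finite Q] {A : Type v} [CommGroup A] (hA : HasSchurMultiplier Q A)
    (hcop : Nat.Coprime (Nat.card (Abelianization Q)) (Nat.card A))
    {Γ₁ : Type w} {Γ₂ : Type x} [Group Γ₁] [Finite Γ₁] [Group Γ₂] [Finite Γ₂] (σ₁ : Γ₁ →* Q) (σ₂ : Γ₂ →* Q)
    (h₁ : IsStemExtension σ₁) (h₂ : IsStemExtension σ₂) (hk₁ : Nonempty (σ₁.ker ≃* A)) (hk₂ : Nonempty (σ₂.ker ≃* A)) :
    ∃ e : Γ₁ ≃* Γ₂, σ₂.comp e.toMonoidHom = σ₁ := by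
  classical
  obtain ⟨f₁, hf₁, hs₁, hg₁⟩ := cover_data hA σ₁ h₁ hk₁
  obtain ⟨f₂, hf₂, hs₂, hg₂⟩ := cover_data hA σ₂ h₂ hk₂
  haveI := schur_finite hA
  letI : CommGroup σ₂.ker := { (inferInstance : Group σ₂.ker) with
    mul_comm := fun a b => Subtype.ext (mem_center_iff.1 (h₂.2.1 b.2) a) }
  set k := Nat.card (Abelianization Q) with hkdef
  have hcard : Nat.card σ₂.ker = Nat.card A := Nat.card_congr hk₂.some.toEquiv
  -- I
  let I : Subgroup (Abelianization (EE (piQ Q))) := f₁.ker.map Abelianization.of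
  let j : f₁.ker →* I := Abelianization.of.subgroupMap f₁.ker
  have hj : Function.Bijective j := by
    refine ⟨?_, MonoidHom.subgroupMap_surjective _ _⟩
    rw [injective_iff_map_eq_one]
    intro a ha
    have h3 : Abelianization.of (a : EE (piQ Q)) = 1 := congrArg Subtype.val ha
    rw [← MonoidHom.mem_ker, Abelianization.ker_of] at h3
    have h4 : (a : EE (piQ Q)) ∈ f₁.ker ⊓ commutator (EE (piQ Q)) := ⟨a.2, h3⟩
    rw [hg₁.2.1, mem_bot] at h4
    exact Subtype.ext h4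
  let e₁ : f₁.ker ≃* I := MulEquiv.ofBijective j hj
  have hPmem : ∀ e : EE (piQ Q), ((powMonoidHom k).comp Abelianization.of) e ∈ I := by
    intro e
    have h3 : e ^ k ∈ f₁.ker ⊔ commutator (EE (piQ Q)) := by
      apply hg₁.mem_of_ab
      rw [map_pow, map_pow]
      exact pow_card_eq_one'
    rw [← SetLike.mem_coe, mul_normal] at h3
    obtain ⟨s, hs, c, hc, hsc⟩ := h3
    refine ⟨s, hs, ?_⟩
    show Abelianization.of s = (Abelianization.of e) ^ k
    rw [← map_pow, ← hsc]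
    dsimp only
    have h5 : Abelianization.of c = 1 := by
      rw [← MonoidHom.mem_ker, Abelianization.ker_of]; exact hc
    rw [map_mul, h5, mul_one]
  let P : EE (piQ Q) →* I := ((powMonoidHom k).comp Abelianization.of).codRestrict I hPmem
  have h6 : ∀ x : f₁.ker, f₂ x ∈ σ₂.ker := by
    intro x
    rw [MonoidHom.mem_ker, hf₂]
    exact hg₁.1 x.2
  let r : f₁.ker →* σ₂.ker := (f₂.comp f₁.ker.subtype).codRestrict _ h6
  obtain ⟨k', hk'⟩ : ∃ k' : ℕ, ∀ y : σ₂.ker, (y ^ k) ^ k' = y := by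
    obtain ⟨m, hm⟩ := inv_modEq_aux hcop
    refine ⟨m, fun y => ?_⟩
    have h7 : y ^ Nat.card A = 1 := by rw [← hcard]; exact pow_card_eq_one'
    rw [← pow_mul]
    have h8 : y ^ (k * m) = y ^ 1 := pow_eq_pow_iff_modEq.2
      (Nat.ModEq.of_dvd (orderOf_dvd_of_pow_eq_one h7) hm)
    rw [h8, pow_one]
  let θ : EE (piQ Q) →* σ₂.ker := (powMonoidHom k').comp (r.comp (e₁.symm.toMonoidHom.comp P))
  have hθ : ∀ s : f₁.ker, θ s = r s := by
    intro s
    have h7 : e₁.symm (P s) = s ^ k := by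
      rw [MulEquiv.symm_apply_eq, map_pow]
      apply Subtype.ext
      rfl
    show (r (e₁.symm (P s))) ^ k' = r s
    rw [h7, map_pow, hk']
  let φ' : EE (piQ Q) →* Γ₂ :=
    { toFun := fun e => f₂ e * ((θ e)⁻¹ : σ₂.ker)
      map_one' := by simp
      map_mul' := by
        intro a b
        rw [map_mul, map_mul, mul_inv, coe_mul]
        have h2 := mem_center_iff.1 (h₂.2.1 ((θ a)⁻¹).2) (f₂ b)
        calc f₂ a * f₂ b * (↑(θ a)⁻¹ * ↑(θ b)⁻¹) = f₂ a * (f₂ b * ↑(θ a)⁻¹) * ↑(θ b)⁻¹ := by group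
          _ = f₂ a * (↑(θ a)⁻¹ * f₂ b) * ↑(θ b)⁻¹ := by rw [h2]
          _ = _ := by group }
  have hφ'K : f₁.ker ≤ φ'.ker := by
    intro s hs
    show f₂ s * ((θ s)⁻¹ : σ₂.ker) = 1
    have := congrArg Subtype.val (hθ ⟨s, hs⟩)
    have h3 : ((θ s : σ₂.ker) : Γ₂) = f₂ s := this
    rw [InvMemClass.coe_inv, h3, mul_inv_cancel]
  let e := (f₁.liftOfSurjective hs₁) ⟨φ', hφ'K⟩
  have he : ∀ x, e (f₁ x) = φ' x := fun x => MonoidHom.liftOfRightInverse_comp_apply f₁ _ _ ⟨φ', hφ'K⟩ x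
  have hσe : σ₂.comp e = σ₁ := by
    ext y
    obtain ⟨x, rfl⟩ := hs₁ y
    rw [MonoidHom.comp_apply, he, hf₁]
    show σ₂ (f₂ x * ((θ x)⁻¹ : σ₂.ker)) = _
    rw [map_mul, hf₂, MonoidHom.mem_ker.1 ((θ x)⁻¹).2, mul_one]
  have hes : Function.Surjective e := stem_surj h₂ h₁.1 hσe
  have hcc : Nat.card Γ₁ = Nat.card Γ₂ := by
    rw [card_cover σ₁ h₁.1, card_cover σ₂ h₂.1, Nat.card_congr hk₁.some.toEquiv, Nat.card_congr hk₂.some.toEquiv]
  exact ⟨MulEquiv.ofBijective e ((Nat.bijective_iff_surjective_and_card _).2 ⟨hes, hcc⟩), hσe⟩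

theorem coprime_of_covers_iso {Q : Type u} [Group Q] [Finite Q] {A : Type v} [CommGroup A] (hA : HasSchurMultiplier Q A)
    (H : ∀ (Γ₁ Γ₂ : Type u) [Group Γ₁] [Finite Γ₁] [Group Γ₂] [Finite Γ₂] (σ₁ : Γ₁ →* Q) (σ₂ : Γ₂ →* Q),
      IsStemExtension σ₁ → IsStemExtension σ₂ → Nonempty (σ₁.ker ≃* A) → Nonempty (σ₂.ker ≃* A) →
      ∃ e : Γ₁ ≃* Γ₂, σ₂.comp e.toMonoidHom = σ₁) :
    Nat.Coprime (Nat.card (Abelianization Q)) (Nat.card A) := by
  classical
  by_contra hnc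
  obtain ⟨p, hp, hp1, hp2⟩ := Nat.Prime.not_coprime_iff_dvd.1 hnc
  haveI : Fact p.Prime := ⟨hp⟩
  haveI := schur_finite hA
  haveI := MM_finite (piQ Q)
  obtain ⟨eA⟩ := schur_equiv_MM hA
  obtain ⟨S₁, _, hS₁⟩ := exists_good (piQ Q) (eps (piQ Q)).ker le_rfl le_sup_left
  haveI := hS₁.normal
  obtain ⟨hF1, hF2⟩ := abFree_EE (piQ Q) (abFree_of_free (FreeGroup Q))
  letI : CommGroup S₁ := { (inferInstance : Group S₁) with
    mul_comm := fun a b => Subtype.ext (mem_center_iff.1 (eps_ker_le _ (hS₁.1 b.2)) a) }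
  let φ : Additive S₁ →ₗ[ℤ] Additive (Abelianization (EE (piQ Q))) :=
    (MonoidHom.toAdditive (Abelianization.of.comp S₁.subtype)).toIntLinearMap
  have hφ : ∀ s : S₁, φ (Additive.ofMul s) = Additive.ofMul (Abelianization.of (s : EE (piQ Q))) := fun s => rfl
  have hφi : Function.Injective φ := by
    rw [injective_iff_map_eq_zero]
    intro a ha
    have h1 : Abelianization.of ((Additive.toMul a : S₁) : EE (piQ Q)) = 1 := ha
    rw [← MonoidHom.mem_ker, Abelianization.ker_of] at h1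
    have h2 : ((Additive.toMul a : S₁) : EE (piQ Q)) ∈ S₁ ⊓ commutator _ := ⟨(Additive.toMul a : S₁).2, h1⟩
    rw [hS₁.2.1, mem_bot] at h2
    exact Subtype.ext h2
  haveI : Module.Free ℤ (Additive S₁) := Module.Free.of_equiv (LinearEquiv.ofInjective φ hφi).symm
  haveI : Module.Finite ℤ (Additive S₁) := Module.Finite.equiv (LinearEquiv.ofInjective φ hφi).symm
  let b := Module.Free.chooseBasis ℤ (Additive S₁)
  obtain ⟨q, hq⟩ := exists_prime_orderOf_dvd_card' (G := Abelianization Q) p hp1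
  obtain ⟨q', rfl⟩ := QuotientGroup.mk_surjective q
  obtain ⟨x, rfl⟩ := eps_surj (piQ Q) (piQ_surj Q) q'
  have hxp : x ^ p ∈ S₁ ⊔ commutator (EE (piQ Q)) := by
    apply hS₁.mem_of_ab
    rw [map_pow, map_pow]
    have h1 := pow_orderOf_eq_one (Abelianization.of (eps (piQ Q) x))
    have h2 : orderOf (Abelianization.of (eps (piQ Q) x)) = p := hq
    rwa [h2] at h1
  rw [← SetLike.mem_coe, mul_normal] at hxp
  obtain ⟨s, hs, c, hc, hsc⟩ := hxp
  dsimp only at hsc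
  have hcAb : Abelianization.of c = 1 := by
    rw [← MonoidHom.mem_ker, Abelianization.ker_of]; exact hc
  obtain ⟨i, hi⟩ : ∃ i, ¬ ((p : ℤ) ∣ b.equivFun (Additive.ofMul (⟨s, hs⟩ : S₁)) i) := by
    by_contra hall
    push_neg at hall
    let t : Additive S₁ := b.equivFun.symm (fun i => b.equivFun (Additive.ofMul (⟨s, hs⟩ : S₁)) i / p)
    have ht : (p : ℤ) • t = Additive.ofMul (⟨s, hs⟩ : S₁) := by
      apply b.equivFun.injective
      rw [map_smul, LinearEquiv.apply_symm_apply]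
      funext i
      rw [Pi.smul_apply, smul_eq_mul]
      exact Int.mul_ediv_cancel' (hall i)
    have h1 : (p : ℤ) • φ t = (p : ℤ) • Additive.ofMul (Abelianization.of x) := by
      rw [← map_smul, ht, hφ]
      rw [natCast_zsmul, ← ofMul_pow, ← map_pow, ← hsc, map_mul, hcAb, mul_one]
    have h2 : φ t = Additive.ofMul (Abelianization.of x) := by
      have hp0 : (p : ℤ) ≠ 0 := by exact_mod_cast hp.ne_zero
      exact smul_right_injective _ hp0 h1
    have h3 : Abelianization.of (((Additive.toMul t : S₁) : EE (piQ Q))) = Abelianization.of x := h2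
    have h4 : (((Additive.toMul t : S₁) : EE (piQ Q)))⁻¹ * x ∈ commutator (EE (piQ Q)) := by
      rw [← Abelianization.ker_of, MonoidHom.mem_ker, map_mul, map_inv, h3, inv_mul_cancel]
    have h5 : eps (piQ Q) ((((Additive.toMul t : S₁) : EE (piQ Q)))⁻¹ * x) ∈ commutator Q := by
      have h6 : (commutator (EE (piQ Q))).map (eps (piQ Q)) ≤ commutator Q := by
        rw [_root_.commutator_def, map_commutator, _root_.commutator_def]
        exact commutator_mono le_top le_top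
      exact h6 (mem_map_of_mem _ h4)
    rw [map_mul, map_inv, MonoidHom.mem_ker.1 (hS₁.1 (Additive.toMul t : S₁).2), inv_one, one_mul] at h5
    have h7 : Abelianization.of (eps (piQ Q) x) = 1 := by
      rw [← MonoidHom.mem_ker, Abelianization.ker_of]; exact h5
    have h8 : orderOf (Abelianization.of (eps (piQ Q) x)) = p := hq
    rw [h7, orderOf_one] at h8
    exact hp.one_lt.ne h8
  -- a non-p-th power
  have hpM : p ∣ Nat.card (MM (piQ Q)) := by rwa [← Nat.card_congr eA.toEquiv]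
  obtain ⟨a, ha⟩ : ∃ a : MM (piQ Q), ∀ m, m ^ p ≠ a := by
    by_contra hall
    push_neg at hall
    have h1 : Function.Surjective (powMonoidHom p : MM (piQ Q) →* MM (piQ Q)) := hall
    have h2 : Function.Injective (powMonoidHom p : MM (piQ Q) →* MM (piQ Q)) := Finite.injective_iff_surjective.2 h1
    obtain ⟨z, hz⟩ := exists_prime_orderOf_dvd_card' (G := MM (piQ Q)) p hpM
    have h3 : z = 1 := by
      apply h2
      show z ^ p = 1 ^ p
      rw [one_pow, ← hz, pow_orderOf_eq_one]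
    rw [h3, orderOf_one] at hz
    exact hp.one_lt.ne hz
  let θ : S₁ →* MM (piQ Q) :=
    { toFun := fun s => a ^ (b.equivFun (Additive.ofMul s) i)
      map_one' := by rw [ofMul_one, map_zero, Pi.zero_apply, zpow_zero]
      map_mul' := by
        intro s t
        rw [ofMul_mul, map_add, Pi.add_apply, zpow_add] }
  let χ : S₁ →* EE (piQ Q) :=
    { toFun := fun s => (s : EE (piQ Q)) * (θ s : EE (piQ Q))
      map_one' := by rw [map_one, OneMemClass.coe_one, OneMemClass.coe_one, one_mul]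
      map_mul' := by
        intro s t
        rw [map_mul, coe_mul, coe_mul]
        have h2 := mem_center_iff.1 (eps_ker_le (piQ Q) (θ s).2.1) (t : EE (piQ Q))
        calc (s : EE (piQ Q)) * t * ((θ s) * (θ t)) = s * (t * (θ s)) * (θ t) := by group
          _ = s * ((θ s) * t) * (θ t) := by rw [h2]
          _ = _ := by group }
  let S₂ : Subgroup (EE (piQ Q)) := χ.range
  have hS₂ : Good (piQ Q) S₂ := by
    refine ⟨?_, ?_, ?_⟩
    · rintro _ ⟨s, rfl⟩
      exact mul_mem (hS₁.1 s.2) (θ s).2.1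
    · rw [eq_bot_iff]
      rintro _ ⟨⟨s, rfl⟩, hs2⟩
      have h1 : (s : EE (piQ Q)) ∈ commutator (EE (piQ Q)) :=
        ((commutator (EE (piQ Q))).mul_mem_cancel_right (θ s).2.2).1 hs2
      have h2 : (s : EE (piQ Q)) ∈ S₁ ⊓ commutator (EE (piQ Q)) := ⟨s.2, h1⟩
      rw [hS₁.2.1, mem_bot] at h2
      have h3 : s = 1 := Subtype.ext h2
      rw [h3, map_one]
      exact one_mem _
    · refine hS₁.2.2.trans (sup_le ?_ le_sup_right)
      intro s hs
      have h1 : χ ⟨s, hs⟩ ∈ S₂ := ⟨_, rfl⟩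
      have h2 : ((θ ⟨s, hs⟩ : MM (piQ Q)) : EE (piQ Q))⁻¹ ∈ commutator (EE (piQ Q)) := inv_mem (θ ⟨s, hs⟩).2.2
      have h3 := mul_mem (mem_sup_left h1 : χ ⟨s, hs⟩ ∈ S₂ ⊔ commutator (EE (piQ Q))) (mem_sup_right h2)
      have h4 : χ ⟨s, hs⟩ * ((θ ⟨s, hs⟩ : MM (piQ Q)) : EE (piQ Q))⁻¹ = s := mul_inv_cancel_right _ _
      rwa [h4] at h3
  haveI := hS₂.normal
  obtain ⟨e1⟩ := hS₁.equiv
  obtain ⟨e2⟩ := hS₂.equiv
  haveI := hS₁.finite
  haveI := hS₂.finite
  obtain ⟨e, he⟩ := H (EE (piQ Q) ⧸ S₁) (EE (piQ Q) ⧸ S₂) _ _ (hS₁.stem _ (piQ_surj Q)) (hS₂.stem _ (piQ_surj Q))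
    ⟨e1.trans eA.symm⟩ ⟨e2.trans eA.symm⟩
  set σ₂ := QuotientGroup.lift S₂ (eps (piQ Q)) (fun _ hx => hS₂.1 hx) with hσ₂
  have hst₂ := hS₂.stem _ (piQ_surj Q)
  rw [← hσ₂] at hst₂
  let f : EE (piQ Q) →* EE (piQ Q) ⧸ S₂ := e.toMonoidHom.comp (QuotientGroup.mk' S₁)
  let g : EE (piQ Q) →* EE (piQ Q) ⧸ S₂ := QuotientGroup.mk' S₂
  have hσf : ∀ y, σ₂ (f y) = eps (piQ Q) y := fun y => DFunLike.congr_fun he (QuotientGroup.mk y)
  have hσg : ∀ y, σ₂ (g y) = eps (piQ Q) y := fun y => rfl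
  have hfg : ∀ y, (g y)⁻¹ * f y ∈ σ₂.ker := by
    intro y
    rw [MonoidHom.mem_ker, map_mul, map_inv, hσf, hσg, inv_mul_cancel]
  let θ' : EE (piQ Q) →* EE (piQ Q) ⧸ S₂ :=
    { toFun := fun y => (g y)⁻¹ * f y
      map_one' := by rw [map_one, map_one, inv_one, one_mul]
      map_mul' := by
        intro y z
        rw [map_mul, map_mul, mul_inv_rev]
        have h2 := mem_center_iff.1 (hst₂.2.1 (hfg y)) ((g z)⁻¹)
        calc (g z)⁻¹ * (g y)⁻¹ * (f y * f z) = ((g z)⁻¹ * ((g y)⁻¹ * f y)) * f z := by group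
          _ = (((g y)⁻¹ * f y) * (g z)⁻¹) * f z := by rw [h2]
          _ = _ := by group }
  have hθ'c : θ' c = 1 := by
    have h1 := agree_on_commutator f g (fun y => hst₂.2.1 (hfg y)) c hc
    show (g c)⁻¹ * f c = 1
    rw [h1, inv_mul_cancel]
  have hθ's : θ' s = g (θ ⟨s, hs⟩ : MM (piQ Q)) := by
    have h1 : f s = 1 := by
      show e (QuotientGroup.mk s) = 1
      rw [(QuotientGroup.eq_one_iff s).2 hs, map_one]
    show (g s)⁻¹ * f s = _
    rw [h1, mul_one, inv_eq_iff_mul_eq_one, ← map_mul]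
    exact (QuotientGroup.eq_one_iff _).2 ⟨⟨s, hs⟩, rfl⟩
  obtain ⟨m, hm, hmx⟩ : ∃ m ∈ MM (piQ Q), g m = θ' x := by
    obtain ⟨y, hy⟩ := QuotientGroup.mk_surjective (θ' x)
    have h1 : y ∈ (eps (piQ Q)).ker := by
      have h3 : σ₂ (θ' x) = 1 := hfg x
      rw [← hy] at h3
      exact h3
    have h2 := hS₂.2.2 h1
    rw [← SetLike.mem_coe, mul_normal] at h2
    obtain ⟨s', hs', c', hc', rfl⟩ := h2
    refine ⟨c', ⟨?_, hc'⟩, ?_⟩
    · exact ((eps (piQ Q)).ker.mul_mem_cancel_left (hS₂.1 hs')).1 h1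
    · rw [← hy]
      show g c' = g (s' * c')
      have h4 : g s' = 1 := (QuotientGroup.eq_one_iff _).2 hs'
      rw [map_mul, h4, one_mul]
  have h1 : g (m ^ p) = g (θ ⟨s, hs⟩ : MM (piQ Q)) := by
    rw [map_pow, hmx, ← map_pow, ← hsc, map_mul, hθ'c, mul_one, hθ's]
  have h2 : m ^ p = (θ ⟨s, hs⟩ : MM (piQ Q)) := by
    have h3 : (m ^ p)⁻¹ * (θ ⟨s, hs⟩ : MM (piQ Q)) ∈ S₂ := QuotientGroup.eq.1 h1
    have h4 : (m ^ p)⁻¹ * (θ ⟨s, hs⟩ : MM (piQ Q)) ∈ S₂ ⊓ commutator (EE (piQ Q)) :=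
      ⟨h3, (commutator (EE (piQ Q))).mul_mem ((commutator (EE (piQ Q))).inv_mem
        ((commutator (EE (piQ Q))).pow_mem hm.2 p)) (θ ⟨s, hs⟩).2.2⟩
    rw [hS₂.2.1, mem_bot, inv_mul_eq_one] at h4
    exact h4
  have h3 : (⟨m, hm⟩ : MM (piQ Q)) ^ p = a ^ (b.equivFun (Additive.ofMul (⟨s, hs⟩ : S₁)) i) := Subtype.ext h2
  generalize b.equivFun (Additive.ofMul (⟨s, hs⟩ : S₁)) i = z at hi h3
  have hcop : IsCoprime z (p : ℤ) := by
    rw [Int.isCoprime_iff_gcd_eq_one, Int.gcd_comm]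
    have := (Nat.Prime.coprime_iff_not_dvd hp (n := z.natAbs)).2 (fun h => hi (Int.natCast_dvd.2 h))
    exact this
  obtain ⟨u', v', huv⟩ := hcop
  apply ha ((⟨m, hm⟩ : MM (piQ Q)) ^ u' * a ^ v')
  rw [mul_pow, ← zpow_natCast, ← zpow_natCast (a ^ v'), ← zpow_mul, ← zpow_mul, mul_comm u', zpow_mul, zpow_natCast, h3, ← zpow_mul,
    ← zpow_add, mul_comm z, huv, zpow_one]

end CfsgH1
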