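import Mathlib
import Cfsg.Agent.H1.Schur2

/-! # Schur multipliers: restriction and corestriction -/

set_option autoImplicit false

namespace CfsgH1

open Subgroup Cfsg
open scoped commutatorElement

universe u v w x

section Cores
variable {F : Type u} [Group F] (H N : Subgroup F) [hN : N.Normal] [H.FiniteIndex] {K : Type v} [CommGroup K]

/-- representatives -/
noncomputable def rp (q : F ⧸ H) : F := ((default : H.LeftTransversal).2.leftQuotientEquiv q : F)

theorem rp_mk (q : F ⧸ H) : (QuotientGroup.mk (rp H q) : F ⧸ H) = q :=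
  (default : H.LeftTransversal).2.leftQuotientEquiv.symm_apply_apply q

noncomputable def cores (κ : N →* K) : N →* K :=
  let _ := H.fintypeQuotientOfFiniteIndex
  { toFun := fun n => ∏ q : F ⧸ H, κ ⟨(rp H q)⁻¹ * n * rp H q, by
      have := hN.conj_mem n n.2 (rp H q)⁻¹
      rwa [inv_inv] at this⟩
    map_one' := by
      apply Finset.prod_eq_one
      intro q _
      convert map_one κ using 2
      apply Subtype.ext
      simp
    map_mul' := by
      intro a b
      rw [← Finset.prod_mul_distrib]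
      apply Finset.prod_congr rfl
      intro q _
      rw [← map_mul]
      congr 1
      apply Subtype.ext
      simp only [coe_mul]
      group }

theorem cores_apply (κ : N →* K) (n : N) : cores H N κ n =
    (let _ := H.fintypeQuotientOfFiniteIndex
     ∏ q : F ⧸ H, κ ⟨(rp H q)⁻¹ * n * rp H q, by
      have := hN.conj_mem n n.2 (rp H q)⁻¹
      rwa [inv_inv] at this⟩) := rfl

variable {H N}

theorem cores_conj (κ : N →* K)
    (hκ : ∀ (h : F) (_ : h ∈ H) (n : F) (hn : n ∈ N) (hn' : h⁻¹ * n * h ∈ N), κ ⟨h⁻¹ * n * h, hn'⟩ = κ ⟨n, hn⟩)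
    (f : F) (n : F) (hn : n ∈ N) (hn' : f⁻¹ * n * f ∈ N) : cores H N κ ⟨f⁻¹ * n * f, hn'⟩ = cores H N κ ⟨n, hn⟩ := by
  rw [cores_apply, cores_apply]
  dsimp only
  letI := H.fintypeQuotientOfFiniteIndex
  apply Fintype.prod_equiv (MulAction.toPerm f)
  intro q
  simp only [MulAction.toPerm_apply]
  -- rp (f • q) = f * rp q * h
  have h1 : (QuotientGroup.mk (f * rp H q) : F ⧸ H) = QuotientGroup.mk (rp H (f • q)) := by
    rw [rp_mk]
    conv_rhs => rw [← rp_mk H q]
    rfl
  rw [QuotientGroup.eq] at h1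
  obtain ⟨h, hh, hfq⟩ : ∃ h ∈ H, rp H (f • q) = f * rp H q * h := ⟨_, h1, by group⟩
  have hmem : (f * rp H q)⁻¹ * n * (f * rp H q) ∈ N := by
    have := hN.conj_mem n hn (f * rp H q)⁻¹
    rwa [inv_inv] at this
  have e1 := hκ h hh ((f * rp H q)⁻¹ * n * (f * rp H q)) hmem (by
    have := hN.conj_mem _ hmem h⁻¹
    rwa [inv_inv] at this)
  have e2 : (rp H (f • q))⁻¹ * n * rp H (f • q) = h⁻¹ * ((f * rp H q)⁻¹ * n * (f * rp H q)) * h := by
    rw [hfq]; group
  have e3 : (rp H q)⁻¹ * (f⁻¹ * n * f) * rp H q = (f * rp H q)⁻¹ * n * (f * rp H q) := by group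
  simp only [e2, e3]
  exact e1.symm

theorem cores_transfer (hNH : N ≤ H) (κ : N →* K) {A : Type w} [CommGroup A] (φ : H →* A) (ψ : K →* A)
    (h : ∀ (n : F) (hn : n ∈ N), ψ (κ ⟨n, hn⟩) = φ ⟨n, hNH hn⟩) (n : N) :
    ψ (cores H N κ n) = MonoidHom.transfer φ (n : F) := by
  rw [cores_apply, MonoidHom.transfer_def φ (default : H.LeftTransversal)]
  dsimp only
  unfold Subgroup.leftTransversals.diff
  dsimp only
  rw [map_prod]
  apply Finset.prod_congr rfl
  intro q _
  rw [h]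
  congr 1
  apply Subtype.ext
  dsimp only
  rw [Subgroup.smul_apply_eq_smul_apply_inv_smul]
  have h1 : (n : F)⁻¹ • q = q := by
    induction q using QuotientGroup.induction_on with
    | H z =>
      show QuotientGroup.mk ((n : F)⁻¹ * z) = QuotientGroup.mk z
      rw [QuotientGroup.eq]
      have := hN.conj_mem n n.2 z⁻¹
      rw [inv_inv] at this
      have h2 : ((n : F)⁻¹ * z)⁻¹ * z = z⁻¹ * n * z := by group
      rw [h2]
      exact hNH this
  rw [h1, smul_eq_mul, mul_assoc]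
  rfl

theorem cores_pow (κ : N →* K) {A : Type w} [CommGroup A] (ψ : K →* A)
    (h : ∀ (f : F) (n : F) (hn : n ∈ N) (hn' : f⁻¹ * n * f ∈ N), ψ (κ ⟨f⁻¹ * n * f, hn'⟩) = ψ (κ ⟨n, hn⟩)) (n : N) :
    ψ (cores H N κ n) = (ψ (κ n)) ^ H.index := by
  rw [cores_apply]
  dsimp only
  letI := H.fintypeQuotientOfFiniteIndex
  rw [map_prod, Finset.prod_congr rfl (fun q _ => h (rp H q) n n.2 _), Finset.prod_const, Finset.card_univ,
    ← Nat.card_eq_fintype_card]
  rfl

end Cores

theorem exists_res_cor {G : Type u} [Group G] [Finite G] (U : Subgroup G) {A : Type v} {B : Type w} [CommGroup A]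
    [CommGroup B] (hA : HasSchurMultiplier G A) (hB : HasSchurMultiplier U B) :
    ∃ (t : A →* B) (c : B →* A), ∀ a, c (t a) = a ^ U.index := by
  classical
  set π := piQ G with hπdef
  have hπ : Function.Surjective π := piQ_surj G
  let H : Subgroup (FreeGroup G) := U.comap π
  let N : Subgroup (FreeGroup G) := π.ker
  have hNH : N ≤ H := by
    intro x hx
    show π x ∈ U
    rw [MonoidHom.mem_ker.1 hx]
    exact one_mem _
  have hidx : H.index = U.index := Subgroup.index_comap_of_surjective U hπ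
  haveI : H.FiniteIndex := ⟨by rw [hidx]; exact Subgroup.index_ne_zero_of_finite⟩
  let πU : H →* U := (π.comp H.subtype).codRestrict U (fun x => x.2)
  have hπU : Function.Surjective πU := by
    rintro ⟨y, hy⟩
    obtain ⟨x, rfl⟩ := hπ y
    exact ⟨⟨x, hy⟩, rfl⟩
  have hπU1 : ∀ x : H, πU x = 1 ↔ π x = 1 := by
    intro x
    constructor
    · intro h; exact congrArg Subtype.val h
    · intro h; exact Subtype.ext h
  haveI : Group.FG H := inferInstance
  letI iK : CommGroup (eps πU).ker := { (inferInstance : Group (eps πU).ker) with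
    mul_comm := fun a b => Subtype.ext (mem_center_iff.1 (eps_ker_le πU b.2) a) }
  letI iK' : CommGroup (eps π).ker := { (inferInstance : Group (eps π).ker) with
    mul_comm := fun a b => Subtype.ext (mem_center_iff.1 (eps_ker_le π b.2) a) }
  let κ : N →* (eps πU).ker :=
    ((QuotientGroup.mk' _).comp (Subgroup.inclusion hNH)).codRestrict (eps πU).ker (by
      intro x
      exact (hπU1 _).2 x.2)
  have hκ : ∀ (h : FreeGroup G) (_ : h ∈ H) (n : FreeGroup G) (hn : n ∈ N) (hn' : h⁻¹ * n * h ∈ N),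
      κ ⟨h⁻¹ * n * h, hn'⟩ = κ ⟨n, hn⟩ := by
    intro h hh n hn hn'
    apply Subtype.ext
    have h1 := mem_center_iff.1 (eps_ker_le πU (κ ⟨n, hn⟩).2) (QuotientGroup.mk ⟨h, hh⟩)
    show (QuotientGroup.mk (⟨h⁻¹ * n * h, _⟩ : H) : EE πU) = (κ ⟨n, hn⟩ : EE πU)
    have h2 : (QuotientGroup.mk (⟨h⁻¹ * n * h, hNH hn'⟩ : H) : EE πU) =
        (QuotientGroup.mk (⟨h, hh⟩ : H))⁻¹ * (κ ⟨n, hn⟩ : EE πU) * (QuotientGroup.mk (⟨h, hh⟩ : H)) := rfl
    rw [h2, mul_assoc, ← h1, inv_mul_cancel_left]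
  let ν : N →* (eps π).ker := ((QuotientGroup.mk' _).comp N.subtype).codRestrict (eps π).ker (fun x => x.2)
  have hν : Function.Surjective ν := by
    rintro ⟨y, hy⟩
    induction y using QuotientGroup.induction_on with
    | H y => exact ⟨⟨y, hy⟩, rfl⟩
  have hνinv : ∀ (f : FreeGroup G) (n : FreeGroup G) (hn : n ∈ N) (hn' : f⁻¹ * n * f ∈ N),
      ν ⟨f⁻¹ * n * f, hn'⟩ = ν ⟨n, hn⟩ := by
    intro f n hn hn'
    apply Subtype.ext
    have h1 := mem_center_iff.1 (eps_ker_le π (ν ⟨n, hn⟩).2) (QuotientGroup.mk f)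
    have h2 : (ν ⟨f⁻¹ * n * f, hn'⟩ : EE π) = (QuotientGroup.mk f)⁻¹ * (ν ⟨n, hn⟩ : EE π) * QuotientGroup.mk f := rfl
    rw [h2, mul_assoc, ← h1, inv_mul_cancel_left]
  have hle : ν.ker ≤ (cores H N κ).ker := by
    have h1 : ⁅π.ker, (⊤ : Subgroup (FreeGroup G))⁆ ≤ (cores H N κ).ker.map N.subtype := by
      rw [commutator_le]
      intro r hr f _
      have hr' : f * r⁻¹ * f⁻¹ ∈ N := (inferInstance : π.ker.Normal).conj_mem _ (inv_mem hr) f
      have hr'' : (f⁻¹)⁻¹ * r⁻¹ * f⁻¹ ∈ N := by rwa [inv_inv]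
      refine ⟨⟨r, hr⟩ * ⟨(f⁻¹)⁻¹ * r⁻¹ * f⁻¹, hr''⟩, ?_, ?_⟩
      · show cores H N κ (⟨r, hr⟩ * ⟨(f⁻¹)⁻¹ * r⁻¹ * f⁻¹, hr''⟩) = 1
        rw [map_mul, cores_conj κ hκ f⁻¹ r⁻¹ (inv_mem hr) hr'']
        have h3 : (⟨r⁻¹, inv_mem hr⟩ : N) = (⟨r, hr⟩ : N)⁻¹ := rfl
        rw [h3, map_inv, mul_inv_cancel]
      · show r * ((f⁻¹)⁻¹ * r⁻¹ * f⁻¹) = ⁅r, f⁆
        rw [commutatorElement_def]; group
    rintro ⟨n, hn⟩ hx
    have h2 : (QuotientGroup.mk n : EE π) = 1 := congrArg Subtype.val hx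
    rw [QuotientGroup.eq_one_iff] at h2
    obtain ⟨y, hy, hyn⟩ := h1 h2
    have h3 : (⟨n, hn⟩ : N) = y := Subtype.ext hyn.symm
    rw [h3]
    exact hy
  let T : (eps π).ker →* (eps πU).ker := (ν.liftOfSurjective hν) ⟨cores H N κ, hle⟩
  have hT : ∀ n, T (ν n) = cores H N κ n := fun n => MonoidHom.liftOfRightInverse_comp_apply ν _ _ ⟨_, hle⟩ n
  -- c
  have hcle : ⁅πU.ker, (⊤ : Subgroup H)⁆ ≤ (⁅π.ker, (⊤ : Subgroup (FreeGroup G))⁆).comap H.subtype := by
    rw [commutator_le]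
    intro x hx y _
    have h1 : π x = 1 := (hπU1 x).1 hx
    have h2 : ⁅(x : FreeGroup G), (y : FreeGroup G)⁆ ∈ ⁅π.ker, (⊤ : Subgroup (FreeGroup G))⁆ :=
      commutator_mem_commutator (MonoidHom.mem_ker.2 h1) (mem_top _)
    exact h2
  let c : EE πU →* EE π := QuotientGroup.map _ _ H.subtype hcle
  have hcker : ∀ y : (eps πU).ker, c y ∈ (eps π).ker := by
    rintro ⟨y, hy⟩
    induction y using QuotientGroup.induction_on with
    | H y => exact (hπU1 y).1 hy
  let ψ : (eps πU).ker →* (eps π).ker := (c.comp (eps πU).ker.subtype).codRestrict _ hcker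
  have hψκ : ∀ n, ψ (κ n) = ν n := fun n => rfl
  have hψT : ∀ n, ψ (T (ν n)) = (ν n) ^ U.index := by
    intro n
    rw [hT, ← hidx]
    exact cores_pow (H := H) (N := N) κ ψ (fun f n hn hn' => hνinv f n hn hn') n
  have hTM : ∀ m : MM π, ((T ⟨m, m.2.1⟩ : (eps πU).ker) : EE πU) ∈ MM πU := by
    rintro ⟨m, hm1, hm2⟩
    refine ⟨(T ⟨m, hm1⟩).2, ?_⟩
    have h1 : (commutator (FreeGroup G)).map (QuotientGroup.mk' (⁅π.ker, (⊤ : Subgroup (FreeGroup G))⁆)) = commutator (EE π) := by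
      rw [_root_.commutator_def, map_commutator, Subgroup.map_top_of_surjective _ (QuotientGroup.mk'_surjective _),
        ← _root_.commutator_def]
    have hm2' := h1.ge hm2
    obtain ⟨n, hn, rfl⟩ := hm2'
    have hn1 : n ∈ N := hm1
    have h2 : T ⟨QuotientGroup.mk' _ n, hm1⟩ = cores H N κ ⟨n, hn1⟩ := hT ⟨n, hn1⟩
    rw [h2]
    have h3 := cores_transfer (H := H) (N := N) hNH κ (Abelianization.of.comp (QuotientGroup.mk' _) : H →* Abelianization (EE πU))
      ((Abelianization.of : EE πU →* _).comp (eps πU).ker.subtype) (fun n hn => rfl) ⟨n, hn1⟩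
    have h4 : MonoidHom.transfer (Abelianization.of.comp (QuotientGroup.mk' _) : H →* Abelianization (EE πU)) n = 1 :=
      Abelianization.commutator_subset_ker _ hn
    rw [h4] at h3
    rw [← Abelianization.ker_of]
    exact h3
  have hcM : ∀ y : MM πU, c y ∈ MM π := by
    rintro ⟨y, hy1, hy2⟩
    refine ⟨hcker ⟨y, hy1⟩, ?_⟩
    have h1 : (commutator (EE πU)).map c ≤ commutator (EE π) := by
      rw [_root_.commutator_def, map_commutator, _root_.commutator_def]
      exact commutator_mono le_top le_top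
    exact h1 (mem_map_of_mem c hy2)
  let iM : MM π →* (eps π).ker := Subgroup.inclusion inf_le_left
  let t : MM π →* MM πU := (((eps πU).ker.subtype.comp T).comp iM).codRestrict (MM πU) hTM
  let c' : MM πU →* MM π := (c.comp (MM πU).subtype).codRestrict (MM π) hcM
  have hct : ∀ m, c' (t m) = m ^ U.index := by
    intro m
    apply Subtype.ext
    obtain ⟨n, hn⟩ := hν (iM m)
    have h1 := congrArg Subtype.val (hψT n)
    rw [hn] at h1
    exact h1
  obtain ⟨eA⟩ := schur_unique hA (hasSchur_MM π hπ)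
  obtain ⟨eB⟩ := schur_unique hB (hasSchur_MM πU hπU)
  refine ⟨eB.symm.toMonoidHom.comp (t.comp eA.toMonoidHom), eA.symm.toMonoidHom.comp (c'.comp eB.toMonoidHom), ?_⟩
  intro a
  show eA.symm (c' (eB (eB.symm (t (eA a))))) = _
  rw [MulEquiv.apply_symm_apply, hct, map_pow, MulEquiv.symm_apply_apply]

/-- a quotient of a finite abelian group embeds into it -/
theorem quot_embed {B : Type u} {N : Type v} [CommGroup B] [CommGroup N] [Finite B] (g : B →* N)
    (hg : Function.Surjective g) : ∃ j : N →* B, Function.Injective j := by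
  haveI : Finite N := Finite.of_surjective g hg
  obtain ⟨e1⟩ := CommGroup.monoidHom_mulEquiv_of_hasEnoughRootsOfUnity N ℂ
  obtain ⟨e2⟩ := CommGroup.monoidHom_mulEquiv_of_hasEnoughRootsOfUnity B ℂ
  let h : (N →* ℂˣ) →* (B →* ℂˣ) :=
    { toFun := fun φ => φ.comp g
      map_one' := rfl
      map_mul' := fun _ _ => rfl }
  have hh : Function.Injective h := by
    intro a b hab
    ext x
    obtain ⟨y, rfl⟩ := hg x
    exact congrArg Units.val (DFunLike.congr_fun hab y)
  exact ⟨e2.toMonoidHom.comp (h.comp e1.symm.toMonoidHom), e2.injective.comp (hh.comp e1.symm.injective)⟩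

end CfsgH1
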