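import Mathlib
import Cfsg.Agent.H1.Schur5

/-! # Schur multipliers: direct products -/

set_option autoImplicit false

namespace CfsgH1

open Subgroup Cfsg
open scoped commutatorElement TensorProduct

universe u v w x y

/-- twisted product by a pairing -/
@[ext] structure TwP {Γ₁ : Type u} {Γ₂ : Type v} {T : Type w} [Group Γ₁] [Group Γ₂] [CommGroup T]
    (β : Γ₁ →* Γ₂ →* T) : Type (max u v w) where
  a : Γ₁
  b : Γ₂
  t : T

namespace TwP
variable {Γ₁ : Type u} {Γ₂ : Type v} {T : Type w} [Group Γ₁] [Group Γ₂] [CommGroup T] {β : Γ₁ →* Γ₂ →* T}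

instance : Mul (TwP β) := ⟨fun p q => ⟨p.a * q.a, p.b * q.b, p.t * q.t * β q.a p.b⟩⟩
instance : One (TwP β) := ⟨⟨1, 1, 1⟩⟩
instance : Inv (TwP β) := ⟨fun p => ⟨p.a⁻¹, p.b⁻¹, p.t⁻¹ * β p.a p.b⟩⟩

theorem mul_def (p q : TwP β) : p * q = ⟨p.a * q.a, p.b * q.b, p.t * q.t * β q.a p.b⟩ := rfl
theorem one_def : (1 : TwP β) = ⟨1, 1, 1⟩ := rfl
theorem inv_def (p : TwP β) : p⁻¹ = ⟨p.a⁻¹, p.b⁻¹, p.t⁻¹ * β p.a p.b⟩ := rfl

instance : Group (TwP β) :=
  Group.ofLeftAxioms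
    (by
      intro p q r
      simp only [mul_def, TwP.mk.injEq]
      refine ⟨mul_assoc _ _ _, mul_assoc _ _ _, ?_⟩
      rw [map_mul, map_mul, MonoidHom.mul_apply]
      simp only [mul_assoc, mul_comm, mul_left_comm])
    (by
      intro p
      simp only [mul_def, one_def, one_mul, map_one, mul_one])
    (by
      intro p
      simp only [mul_def, one_def, inv_def, inv_mul_cancel, map_inv, TwP.mk.injEq, true_and]
      rw [mul_comm p.t⁻¹, mul_assoc (β p.a p.b), inv_mul_cancel, mul_one, mul_inv_cancel])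

def i₁ (β : Γ₁ →* Γ₂ →* T) : Γ₁ →* TwP β where
  toFun x := ⟨x, 1, 1⟩
  map_one' := rfl
  map_mul' := by intro x y; simp only [mul_def, mul_one, map_one]

def i₂ (β : Γ₁ →* Γ₂ →* T) : Γ₂ →* TwP β where
  toFun x := ⟨1, x, 1⟩
  map_one' := rfl
  map_mul' := by intro x y; simp only [mul_def, mul_one, map_one, MonoidHom.one_apply]

def iT (β : Γ₁ →* Γ₂ →* T) : T →* TwP β where
  toFun t := ⟨1, 1, t⟩
  map_one' := rfl
  map_mul' := by intro x y; simp only [mul_def, mul_one, map_one, MonoidHom.one_apply]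

theorem comm_i (x : Γ₁) (y : Γ₂) : ⁅i₂ β y, i₁ β x⁆ = iT β (β x y) := by
  have h : i₂ β y * i₁ β x = iT β (β x y) * (i₁ β x * i₂ β y) := by
    simp only [i₁, i₂, iT, MonoidHom.coe_mk, OneHom.coe_mk, mul_def, mul_one, one_mul, map_one, MonoidHom.one_apply]
  rw [commutatorElement_def, h]
  group

section
variable {Q₁ : Type x} {Q₂ : Type y} [Group Q₁] [Group Q₂]

def sig (β : Γ₁ →* Γ₂ →* T) (σ₁ : Γ₁ →* Q₁) (σ₂ : Γ₂ →* Q₂) : TwP β →* Q₁ × Q₂ where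
  toFun p := (σ₁ p.a, σ₂ p.b)
  map_one' := by simp [one_def]
  map_mul' := by intro p q; simp [mul_def]

theorem stem {σ₁ : Γ₁ →* Q₁} {σ₂ : Γ₂ →* Q₂} (h₁ : IsStemExtension σ₁) (h₂ : IsStemExtension σ₂)
    (hβ₁ : ∀ a ∈ σ₁.ker, ∀ y, β a y = 1) (hβ₂ : ∀ b ∈ σ₂.ker, ∀ x, β x b = 1)
    (hT : ∀ S : Subgroup T, (∀ x y, β x y ∈ S) → S = ⊤) : IsStemExtension (sig β σ₁ σ₂) := by
  refine ⟨?_, ?_, ?_⟩
  · rintro ⟨q₁, q₂⟩
    obtain ⟨x, rfl⟩ := h₁.1 q₁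
    obtain ⟨y, rfl⟩ := h₂.1 q₂
    exact ⟨⟨x, y, 1⟩, rfl⟩
  · rintro ⟨a, b, t⟩ hp
    have ha : a ∈ σ₁.ker := congrArg Prod.fst hp
    have hb : b ∈ σ₂.ker := congrArg Prod.snd hp
    rw [mem_center_iff]
    rintro ⟨x, y, s⟩
    simp only [mul_def, TwP.mk.injEq]
    refine ⟨mem_center_iff.1 (h₁.2.1 ha) x, mem_center_iff.1 (h₂.2.1 hb) y, ?_⟩
    rw [hβ₁ a ha, hβ₂ b hb, mul_comm s t]
  · rintro ⟨a, b, t⟩ hp
    have ha : a ∈ σ₁.ker := congrArg Prod.fst hp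
    have hb : b ∈ σ₂.ker := congrArg Prod.snd hp
    have e1 : (⟨a, b, t⟩ : TwP β) = i₁ β a * i₂ β b * iT β t := by
      simp only [i₁, i₂, iT, MonoidHom.coe_mk, OneHom.coe_mk, mul_def, mul_one, one_mul, map_one, MonoidHom.one_apply]
    rw [e1]
    have k1 : i₁ β a ∈ commutator (TwP β) := by
      have h : (commutator Γ₁).map (i₁ β) ≤ commutator (TwP β) := by
        rw [_root_.commutator_def, map_commutator, _root_.commutator_def]
        exact commutator_mono le_top le_top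
      exact h (mem_map_of_mem _ (h₁.2.2 ha))
    have k2 : i₂ β b ∈ commutator (TwP β) := by
      have h : (commutator Γ₂).map (i₂ β) ≤ commutator (TwP β) := by
        rw [_root_.commutator_def, map_commutator, _root_.commutator_def]
        exact commutator_mono le_top le_top
      exact h (mem_map_of_mem _ (h₂.2.2 hb))
    have k3 : iT β t ∈ commutator (TwP β) := by
      have h : (commutator (TwP β)).comap (iT β) = ⊤ := by
        apply hT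
        intro x y
        show iT β (β x y) ∈ commutator (TwP β)
        rw [← comm_i]
        exact commutator_mem_commutator (mem_top _) (mem_top _)
      have := h.ge (mem_top t)
      exact this
    exact mul_mem (mul_mem k1 k2) k3

def kerEquiv {σ₁ : Γ₁ →* Q₁} {σ₂ : Γ₂ →* Q₂} (hβ₁ : ∀ a ∈ σ₁.ker, ∀ y, β a y = 1) :
    (sig β σ₁ σ₂).ker ≃* σ₁.ker × σ₂.ker × T where
  toFun p := (⟨p.1.a, congrArg Prod.fst p.2⟩, ⟨p.1.b, congrArg Prod.snd p.2⟩, p.1.t)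
  invFun q := ⟨⟨q.1, q.2.1, q.2.2⟩, Prod.ext q.1.2 q.2.1.2⟩
  left_inv _ := rfl
  right_inv _ := rfl
  map_mul' := by
    rintro ⟨⟨a, b, t⟩, h⟩ ⟨⟨a', b', t'⟩, h'⟩
    have ha : a' ∈ σ₁.ker := congrArg Prod.fst h'
    simp only [mul_def, MulMemClass.mk_mul_mk, Prod.mk_mul_mk, hβ₁ a' ha, mul_one]
    rfl

instance [Finite Γ₁] [Finite Γ₂] [Finite T] : Finite (TwP β) :=
  Finite.of_injective (fun p : TwP β => (p.a, p.b, p.t)) (by
    rintro ⟨a, b, t⟩ ⟨a', b', t'⟩ h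
    simpa using h)

end

end TwP

theorem commutator_sup_le' {G : Type u} [Group G] (A B : Subgroup G) [A.Normal] [B.Normal] :
    ⁅A ⊔ B, A ⊔ B⁆ ≤ ⁅A, A⁆ ⊔ ⁅B, B⁆ ⊔ ⁅A, B⁆ := by
  set W := ⁅A, A⁆ ⊔ ⁅B, B⁆ ⊔ ⁅A, B⁆ with hW
  rw [commutator_le]
  intro x hx y hy
  rw [← SetLike.mem_coe, mul_normal] at hx hy
  obtain ⟨a, ha, b, hb, rfl⟩ := hx
  obtain ⟨a', ha', b', hb', rfl⟩ := hy
  have key : ∀ g h : G, ⁅g, h⁆ ∈ W → Commute (QuotientGroup.mk' W g) (QuotientGroup.mk' W h) := by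
    intro g h hgh
    rw [← commutatorElement_eq_one_iff_commute, ← map_commutatorElement]
    exact (QuotientGroup.eq_one_iff _).2 hgh
  have k1 : ⁅a, a'⁆ ∈ W := mem_sup_left (mem_sup_left (commutator_mem_commutator ha ha'))
  have k2 : ⁅b, b'⁆ ∈ W := mem_sup_left (mem_sup_right (commutator_mem_commutator hb hb'))
  have k3 : ⁅a, b'⁆ ∈ W := mem_sup_right (commutator_mem_commutator ha hb')
  have k4 : ⁅a', b⁆ ∈ W := mem_sup_right (commutator_mem_commutator ha' hb)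
  have h : Commute (QuotientGroup.mk' W (a * b)) (QuotientGroup.mk' W (a' * b')) := by
    rw [map_mul, map_mul]
    exact Commute.mul_left (Commute.mul_right (key _ _ k1) (key _ _ k3))
      (Commute.mul_right (key _ _ k4).symm (key _ _ k2))
  rw [← commutatorElement_eq_one_iff_commute, ← map_commutatorElement] at h
  exact (QuotientGroup.eq_one_iff _).1 h

/-! ### the upper bound -/

section Upper
variable {Q₁ : Type u} {Q₂ : Type v} [Group Q₁] [Group Q₂] [Finite Q₁] [Finite Q₂]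
variable {A : Type w} {B : Type x} [CommGroup A] [CommGroup B]

theorem prod_upper (hA : HasSchurMultiplier Q₁ A) (hB : HasSchurMultiplier Q₂ B) {Δ : Type y} [Group Δ] [Finite Δ]
    (τ : Δ →* Q₁ × Q₂) (hτ : IsStemExtension τ) :
    ∃ π : (A × B × Multiplicative (Additive (Abelianization Q₁) ⊗[ℤ] Additive (Abelianization Q₂))) →* τ.ker,
      Function.Surjective π := by
  classical
  letI iK : CommGroup τ.ker := { (inferInstance : Group τ.ker) with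
    mul_comm := fun a b => Subtype.ext (mem_center_iff.1 (hτ.2.1 b.2) a) }
  let D₁ : Subgroup Δ := ((⊤ : Subgroup Q₁).prod (⊥ : Subgroup Q₂)).comap τ
  let D₂ : Subgroup Δ := ((⊥ : Subgroup Q₁).prod (⊤ : Subgroup Q₂)).comap τ
  haveI : D₁.Normal := Subgroup.Normal.comap inferInstance τ
  haveI : D₂.Normal := Subgroup.Normal.comap inferInstance τ
  have hD₁ : ∀ d, d ∈ D₁ ↔ (τ d).2 = 1 := by
    intro d
    simp [D₁, Subgroup.mem_prod]
  have hD₂ : ∀ d, d ∈ D₂ ↔ (τ d).1 = 1 := by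
    intro d
    simp [D₂, Subgroup.mem_prod]
  let τ₁ : D₁ →* Q₁ := (MonoidHom.fst _ _).comp (τ.comp D₁.subtype)
  let τ₂ : D₂ →* Q₂ := (MonoidHom.snd _ _).comp (τ.comp D₂.subtype)
  have hs₁ : Function.Surjective τ₁ := by
    intro q
    obtain ⟨d, hd⟩ := hτ.1 (q, 1)
    exact ⟨⟨d, (hD₁ d).2 (by rw [hd])⟩, congrArg Prod.fst hd⟩
  have hs₂ : Function.Surjective τ₂ := by
    intro q
    obtain ⟨d, hd⟩ := hτ.1 (1, q)
    exact ⟨⟨d, (hD₂ d).2 (by rw [hd])⟩, congrArg Prod.snd hd⟩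
  have hk₁ : ∀ d : D₁, d ∈ τ₁.ker → (d : Δ) ∈ τ.ker := fun d hd => Prod.ext hd ((hD₁ d).1 d.2)
  have hk₂ : ∀ d : D₂, d ∈ τ₂.ker → (d : Δ) ∈ τ.ker := fun d hd => Prod.ext ((hD₂ d).1 d.2) hd
  have hc₁ : τ₁.ker ≤ center D₁ := by
    intro d hd
    rw [mem_center_iff]
    intro g
    exact Subtype.ext (mem_center_iff.1 (hτ.2.1 (hk₁ d hd)) g)
  have hc₂ : τ₂.ker ≤ center D₂ := by
    intro d hd
    rw [mem_center_iff]
    intro g
    exact Subtype.ext (mem_center_iff.1 (hτ.2.1 (hk₂ d hd)) g)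
  obtain ⟨p₁, hp₁⟩ := schur_image hA τ₁ hs₁ hc₁
  obtain ⟨p₂, hp₂⟩ := schur_image hB τ₂ hs₂ hc₂
  let g₁ : A →* τ.ker := (D₁.subtype.comp ((τ₁.ker ⊓ commutator D₁).subtype.comp p₁)).codRestrict _
    (fun a => hk₁ _ (p₁ a).2.1)
  let g₂ : B →* τ.ker := (D₂.subtype.comp ((τ₂.ker ⊓ commutator D₂).subtype.comp p₂)).codRestrict _
    (fun a => hk₂ _ (p₂ a).2.1)
  -- the pairing
  have hex₁ : ∀ q : Q₁, ∃ d : Δ, τ d = (q, 1) := fun q => hτ.1 _
  have hex₂ : ∀ q : Q₂, ∃ d : Δ, τ d = (1, q) := fun q => hτ.1 _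
  choose s₁ hs₁' using hex₁
  choose s₂ hs₂' using hex₂
  have hck : ∀ d e : Δ, (τ d).2 = 1 → (τ e).1 = 1 → ⁅d, e⁆ ∈ τ.ker := by
    intro d e h1 h2
    rw [MonoidHom.mem_ker, map_commutatorElement, commutatorElement_eq_one_iff_mul_comm]
    apply Prod.ext
    · rw [Prod.fst_mul, Prod.fst_mul, h2, mul_one, one_mul]
    · rw [Prod.snd_mul, Prod.snd_mul, h1, mul_one, one_mul]
  have hcong : ∀ d e d' e' : Δ, τ d = τ d' → τ e = τ e' → ⁅d, e⁆ = ⁅d', e'⁆ := by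
    intro d e d' e' h1 h2
    have z1 : (d')⁻¹ * d ∈ center Δ := hτ.2.1 (by rw [MonoidHom.mem_ker, map_mul, map_inv, h1, inv_mul_cancel])
    have z2 : (e')⁻¹ * e ∈ center Δ := hτ.2.1 (by rw [MonoidHom.mem_ker, map_mul, map_inv, h2, inv_mul_cancel])
    have := comm_mul_center' (a := d') (b := e') z1 z2
    rwa [mul_inv_cancel_left, mul_inv_cancel_left] at this
  have hmr : ∀ d e e' : Δ, (τ d).2 = 1 → (τ e).1 = 1 → (τ e').1 = 1 → ⁅d, e * e'⁆ = ⁅d, e⁆ * ⁅d, e'⁆ := by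
    intro d e e' h1 h2 h3
    have hz := mem_center_iff.1 (hτ.2.1 (hck d e' h1 h3)) e
    calc ⁅d, e * e'⁆ = ⁅d, e⁆ * (e * ⁅d, e'⁆ * e⁻¹) := by simp only [commutatorElement_def]; group
      _ = ⁅d, e⁆ * ⁅d, e'⁆ := by rw [hz, mul_inv_cancel_right]
  have hml : ∀ d d' e : Δ, (τ d).2 = 1 → (τ d').2 = 1 → (τ e).1 = 1 → ⁅d * d', e⁆ = ⁅d, e⁆ * ⁅d', e⁆ := by
    intro d d' e h1 h2 h3
    have hz := mem_center_iff.1 (hτ.2.1 (hck d' e h2 h3)) d
    calc ⁅d * d', e⁆ = (d * ⁅d', e⁆ * d⁻¹) * ⁅d, e⁆ := by simp only [commutatorElement_def]; group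
      _ = ⁅d', e⁆ * ⁅d, e⁆ := by rw [hz, mul_inv_cancel_right]
      _ = ⁅d, e⁆ * ⁅d', e⁆ := (mem_center_iff.1 (hτ.2.1 (hck d e h1 h3)) _)
  have t1 : ∀ q, (τ (s₁ q)).2 = 1 := fun q => by rw [hs₁']
  have t2 : ∀ q, (τ (s₂ q)).1 = 1 := fun q => by rw [hs₂']
  let P : Q₁ →* (Q₂ →* τ.ker) := MonoidHom.mk' (fun q₁ => MonoidHom.mk' (fun q₂ => ⟨⁅s₁ q₁, s₂ q₂⁆, hck _ _ (t1 _) (t2 _)⟩) (by
      intro a b
      apply Subtype.ext
      show ⁅s₁ q₁, s₂ (a * b)⁆ = ⁅s₁ q₁, s₂ a⁆ * ⁅s₁ q₁, s₂ b⁆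
      rw [← hmr _ _ _ (t1 _) (t2 _) (t2 _)]
      apply hcong _ _ _ _ rfl
      rw [hs₂', map_mul, hs₂', hs₂', Prod.mk_mul_mk, mul_one])) (by
    intro a b
    ext q₂
    show ⁅s₁ (a * b), s₂ q₂⁆ = ⁅s₁ a, s₂ q₂⁆ * ⁅s₁ b, s₂ q₂⁆
    rw [← hml _ _ _ (t1 _) (t1 _) (t2 _)]
    apply hcong _ _ _ _ _ rfl
    rw [hs₁', map_mul, hs₁', hs₁', Prod.mk_mul_mk, mul_one])
  let P' : Q₁ →* (Abelianization Q₂ →* τ.ker) := MonoidHom.mk' (fun q₁ => Abelianization.lift (P q₁)) (by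
    intro a b
    ext q
    show ((P (a * b) q : τ.ker) : Δ) = ((P a q * P b q : τ.ker) : Δ)
    rw [map_mul]; rfl)
  let P'' : Abelianization Q₁ →* (Abelianization Q₂ →* τ.ker) := Abelianization.lift P'
  have hP'' : ∀ a b, P'' (Abelianization.of a) (Abelianization.of b) = P a b := fun _ _ => rfl
  let f : Additive (Abelianization Q₁) →+ Additive (Abelianization Q₂) →+ Additive τ.ker :=
    AddMonoidHom.mk' (fun m => MonoidHom.toAdditive (P'' m.toMul)) (by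
      intro a b
      refine AddMonoidHom.ext fun c => ?_
      show Additive.ofMul (P'' (a.toMul * b.toMul) c.toMul) = _
      rw [map_mul]; rfl)
  let g₃' : Additive (Abelianization Q₁) ⊗[ℤ] Additive (Abelianization Q₂) →+ Additive τ.ker :=
    TensorProduct.liftAddHom f (by
      intro r m n
      rw [map_zsmul, map_zsmul, AddMonoidHom.zsmul_apply])
  let g₃ : Multiplicative (Additive (Abelianization Q₁) ⊗[ℤ] Additive (Abelianization Q₂)) →* τ.ker :=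
    AddMonoidHom.toMultiplicativeLeft g₃'
  have hg₃ : ∀ a b, g₃ (Multiplicative.ofAdd ((Additive.ofMul (Abelianization.of a)) ⊗ₜ[ℤ] (Additive.ofMul (Abelianization.of b)))) = P a b :=
    fun _ _ => rfl
  let PP : (A × B × Multiplicative (Additive (Abelianization Q₁) ⊗[ℤ] Additive (Abelianization Q₂))) →* τ.ker :=
    g₁.coprod (g₂.coprod g₃)
  refine ⟨PP, ?_⟩
  have r₁ : ∀ k : Δ, k ∈ τ.ker → k ∈ ⁅D₁, D₁⁆ → ∃ a, ((g₁ a : τ.ker) : Δ) = k := by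
    intro k hk hk2
    have h1 : ⁅D₁, D₁⁆ = (commutator D₁).map D₁.subtype := by
      rw [_root_.commutator_def, map_commutator, ← MonoidHom.range_eq_map, range_subtype]
    rw [h1] at hk2
    obtain ⟨d, hd, rfl⟩ := hk2
    obtain ⟨a, ha⟩ := hp₁ ⟨d, congrArg Prod.fst (hk : τ d = 1), hd⟩
    exact ⟨a, by show ((p₁ a : D₁) : Δ) = d; rw [ha]⟩
  have r₂ : ∀ k : Δ, k ∈ τ.ker → k ∈ ⁅D₂, D₂⁆ → ∃ a, ((g₂ a : τ.ker) : Δ) = k := by
    intro k hk hk2
    have h1 : ⁅D₂, D₂⁆ = (commutator D₂).map D₂.subtype := by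
      rw [_root_.commutator_def, map_commutator, ← MonoidHom.range_eq_map, range_subtype]
    rw [h1] at hk2
    obtain ⟨d, hd, rfl⟩ := hk2
    obtain ⟨a, ha⟩ := hp₂ ⟨d, congrArg Prod.snd (hk : τ d = 1), hd⟩
    exact ⟨a, by show ((p₂ a : D₂) : Δ) = d; rw [ha]⟩
  have r₃ : ⁅D₁, D₂⁆ ≤ g₃.range.map τ.ker.subtype := by
    rw [commutator_le]
    intro d hd e he
    refine ⟨P (τ d).1 (τ e).2, ⟨_, hg₃ _ _⟩, ?_⟩
    show ⁅s₁ (τ d).1, s₂ (τ e).2⁆ = ⁅d, e⁆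
    apply hcong
    · rw [hs₁']; exact Prod.ext rfl ((hD₁ d).1 hd).symm
    · rw [hs₂']; exact Prod.ext ((hD₂ e).1 he).symm rfl
  have htop : D₁ ⊔ D₂ = ⊤ := by
    rw [eq_top_iff]
    intro d _
    obtain ⟨d₁, hd₁⟩ := hτ.1 ((τ d).1, 1)
    have h1 : d₁ ∈ D₁ := (hD₁ _).2 (by rw [hd₁])
    have h2 : d₁⁻¹ * d ∈ D₂ := (hD₂ _).2 (by rw [map_mul, map_inv, hd₁, Prod.fst_mul, Prod.fst_inv, inv_mul_cancel])
    have := mul_mem (mem_sup_left h1 : d₁ ∈ D₁ ⊔ D₂) (mem_sup_right h2)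
    rwa [mul_inv_cancel_left] at this
  rintro ⟨k, hk⟩
  have hk2 := hτ.2.2 hk
  rw [_root_.commutator_def, ← htop] at hk2
  have hk3 := commutator_sup_le' D₁ D₂ hk2
  rw [← SetLike.mem_coe, mul_normal] at hk3
  obtain ⟨xy, hxy, z, hz, hk4⟩ := hk3
  rw [SetLike.mem_coe, ← SetLike.mem_coe, mul_normal] at hxy
  obtain ⟨x, hx, y, hy, rfl⟩ := hxy
  dsimp only at hk4
  obtain ⟨z', ⟨c, rfl⟩, hz'⟩ := r₃ hz
  have hzk : z ∈ τ.ker := by rw [← hz']; exact (g₃ c).2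
  have hxyk : τ (x * y) = 1 := by
    have h1 : x * y = k * z⁻¹ := by rw [← hk4]; group
    rw [h1]
    exact mul_mem hk (inv_mem hzk)
  have hx2 : (τ x).2 = 1 := (hD₁ _).1 (commutator_le_right D₁ D₁ hx)
  have hy1 : (τ y).1 = 1 := (hD₂ _).1 (commutator_le_right D₂ D₂ hy)
  have hx1 : (τ x).1 = 1 := by
    have := congrArg Prod.fst hxyk
    rwa [map_mul, Prod.fst_mul, hy1, mul_one] at this
  have hy2 : (τ y).2 = 1 := by
    have := congrArg Prod.snd hxyk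
    rwa [map_mul, Prod.snd_mul, hx2, one_mul] at this
  obtain ⟨a, ha⟩ := r₁ x (Prod.ext hx1 hx2) hx
  obtain ⟨b, hb⟩ := r₂ y (Prod.ext hy1 hy2) hy
  refine ⟨(a, b, c), ?_⟩
  apply Subtype.ext
  show ((g₁ a : τ.ker) : Δ) * (((g₂ b : τ.ker) : Δ) * ((g₃ c : τ.ker) : Δ)) = k
  rw [ha, hb, ← hk4, ← hz', mul_assoc]
  rfl

end Upper

section Main
variable {Q₁ : Type u} {Q₂ : Type v} [Group Q₁] [Group Q₂] [Finite Q₁] [Finite Q₂]
variable {A B : Type w} [CommGroup A] [CommGroup B]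

/-- the tensor pairing -/
noncomputable def tpair (Q₁ : Type u) (Q₂ : Type v) [Group Q₁] [Group Q₂] :
    Q₁ →* Q₂ →* Multiplicative (Additive (Abelianization Q₁) ⊗[ℤ] Additive (Abelianization Q₂)) :=
  MonoidHom.mk' (fun q₁ => MonoidHom.mk' (fun q₂ =>
      Multiplicative.ofAdd ((Additive.ofMul (Abelianization.of q₁)) ⊗ₜ[ℤ] (Additive.ofMul (Abelianization.of q₂)))) (by
    intro a b
    rw [map_mul, ofMul_mul, TensorProduct.tmul_add, ofAdd_add])) (by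
    intro a b
    ext q
    show Multiplicative.ofAdd ((Additive.ofMul (Abelianization.of (a * b))) ⊗ₜ[ℤ] (Additive.ofMul (Abelianization.of q))) = _
    rw [map_mul, ofMul_mul, TensorProduct.add_tmul, ofAdd_add]
    rfl)

theorem tpair_gen (S : Subgroup (Multiplicative (Additive (Abelianization Q₁) ⊗[ℤ] Additive (Abelianization Q₂))))
    (h : ∀ x y, tpair Q₁ Q₂ x y ∈ S) : S = ⊤ := by
  rw [eq_top_iff]
  intro z _
  obtain ⟨z, rfl⟩ := Multiplicative.ofAdd.surjective z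
  induction z using TensorProduct.induction_on with
  | zero => exact one_mem _
  | tmul a b =>
    obtain ⟨a, rfl⟩ := Additive.ofMul.surjective a
    obtain ⟨b, rfl⟩ := Additive.ofMul.surjective b
    obtain ⟨a, rfl⟩ := QuotientGroup.mk_surjective a
    obtain ⟨b, rfl⟩ := QuotientGroup.mk_surjective b
    exact h a b
  | add a b ha hb =>
    rw [ofAdd_add]
    exact mul_mem (ha (mem_top _)) (hb (mem_top _))

end Main

end CfsgH1
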