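import Mathlib
import Cfsg.Agent.H1.Schur3
import Cfsg.Agent.H1.SSolv2
import Cfsg.Agent.H1.Schur5

/-! # Schur multipliers: the exponent bound -/

set_option autoImplicit false

namespace CfsgH1

open Subgroup Cfsg
open scoped commutatorElement

universe u v w x

/-- extending homomorphisms into divisible groups -/
theorem extend_hom' {E : Type u} [Group E] (S : Subgroup E) {Z : Type v} [CommGroup Z]
    (hZ : ∀ (n : ℕ), n ≠ 0 → ∀ z : Z, ∃ y : Z, y ^ n = z) (φ : S →* Z)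
    (hS : ∀ s : S, (s : E) ∈ commutator E → φ s = 1) :
    ∃ μ : E →* Z, ∀ s : S, μ s = φ s := by
  let I : Subgroup (Abelianization E) := S.map Abelianization.of
  let j : S →* I := Abelianization.of.subgroupMap S
  have hj : Function.Surjective j := MonoidHom.subgroupMap_surjective _ _
  have hle : j.ker ≤ φ.ker := by
    intro s hs
    apply hS
    have h1 : Abelianization.of (s : E) = 1 := congrArg Subtype.val hs
    rwa [← MonoidHom.mem_ker, Abelianization.ker_of] at h1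
  let φ' : I →* Z := (j.liftOfSurjective hj) ⟨φ, hle⟩
  have hφ' : ∀ s, φ' (j s) = φ s := fun s => MonoidHom.liftOfRightInverse_comp_apply j _ _ ⟨φ, hle⟩ s
  have hbot : I ⊓ commutator (Abelianization E) = ⊥ := by
    have : commutator (Abelianization E) = ⊥ := by
      rw [_root_.commutator_def, eq_bot_iff, commutator_le]
      intro a _ b _
      rw [mem_bot, commutatorElement_eq_one_iff_mul_comm]
      exact mul_comm a b
    rw [this, inf_bot_eq]
  obtain ⟨μ, hμ⟩ := extend_hom I hbot hZ φ'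
  refine ⟨μ.comp Abelianization.of, ?_⟩
  intro s
  rw [← hφ', ← hμ]
  rfl

theorem units_div : ∀ (n : ℕ), n ≠ 0 → ∀ z : ℂˣ, ∃ y : ℂˣ, y ^ n = z := by
  intro n hn z
  obtain ⟨b, hb⟩ := IsAlgClosed.exists_pow_nat_eq (z : ℂ) (Nat.pos_of_ne_zero hn)
  have hb0 : b ≠ 0 := by
    rintro rfl
    rw [zero_pow hn] at hb
    exact z.ne_zero hb.symm
  refine ⟨Units.mk0 b hb0, ?_⟩
  apply Units.ext
  simpa using hb

/-- monomiality-type statement for `p`-groups -/
theorem exists_large_ext {P : Type u} [Group P] [Finite P] {p : ℕ} [Fact p.Prime] (hP : IsPGroup p P) (n : ℕ) :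
    ∀ (T A : Subgroup P) (hAT : A ≤ T) (hAn : ∀ t ∈ T, ∀ a ∈ A, t * a * t⁻¹ ∈ A) (lam : A →* ℂˣ)
      (hinv : ∀ (t : P) (ht : t ∈ T) (a : P) (ha : a ∈ A), lam ⟨t * a * t⁻¹, hAn t ht a ha⟩ = lam ⟨a, ha⟩),
      Nat.card T - Nat.card A = n →
      ∃ (H : Subgroup P) (hAH : A ≤ H) (_ : H ≤ T) (μ : H →* ℂˣ), (∀ (a : P) (ha : a ∈ A), μ ⟨a, hAH ha⟩ = lam ⟨a, ha⟩) ∧
        Nat.card T * Nat.card A ≤ Nat.card H ^ 2 := by
  induction n using Nat.strong_induction_on with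
  | _ n ih =>
  intro T A hAT hAn lam hinv hn
  by_cases hTA : T ≤ A
  · have : T = A := le_antisymm hTA hAT
    subst this
    exact ⟨T, le_rfl, le_rfl, lam, fun _ _ => rfl, by rw [sq]⟩
  -- the quotient T / A
  haveI hAN : (A.subgroupOf T).Normal := by
    constructor
    intro a ha g
    exact hAn g g.2 a ha
  have hTP : IsPGroup p T := hP.to_subgroup T
  have hQ : IsPGroup p (T ⧸ A.subgroupOf T) := hTP.to_quotient _
  haveI : Nontrivial (T ⧸ A.subgroupOf T) := by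
    rw [QuotientGroup.nontrivial_iff]
    intro h
    exact hTA (subgroupOf_eq_top.1 h)
  haveI : Nontrivial (center (T ⧸ A.subgroupOf T)) := hQ.center_nontrivial
  obtain ⟨z, hz⟩ : ∃ z : center (T ⧸ A.subgroupOf T), orderOf z = p := by
    obtain ⟨k, hk⟩ := IsPGroup.iff_card.1 (hQ.to_subgroup (center (T ⧸ A.subgroupOf T)))
    apply exists_prime_orderOf_dvd_card'
    have hk0 : k ≠ 0 := by
      rintro rfl
      rw [pow_zero] at hk
      exact absurd hk (Finite.one_lt_card (α := center (T ⧸ A.subgroupOf T))).ne'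
    rw [hk]
    exact dvd_pow_self p hk0
  obtain ⟨b₀, hb₀⟩ := QuotientGroup.mk'_surjective (A.subgroupOf T) (z : T ⧸ A.subgroupOf T)
  have key : ∀ x : T, QuotientGroup.mk' (A.subgroupOf T) x = 1 → (x : P) ∈ A := fun x hx =>
    ((QuotientGroup.eq_one_iff x).1 hx : x ∈ A.subgroupOf T)
  have hzo : orderOf (z : T ⧸ A.subgroupOf T) = p := by rw [Subgroup.orderOf_coe, hz]
  have hb₀p : ((b₀ : T) : P) ^ p ∈ A := by
    have h1 : QuotientGroup.mk' (A.subgroupOf T) (b₀ ^ p) = 1 := by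
      rw [map_pow, hb₀]
      conv_lhs => rw [← hzo]
      exact pow_orderOf_eq_one _
    exact key _ h1
  have hb₀c : ∀ t : T, ((t * b₀ * t⁻¹ * b₀⁻¹ : T) : P) ∈ A := by
    intro t
    have h1 : QuotientGroup.mk' (A.subgroupOf T) (t * b₀ * t⁻¹ * b₀⁻¹) = 1 := by
      rw [map_mul, map_mul, map_mul, map_inv, map_inv, hb₀]
      have h2 := mem_center_iff.1 z.2 (QuotientGroup.mk' (A.subgroupOf T) t)
      rw [h2]; group
    exact key _ h1
  let BT : Subgroup T := (zpowers (z : T ⧸ A.subgroupOf T)).comap (QuotientGroup.mk' (A.subgroupOf T))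
  let B : Subgroup P := BT.map T.subtype
  have hBT : B ≤ T := by
    rintro _ ⟨b, _, rfl⟩
    exact b.2
  have hBmem : ∀ x : P, x ∈ B ↔ ∃ a ∈ A, ∃ i : ℤ, x = a * (b₀ : P) ^ i := by
    intro x
    constructor
    · rintro ⟨b, hb, rfl⟩
      obtain ⟨i, hi⟩ := mem_zpowers_iff.1 hb
      refine ⟨((b * (b₀ ^ i)⁻¹ : T) : P), ?_, i, ?_⟩
      · have h1 : QuotientGroup.mk' (A.subgroupOf T) (b * (b₀ ^ i)⁻¹) = 1 := by
          rw [map_mul, map_inv, map_zpow, hb₀, hi, mul_inv_cancel]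
        exact key _ h1
      · simp
    · rintro ⟨a, ha, i, rfl⟩
      refine ⟨⟨a, hAT ha⟩ * b₀ ^ i, ?_, by simp⟩
      show QuotientGroup.mk' (A.subgroupOf T) (⟨a, hAT ha⟩ * b₀ ^ i) ∈ zpowers (z : T ⧸ A.subgroupOf T)
      rw [map_mul, map_zpow, hb₀]
      have h1 : QuotientGroup.mk' (A.subgroupOf T) ⟨a, hAT ha⟩ = 1 := (QuotientGroup.eq_one_iff _).2 ha
      rw [h1, one_mul]
      exact zpow_mem (mem_zpowers _) i
  have hAB : A ≤ B := fun a ha => (hBmem a).2 ⟨a, ha, 0, by simp⟩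
  have hb₀B : (b₀ : P) ∈ B := (hBmem _).2 ⟨1, one_mem _, 1, by simp⟩
  have hcardB : Nat.card B = p * Nat.card A := by
    have h1 : Nat.card B = Nat.card BT := Nat.card_congr (BT.equivMapOfInjective _ T.subtype_injective).symm.toEquiv
    have h2 : Nat.card (A.subgroupOf T) = Nat.card A := Nat.card_congr (subgroupOfEquivOfLe hAT).toEquiv
    rw [h1, card_comap_mk, Nat.card_zpowers, hzo, h2]
  have hBn : ∀ t ∈ T, ∀ b ∈ B, t * b * t⁻¹ ∈ B := by
    intro t ht b hb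
    obtain ⟨a, ha, i, rfl⟩ := (hBmem b).1 hb
    have h1 : t * (a * (b₀ : P) ^ i) * t⁻¹ = (t * a * t⁻¹) * (t * (b₀ : P) * t⁻¹) ^ i := by
      rw [conj_zpow]; group
    rw [h1]
    refine mul_mem (hAB (hAn t ht a ha)) (zpow_mem ?_ i)
    have h2 : t * (b₀ : P) * t⁻¹ = (t * (b₀ : P) * t⁻¹ * (b₀ : P)⁻¹) * (b₀ : P) := by group
    rw [h2]
    exact mul_mem (hAB (hb₀c ⟨t, ht⟩)) hb₀B
  -- extension to B
  obtain ⟨μ₀, hμ₀⟩ : ∃ μ₀ : B →* ℂˣ, ∀ (a : P) (ha : a ∈ A), μ₀ ⟨a, hAB ha⟩ = lam ⟨a, ha⟩ := by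
    let e : A.subgroupOf B →* A := (subgroupOfEquivOfLe hAB).toMonoidHom
    obtain ⟨μ, hμ⟩ := extend_hom' (A.subgroupOf B) units_div (lam.comp e) (by
      -- commutator B ≤ ker
      let N : Subgroup B := (lam.comp e).ker.map (A.subgroupOf B).subtype
      have hNmem : ∀ x : B, x ∈ N ↔ ∃ h : (x : P) ∈ A, lam ⟨x, h⟩ = 1 := by
        intro x
        constructor
        · rintro ⟨y, hy, rfl⟩
          exact ⟨y.2, hy⟩
        · rintro ⟨h, h1⟩
          exact ⟨⟨x, h⟩, h1, rfl⟩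
      haveI hNn : N.Normal := by
        constructor
        intro x hx g
        obtain ⟨h, h1⟩ := (hNmem x).1 hx
        refine (hNmem _).2 ⟨hAn g (hBT g.2) x h, ?_⟩
        exact (hinv g (hBT g.2) x h).trans h1
      haveI : (A.subgroupOf B).Normal := by
        constructor
        intro x hx g
        exact hAn g (hBT g.2) x hx
      have hNA : N ≤ (A.subgroupOf B) := by
        intro x hx
        exact ((hNmem x).1 hx).1
      let f : B ⧸ N →* B ⧸ (A.subgroupOf B) := QuotientGroup.map N (A.subgroupOf B) (MonoidHom.id B) hNA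
      have hf : f.ker ≤ center (B ⧸ N) := by
        intro x hx
        induction x using QuotientGroup.induction_on with
        | H x =>
          have hxA : (x : P) ∈ A := (QuotientGroup.eq_one_iff x).1 hx
          rw [mem_center_iff]
          intro g
          induction g using QuotientGroup.induction_on with
          | H g =>
            show (QuotientGroup.mk (g * x) : B ⧸ N) = QuotientGroup.mk (x * g)
            rw [QuotientGroup.eq]
            have h1 : ((g * x)⁻¹ * (x * g) : B) = x⁻¹ * (g⁻¹ * x * g) := by group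
            rw [h1, hNmem]
            have h2 : ((g : P))⁻¹ * x * g ∈ A := by
              have := hAn (g : P)⁻¹ (T.inv_mem (hBT g.2)) x hxA
              rwa [inv_inv] at this
            refine ⟨A.mul_mem (A.inv_mem hxA) h2, ?_⟩
            have h3 : (⟨(x : P)⁻¹ * ((g : P)⁻¹ * x * g), A.mul_mem (A.inv_mem hxA) h2⟩ : A) = (⟨x, hxA⟩ : A)⁻¹ * ⟨(g : P)⁻¹ * x * g, h2⟩ := rfl
            have h4 : lam ⟨(g : P)⁻¹ * x * g, h2⟩ = lam ⟨x, hxA⟩ := by
              rw [← hinv (g : P)⁻¹ (T.inv_mem (hBT g.2)) x hxA]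
              congr 1
              apply Subtype.ext
              simp
            show lam (⟨(x : P)⁻¹ * ((g : P)⁻¹ * x * g), A.mul_mem (A.inv_mem hxA) h2⟩ : A) = 1
            rw [h3, map_mul, map_inv, h4, inv_mul_cancel]
      haveI : IsCyclic (B ⧸ (A.subgroupOf B)) := by
        apply isCyclic_of_prime_card (p := p)
        have h1 := Subgroup.card_eq_card_quotient_mul_card_subgroup (A.subgroupOf B)
        have h2 : Nat.card (A.subgroupOf B) = Nat.card A := Nat.card_congr (subgroupOfEquivOfLe hAB).toEquiv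
        rw [hcardB, h2] at h1
        exact (Nat.eq_of_mul_eq_mul_right Nat.card_pos h1).symm
      have hcomm : ∀ a b : B ⧸ N, a * b = b * a := commutative_of_cyclic_center_quotient f hf
      have hle : commutator B ≤ N := by
        rw [_root_.commutator_def, commutator_le]
        intro a _ b _
        rw [← QuotientGroup.eq_one_iff]
        show ⁅(QuotientGroup.mk a : B ⧸ N), (QuotientGroup.mk b : B ⧸ N)⁆ = 1
        rw [commutatorElement_eq_one_iff_mul_comm]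
        exact hcomm _ _
      intro s hs
      obtain ⟨h, h1⟩ := (hNmem _).1 (hle hs)
      exact h1)
    refine ⟨μ, fun a ha => ?_⟩
    exact hμ ⟨⟨a, hAB ha⟩, ha⟩
  -- θ
  let θ : T →* ℂˣ :=
    { toFun := fun g => μ₀ ⟨(g : P) * b₀ * (g : P)⁻¹, hBn g g.2 b₀ hb₀B⟩ * (μ₀ ⟨b₀, hb₀B⟩)⁻¹
      map_one' := by
        have : (⟨((1 : T) : P) * b₀ * ((1 : T) : P)⁻¹, hBn _ (1 : T).2 b₀ hb₀B⟩ : B) = ⟨b₀, hb₀B⟩ := Subtype.ext (by simp)
        rw [this, mul_inv_cancel]
      map_mul' := by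
        intro g h
        have hc := hb₀c h
        set c : P := ((h * b₀ * h⁻¹ * b₀⁻¹ : T) : P) with hcdef
        have e1 : (⟨((g * h : T) : P) * b₀ * ((g * h : T) : P)⁻¹, hBn _ (g * h).2 b₀ hb₀B⟩ : B) =
            ⟨(g : P) * c * (g : P)⁻¹, hAB (hAn g g.2 c hc)⟩ * ⟨(g : P) * b₀ * (g : P)⁻¹, hBn g g.2 b₀ hb₀B⟩ := by
          apply Subtype.ext
          simp only [hcdef, Subgroup.coe_mul, Subgroup.coe_inv]
          group
        have e2 : (⟨(h : P) * b₀ * (h : P)⁻¹, hBn h h.2 b₀ hb₀B⟩ : B) = ⟨c, hAB hc⟩ * ⟨b₀, hb₀B⟩ := by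
          apply Subtype.ext
          simp only [hcdef, Subgroup.coe_mul, Subgroup.coe_inv]
          group
        rw [e1, e2, map_mul, map_mul, hμ₀ _ (hAn g g.2 c hc), hinv g g.2 c hc, hμ₀ c hc]
        rw [mul_inv_cancel_right, mul_assoc, mul_comm] }
  have hθp : ∀ g, θ g ^ p = 1 := by
    intro g
    let ψ : B →* ℂˣ := MonoidHom.mk' (fun b => μ₀ ⟨(g : P) * b * (g : P)⁻¹, hBn g g.2 b b.2⟩ * (μ₀ b)⁻¹) (by
      intro b b'
      have e1 : (⟨(g : P) * ((b * b' : B) : P) * (g : P)⁻¹, hBn g g.2 _ (b * b').2⟩ : B) =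
          ⟨(g : P) * b * (g : P)⁻¹, hBn g g.2 b b.2⟩ * ⟨(g : P) * b' * (g : P)⁻¹, hBn g g.2 b' b'.2⟩ := by
        apply Subtype.ext
        simp only [Subgroup.coe_mul]
        group
      rw [e1, map_mul, map_mul, mul_inv]
      exact mul_mul_mul_comm _ _ _ _)
    have h1 : θ g = ψ ⟨b₀, hb₀B⟩ := rfl
    rw [h1, ← map_pow]
    have h2 : (⟨b₀, hb₀B⟩ : B) ^ p = ⟨(b₀ : P) ^ p, hAB hb₀p⟩ := rfl
    rw [h2]
    show μ₀ ⟨(g : P) * (b₀ : P) ^ p * (g : P)⁻¹, _⟩ * (μ₀ ⟨(b₀ : P) ^ p, hAB hb₀p⟩)⁻¹ = 1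
    rw [hμ₀ _ (hAn g g.2 _ hb₀p), hinv g g.2 _ hb₀p, hμ₀ _ hb₀p, mul_inv_cancel]
  have hrange : Nat.card θ.range ≤ p := by
    have h1 : θ.range ≤ rootsOfUnity p ℂ := by
      rintro _ ⟨g, rfl⟩
      rw [mem_rootsOfUnity]
      exact hθp g
    haveI : NeZero p := ⟨(Fact.out : p.Prime).ne_zero⟩
    calc Nat.card θ.range ≤ Nat.card (rootsOfUnity p ℂ) := Nat.card_le_card_of_injective _ (Subgroup.inclusion_injective h1)
      _ ≤ p := card_rootsOfUnity ℂ p
  let T' : Subgroup P := θ.ker.map T.subtype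
  have hT'T : T' ≤ T := by
    rintro _ ⟨b, _, rfl⟩
    exact b.2
  have hcardT : Nat.card T ≤ p * Nat.card T' := by
    have h1 : Nat.card T' = Nat.card θ.ker := Nat.card_congr (θ.ker.equivMapOfInjective _ T.subtype_injective).symm.toEquiv
    rw [h1, Subgroup.card_eq_card_quotient_mul_card_subgroup θ.ker,
      Nat.card_congr (QuotientGroup.quotientKerEquivRange θ).toEquiv]
    exact Nat.mul_le_mul_right _ hrange
  have hBT' : B ≤ T' := by
    intro b hb
    refine ⟨⟨b, hBT hb⟩, ?_, rfl⟩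
    show μ₀ ⟨b * b₀ * b⁻¹, _⟩ * (μ₀ ⟨b₀, hb₀B⟩)⁻¹ = 1
    have e1 : (⟨b * b₀ * b⁻¹, hBn b (hBT hb) b₀ hb₀B⟩ : B) = ⟨b, hb⟩ * ⟨b₀, hb₀B⟩ * (⟨b, hb⟩)⁻¹ := rfl
    rw [e1, map_mul, map_mul, map_inv, mul_comm (μ₀ ⟨b, hb⟩), mul_inv_cancel_right, mul_inv_cancel]
  have hinv' : ∀ (t : P) (ht : t ∈ T') (b : P) (hb : b ∈ B), μ₀ ⟨t * b * t⁻¹, hBn t (hT'T ht) b hb⟩ = μ₀ ⟨b, hb⟩ := by
    rintro t ⟨g, hg, rfl⟩ b hb
    have hg' : μ₀ ⟨(g : P) * b₀ * (g : P)⁻¹, hBn g g.2 b₀ hb₀B⟩ * (μ₀ ⟨b₀, hb₀B⟩)⁻¹ = 1 := hg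
    rw [mul_inv_eq_one] at hg'
    obtain ⟨a, ha, i, rfl⟩ := (hBmem b).1 hb
    have e1 : (⟨(g : P) * (a * (b₀ : P) ^ i) * (g : P)⁻¹, hBn g g.2 _ hb⟩ : B) =
        ⟨(g : P) * a * (g : P)⁻¹, hAB (hAn g g.2 a ha)⟩ * ⟨(g : P) * b₀ * (g : P)⁻¹, hBn g g.2 b₀ hb₀B⟩ ^ i := by
      apply Subtype.ext
      simp only [Subgroup.coe_mul, Subgroup.coe_zpow, conj_zpow]
      group
    have e2 : (⟨a * (b₀ : P) ^ i, hb⟩ : B) = ⟨a, hAB ha⟩ * ⟨b₀, hb₀B⟩ ^ i := by
      apply Subtype.ext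
      simp only [Subgroup.coe_mul, Subgroup.coe_zpow]
    show μ₀ ⟨(g : P) * (a * (b₀ : P) ^ i) * (g : P)⁻¹, _⟩ = _
    rw [e1, e2, map_mul, map_mul, map_zpow, map_zpow, hg', hμ₀ _ (hAn g g.2 a ha), hinv g g.2 a ha, hμ₀ a ha]
  have hcB : Nat.card A < Nat.card B := by
    rw [hcardB]
    have h1 := (Fact.out : p.Prime).one_lt
    have h2 : 0 < Nat.card A := Nat.card_pos
    nlinarith
  have hcT' : Nat.card B ≤ Nat.card T' := Nat.card_le_card_of_injective _ (Subgroup.inclusion_injective hBT')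
  have hcT : Nat.card T' ≤ Nat.card T := Nat.card_le_card_of_injective _ (Subgroup.inclusion_injective hT'T)
  obtain ⟨H, hBH, hHT, μ, hμ, hcard⟩ := ih (Nat.card T' - Nat.card B) (by omega) T' B hBT'
    (fun t ht b hb => hBn t (hT'T ht) b hb) μ₀ hinv' rfl
  refine ⟨H, hAB.trans hBH, hHT.trans hT'T, μ, ?_, ?_⟩
  · intro a ha
    rw [← hμ₀ a ha]
    exact hμ a (hAB ha)
  · calc Nat.card T * Nat.card A ≤ (p * Nat.card T') * Nat.card A := Nat.mul_le_mul_right _ hcardT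
      _ = Nat.card T' * Nat.card B := by rw [hcardB]; ring
      _ ≤ _ := hcard

theorem central_char_index {P : Type u} [Group P] [Finite P] {p : ℕ} [Fact p.Prime] (hP : IsPGroup p P)
    (A : Subgroup P) (hAc : A ≤ center P) (hAd : A ≤ commutator P) (lam : A →* ℂˣ) (a : A) :
    (orderOf (lam a)) ^ 2 ∣ A.index := by
  have hconj : ∀ t ∈ (⊤ : Subgroup P), ∀ a ∈ A, t * a * t⁻¹ ∈ A := by
    intro t _ a ha
    rw [mem_center_iff.1 (hAc ha) t, mul_inv_cancel_right]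
    exact ha
  obtain ⟨H, hAH, _, μ, hμ, hcard⟩ := exists_large_ext hP _ ⊤ A le_top hconj lam (by
    intro t ht a ha
    congr 1
    apply Subtype.ext
    show t * a * t⁻¹ = a
    rw [mem_center_iff.1 (hAc ha) t, mul_inv_cancel_right]) rfl
  have hp : p.Prime := Fact.out
  have key : ∀ (k : ℕ) (g₀ : P), g₀⁻¹ * (a : P) ^ k * g₀ ∈ H → g₀⁻¹ * (a : P) ^ k * g₀ = (a : P) ^ k := by
    intro k g₀ _
    have h1 := mem_center_iff.1 (pow_mem (hAc a.2) k) g₀
    rw [mul_assoc, ← h1, inv_mul_cancel_left]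
  have h1 := MonoidHom.transfer_eq_pow μ (a : P) key
  have h2 : MonoidHom.transfer μ (a : P) = 1 := Abelianization.commutator_subset_ker _ (hAd a.2)
  rw [h2] at h1
  have h3 : (⟨(a : P) ^ H.index, MonoidHom.transfer_eq_pow_aux (a : P) key⟩ : H) = ⟨((a ^ H.index : A) : P), hAH (a ^ H.index).2⟩ := rfl
  rw [h3, hμ _ (a ^ H.index).2] at h1
  have h4 : (lam a) ^ H.index = 1 := by
    rw [← map_pow]; exact h1.symm
  have h5 : orderOf (lam a) ∣ H.index := orderOf_dvd_of_pow_eq_one h4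
  refine (pow_dvd_pow_of_dvd h5 2).trans ?_
  obtain ⟨j, hj⟩ := hP.index H
  obtain ⟨l, hl⟩ := hP.index A
  have h6 : H.index ^ 2 ≤ A.index := by
    have e1 : Nat.card H * H.index = Nat.card P := H.card_mul_index
    have e2 : Nat.card A * A.index = Nat.card P := A.card_mul_index
    rw [Subgroup.card_top] at hcard
    have h0 : 0 < Nat.card P * Nat.card A := Nat.mul_pos Nat.card_pos Nat.card_pos
    apply Nat.le_of_mul_le_mul_left (c := Nat.card P * Nat.card A) _ h0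
    calc Nat.card P * Nat.card A * H.index ^ 2 ≤ Nat.card H ^ 2 * H.index ^ 2 := Nat.mul_le_mul_right _ hcard
      _ = Nat.card P ^ 2 := by rw [← mul_pow, e1]
      _ = Nat.card P * Nat.card A * A.index := by rw [mul_assoc, e2, sq]
  rw [hj, hl, ← pow_mul] at *
  exact pow_dvd_pow p ((Nat.pow_le_pow_iff_right hp.one_lt).1 h6)

/-- S3952 -/
theorem exponent_sq_dvd {Γ : Type u} [Group Γ] [Finite Γ] {Q : Type v} [Group Q] [Finite Q] (σ : Γ →* Q)
    (hσ : IsStemExtension σ) (a : σ.ker) (p : ℕ) [Fact p.Prime] (k : ℕ) (ha : orderOf a = p ^ k) :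
    (p ^ k) ^ 2 ∣ Nat.card Q := by
  have hp : p.Prime := Fact.out
  rcases Nat.eq_zero_or_pos k with hk | hk
  · subst hk; simp
  let P : Sylow p Γ := default
  have haz : (a : Γ) ∈ center Γ := hσ.2.1 a.2
  -- a ∈ P
  have haP : (a : Γ) ∈ (P : Subgroup Γ) := by
    have h1 : IsPGroup p (zpowers (a : Γ)) := by
      apply IsPGroup.of_card (n := k)
      rw [Nat.card_zpowers, Subgroup.orderOf_coe, ha]
    obtain ⟨P', hP'⟩ := h1.exists_le_sylow
    obtain ⟨g, hg⟩ := MulAction.exists_smul_eq Γ P' P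
    have h2 : (a : Γ) ∈ (P' : Subgroup Γ) := hP' (mem_zpowers _)
    rw [← hg]
    refine ⟨a, h2, ?_⟩
    show g * a * g⁻¹ = a
    rw [mem_center_iff.1 haz g, mul_inv_cancel_right]
  let A : Subgroup P := σ.ker.subgroupOf P
  have hAc : A ≤ center P := by
    intro x hx
    rw [mem_center_iff]
    intro g
    exact Subtype.ext (mem_center_iff.1 (hσ.2.1 hx) g)
  have hm : ¬ p ∣ (P : Subgroup Γ).index := P.not_dvd_index
  have hAd : A ≤ commutator P := by
    intro x hx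
    have hxz : (x : Γ) ∈ center Γ := hσ.2.1 hx
    have key : ∀ (k : ℕ) (g₀ : Γ), g₀⁻¹ * (x : Γ) ^ k * g₀ ∈ (P : Subgroup Γ) → g₀⁻¹ * (x : Γ) ^ k * g₀ = (x : Γ) ^ k := by
      intro k g₀ _
      have h1 := mem_center_iff.1 (pow_mem hxz k) g₀
      rw [mul_assoc, ← h1, inv_mul_cancel_left]
    have h1 := MonoidHom.transfer_eq_pow (Abelianization.of : P →* Abelianization P) (x : Γ) key
    have h2 : MonoidHom.transfer (Abelianization.of : P →* Abelianization P) (x : Γ) = 1 :=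
      Abelianization.commutator_subset_ker _ (hσ.2.2 hx)
    rw [h2] at h1
    have h3 : (⟨(x : Γ) ^ (P : Subgroup Γ).index, MonoidHom.transfer_eq_pow_aux (x : Γ) key⟩ : P) = x ^ (P : Subgroup Γ).index := rfl
    rw [h3] at h1
    have h4 : x ^ (P : Subgroup Γ).index ∈ commutator P := by
      rw [← Abelianization.ker_of]; exact h1.symm
    -- coprime
    obtain ⟨j, hj⟩ := IsPGroup.iff_orderOf.1 P.2 x
    have hcop : Nat.Coprime (P : Subgroup Γ).index (p ^ j) := ((hp.coprime_iff_not_dvd).2 hm).symm.pow_right j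
    have h5 : x ∈ zpowers (x ^ (P : Subgroup Γ).index) := by
      obtain ⟨m, hm'⟩ := inv_modEq_aux hcop
      refine mem_zpowers_iff.2 ⟨m, ?_⟩
      rw [zpow_natCast, ← pow_mul]
      have h6 : x ^ ((P : Subgroup Γ).index * m) = x ^ 1 := pow_eq_pow_iff_modEq.2 (by rw [hj]; exact hm')
      rw [h6, pow_one]
    exact (zpowers_le.2 h4) h5
  -- a character
  let a' : A := ⟨⟨a, haP⟩, a.2⟩
  have ha' : orderOf a' = p ^ k := by
    rw [← ha, ← Subgroup.orderOf_coe a', ← Subgroup.orderOf_coe (a' : P), ← Subgroup.orderOf_coe a]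
  letI : CommGroup A := { (inferInstance : Group A) with
    mul_comm := fun x y => Subtype.ext (mem_center_iff.1 (hAc y.2) x) }
  obtain ⟨lam, hlam⟩ := CommGroup.exists_apply_ne_one_of_hasEnoughRootsOfUnity A ℂ (a := a' ^ p ^ (k - 1)) (by
    intro h
    have h1 := orderOf_dvd_of_pow_eq_one h
    rw [ha'] at h1
    have h2 := (Nat.pow_dvd_pow_iff_le_right hp.one_lt).1 h1
    omega)
  have hord : orderOf (lam a') = p ^ k := by
    have h1 : orderOf (lam a') = p ^ (k - 1 + 1) := by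
      apply orderOf_eq_prime_pow
      · rw [← map_pow]; exact hlam
      · rw [← map_pow, Nat.sub_add_cancel hk, ← ha', pow_orderOf_eq_one, map_one]
    rw [h1, Nat.sub_add_cancel hk]
  have h1 := central_char_index P.2 A hAc hAd lam a'
  rw [hord] at h1
  refine h1.trans ?_
  have h2 : A.index ∣ σ.ker.index := Subgroup.relIndex_dvd_index_of_normal σ.ker (P : Subgroup Γ)
  have h3 : σ.ker.index = Nat.card Q := by
    rw [Subgroup.index_ker, MonoidHom.range_eq_top.2 hσ.1, Subgroup.card_top]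
  rwa [h3] at h2

end CfsgH1
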