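import Cfsg.Agent.H1.CopExtra
import Cfsg.Agent.H1.Ito
import Cfsg.Agent.H1.FF4
import Cfsg.Agent.H7.Syl
import Cfsg.Prelude.Def_PLocal

set_option autoImplicit false

/-! Uniserial action. -/

open Cfsg Subgroup
open scoped Pointwise commutatorElement

namespace CfsgH1

universe u v

variable {L : Type u} [Group L] [Finite L] {p : ℕ} [hp : Fact p.Prime]

theorem ic_norm {N G : Subgroup L} (hGN : G ≤ normalizer (N : Set L)) (i : ℕ) : G ≤ normalizer (iterCommutator N G i : Set L) := by
  cases i with
  | zero => exact hGN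
  | succ i => exact le_normalizer_commutator_right _ _

theorem ic_succ_le {N G : Subgroup L} (hGN : G ≤ normalizer (N : Set L)) (i : ℕ) : iterCommutator N G (i + 1) ≤ iterCommutator N G i := 
  commutator_le_self_of_norm (ic_norm hGN i)

theorem ic_le {N G : Subgroup L} (hGN : G ≤ normalizer (N : Set L)) (i : ℕ) : iterCommutator N G i ≤ N := by
  induction i with
  | zero => exact le_rfl
  | succ i ih => exact (ic_succ_le hGN i).trans ih

theorem ic_anti {N G : Subgroup L} (hGN : G ≤ normalizer (N : Set L)) {i j : ℕ} (h : i ≤ j) : iterCommutator N G j ≤ iterCommutator N G i := 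
  antitone_nat_of_succ_le (ic_succ_le hGN) h

theorem card_mul_le_of_lt' {A B : Subgroup L} (hB : IsPGroup p B) (h : A < B) : Nat.card A * p ≤ Nat.card B := by
  obtain ⟨b, hb⟩ := IsPGroup.iff_card.1 hB
  obtain ⟨a, ha⟩ := IsPGroup.iff_card.1 (hB.to_le h.le)
  have h1 : Nat.card A < Nat.card B := by
    refine lt_of_le_of_ne (Subgroup.card_le_of_le h.le) fun e => h.ne (Subgroup.eq_of_le_of_card_ge h.le e.ge)
  rw [ha, hb] at h1 ⊢
  have h2 := (Nat.pow_lt_pow_iff_right hp.out.one_lt).1 h1
  rw [← pow_succ]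
  exact Nat.pow_le_pow_right hp.out.pos h2

theorem ic_card_le {N G : Subgroup L} (hN : IsPGroup p N) (hG : IsPGroup p G) (hGN : G ≤ normalizer (N : Set L)) (n : ℕ) (hn : Nat.card N = p ^ n) (i : ℕ) (hi : i ≤ n) : 
    Nat.card (iterCommutator N G i) ≤ p ^ (n - i) := by
  induction i with
  | zero => exact hn.le
  | succ i ih =>
    by_cases h : iterCommutator N G i = ⊥
    · have : iterCommutator N G (i + 1) = ⊥ := le_bot_iff.1 ((ic_succ_le hGN i).trans h.le)
      rw [this, Subgroup.card_bot]
      exact Nat.one_le_pow _ _ hp.out.pos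
    · have h1 := commutator_lt_of_pgroup (hN.to_le (ic_le hGN i)) hG (ic_norm hGN i) h
      have h2 := card_mul_le_of_lt' (hN.to_le (ic_le hGN i)) h1
      have h3 := ih (by omega)
      have h4 : n - i = (n - (i + 1)) + 1 := by omega
      rw [h4, pow_succ] at h3
      exact Nat.le_of_mul_le_mul_right (h2.trans h3) hp.out.pos

theorem ic_bot {N G : Subgroup L} (hN : IsPGroup p N) (hG : IsPGroup p G) (hGN : G ≤ normalizer (N : Set L)) (n : ℕ) (hn : Nat.card N = p ^ n) : iterCommutator N G n = ⊥ := by
  have h1 := ic_card_le hN hG hGN n hn n le_rfl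
  rw [Nat.sub_self, pow_zero] at h1
  exact Subgroup.card_le_one_iff_eq_bot _ |>.1 h1

/-- a long chain has all factors of order `p` -/
theorem ic_card_of_long {N G : Subgroup L} (hN : IsPGroup p N) (hG : IsPGroup p G) (hGN : G ≤ normalizer (N : Set L)) (n : ℕ) (hn : Nat.card N = p ^ n) 
    (h : iterCommutator N G (n - 1) ≠ ⊥ ∨ n = 0) (i : ℕ) (hi : i ≤ n) : Nat.card (iterCommutator N G i) = p ^ (n - i) := by
  apply le_antisymm (ic_card_le hN hG hGN n hn i hi)
  rcases h with h | h
  · rcases Nat.lt_or_ge i n with hin | hin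
    · obtain ⟨k, hk⟩ : ∃ k, i + k = n - 1 := ⟨n - 1 - i, by omega⟩
      induction k generalizing i with
      | zero =>
        have : i = n - 1 := by omega
        subst this
        have h1 : (⊥ : Subgroup L) < iterCommutator N G (n - 1) := bot_lt_iff_ne_bot.2 h
        have h2 := card_mul_le_of_lt' (hN.to_le (ic_le hGN _)) h1
        rw [Subgroup.card_bot, one_mul] at h2
        have : n - (n - 1) = 1 := by omega
        rw [this, pow_one]; exact h2
      | succ k ih =>
        have h1 := ih (i + 1) (by omega) (by omega) (by omega)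
        have hne : iterCommutator N G i ≠ ⊥ := by
          intro h2
          apply h
          exact le_bot_iff.1 ((ic_anti hGN (show i ≤ n - 1 by omega)).trans h2.le)
        have h2 := commutator_lt_of_pgroup (hN.to_le (ic_le hGN i)) hG (ic_norm hGN i) hne
        have h3 := card_mul_le_of_lt' (hN.to_le (ic_le hGN i)) h2
        have h4 : n - i = (n - (i + 1)) + 1 := by omega
        rw [h4, pow_succ]
        exact (Nat.mul_le_mul_right p h1).trans h3
    · have : n - i = 0 := by omega
      rw [this, pow_zero]; exact Nat.card_pos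
  · have : n - i = 0 := by omega
    rw [this, pow_zero]; exact Nat.card_pos

theorem sup_comm_aux {M G H : Subgroup L} (hGH : G ≤ normalizer (H : Set L)) (hMH : M ≤ normalizer (H : Set L)) : ⁅M ⊔ H, G⁆ ≤ ⁅M, G⁆ ⊔ H := by
  rw [Subgroup.commutator_le]
  intro x hx g hg
  obtain ⟨m, hm, h, hh, rfl⟩ := (mem_sup_of_le_normalizer hMH).1 hx
  have e : ⁅m * h, g⁆ = m * ⁅h, g⁆ * m⁻¹ * ⁅m, g⁆ := by simp only [commutatorElement_def]; group
  rw [e]
  refine mul_mem (Subgroup.mem_sup_right ?_) (Subgroup.mem_sup_left (Subgroup.commutator_mem_commutator hm hg))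
  apply (Subgroup.mem_normalizer_iff.1 (hMH hm) _).1
  rw [commutatorElement_def]
  have h1 := (Subgroup.mem_normalizer_iff.1 (hGH hg) h⁻¹).1 (inv_mem hh)
  have e2 : h * g * h⁻¹ * g⁻¹ = h * (g * h⁻¹ * g⁻¹) := by group
  rw [e2]; exact mul_mem hh h1

/-- an invariant subgroup not inside `[M,G]` when `|M:[M,G]| = p` is everything -/
theorem eq_of_not_le {M G H : Subgroup L} (hM : IsPGroup p M) (hG : IsPGroup p G) (hGM : G ≤ normalizer (M : Set L)) (hcard : Nat.card M = Nat.card (⁅M, G⁆ : Subgroup L) * p)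
    (hHM : H ≤ M) (hGH : G ≤ normalizer (H : Set L)) (hnot : ¬ H ≤ ⁅M, G⁆) : H = M := by
  by_contra hne
  obtain ⟨H', ⟨hH1, hH2, hH3⟩, hmax⟩ := Set.Finite.exists_maximalFor (fun K : Subgroup L => K) {K : Subgroup L | H ≤ K ∧ K < M ∧ G ≤ normalizer (K : Set L)} (Set.toFinite _) ⟨H, le_rfl, lt_of_le_of_ne hHM hne, hGH⟩
  -- H' is normalized by M
  have hgrow := CfsgH7.lt_inf_normalizer hM hH2
  have hMH' : M ≤ normalizer (H' : Set L) := by
    by_contra hcon
    have h1 : M ⊓ normalizer (H' : Set L) < M := lt_of_le_of_ne inf_le_left fun e => hcon (by rw [← e]; exact inf_le_right)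
    have h2 : G ≤ normalizer ((M ⊓ normalizer (H' : Set L) : Subgroup L) : Set L) := le_normalizer_inf hGM (hH3.trans Subgroup.le_normalizer)
    have h3 := hmax ⟨hH1.trans hgrow.le, h1, h2⟩ hgrow.le
    exact absurd h3 (not_le_of_gt hgrow)
  -- [M,G] H' = M
  have hMG : ⁅M, G⁆ ≤ M := commutator_le_self_of_norm hGM
  have hK : M ≤ ⁅M, G⁆ ⊔ H' := by
    have h1 : ⁅M, G⁆ < ⁅M, G⁆ ⊔ H' := by
      refine lt_of_le_of_ne le_sup_left fun e => hnot ?_
      rw [e]; exact hH1.trans le_sup_right
    have hle : ⁅M, G⁆ ⊔ H' ≤ M := sup_le hMG hH2.le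
    have h2 := card_mul_le_of_lt' (hM.to_le hle) h1
    rw [← hcard] at h2
    exact (Subgroup.eq_of_le_of_card_ge hle h2).ge
  have hit : ∀ k, M ≤ iterCommutator M G k ⊔ H' := by
    intro k
    induction k with
    | zero => exact le_sup_left
    | succ k ih =>
      have h1 : ⁅M, G⁆ ≤ iterCommutator M G (k + 1) ⊔ H' := (Subgroup.commutator_mono ih le_rfl).trans (sup_comm_aux hH3 ((ic_le hGM k).trans hMH'))
      exact hK.trans (sup_le h1 le_sup_right)
  obtain ⟨n, hn⟩ := IsPGroup.iff_card.1 hM
  have h1 := hit n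
  rw [ic_bot hM hG hGM n hn, bot_sup_eq] at h1
  exact absurd h1 (not_le_of_gt hH2)

/-- invariant subgroups are chain terms -/
theorem inv_eq_chain {N G : Subgroup L} (hN : IsPGroup p N) (hG : IsPGroup p G) (hGN : G ≤ normalizer (N : Set L)) (n : ℕ) (hn : Nat.card N = p ^ n) 
    (hc : ∀ i ≤ n, Nat.card (iterCommutator N G i) = p ^ (n - i)) (H : Subgroup L) (hHN : H ≤ N) (hGH : G ≤ normalizer (H : Set L)) : ∃ i ≤ n, H = iterCommutator N G i := by
  have key : ∀ k i, i + k = n → H ≤ iterCommutator N G i → ∃ j ≤ n, H = iterCommutator N G j := by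
    intro k
    induction k with
    | zero =>
      intro i hi h
      refine ⟨n, le_rfl, ?_⟩
      rw [add_zero] at hi
      subst hi
      rw [ic_bot hN hG hGN i hn] at h ⊢
      exact le_bot_iff.1 h
    | succ k ih =>
      intro i hi h
      by_cases h1 : H ≤ iterCommutator N G (i + 1)
      · exact ih (i + 1) (by omega) h1
      · refine ⟨i, by omega, ?_⟩
        refine eq_of_not_le (hN.to_le (ic_le hGN i)) hG (ic_norm hGN i) ?_ h hGH h1
        have h2 := hc i (by omega)
        have h3 := hc (i + 1) (by omega)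
        rw [h2]
        change _ = Nat.card (iterCommutator N G (i + 1)) * p
        rw [h3, ← pow_succ]
        congr 1
        omega
  exact key n 0 (by omega) hHN

theorem chain_normal {N G : Subgroup L} (hN : IsPGroup p N) (hG : IsPGroup p G) (hGN : G ≤ normalizer (N : Set L)) (n : ℕ) (hn : Nat.card N = p ^ n) 
    (hc : ∀ i ≤ n, Nat.card (iterCommutator N G i) = p ^ (n - i)) (k : ℕ) : ∀ i, i + k = n → N ≤ normalizer (iterCommutator N G i : Set L) := by
  induction k with
  | zero =>
    intro i hi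
    rw [add_zero] at hi
    subst hi
    rw [ic_bot hN hG hGN i hn]
    rw [Subgroup.normalizer_eq_top]
    exact le_top
  | succ k ih =>
    intro i hi
    set P := N ⊔ G with hP
    have hPp : IsPGroup p P := isPGroup_sup hN hG hGN
    have hPN : P ≤ normalizer (N : Set L) := sup_le Subgroup.le_normalizer hGN
    set K := iterCommutator N G (i + 1) with hK
    have hNK : N ≤ normalizer (K : Set L) := ih (i + 1) (by omega)
    have hPK : P ≤ normalizer (K : Set L) := sup_le hNK (ic_norm hGN _)
    have hNnot : ¬ N ≤ K := by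
      intro h
      have h1 := Subgroup.card_le_of_le h
      rw [hn, hc (i + 1) (by omega)] at h1
      have := (Nat.pow_le_pow_iff_right hp.out.one_lt).1 h1
      omega
    -- T_j
    have hex : ∃ j, iterCommutator N P j ≤ K := ⟨n, by rw [ic_bot hN hPp hPN n hn]; exact bot_le⟩
    classical
    set j := Nat.find hex with hj
    have hj1 : iterCommutator N P j ≤ K := Nat.find_spec hex
    have hj0 : j ≠ 0 := by
      intro h
      rw [h] at hj1
      exact hNnot hj1
    obtain ⟨m, hm⟩ : ∃ m, j = m + 1 := ⟨j - 1, by omega⟩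
    have hT : ¬ iterCommutator N P m ≤ K := Nat.find_min hex (by omega)
    rw [hm] at hj1
    have hTK : ⁅iterCommutator N P m, P⁆ ≤ K := hj1
    set Z := iterCommutator N P m ⊔ K with hZ
    have hZN : Z ≤ N := sup_le (ic_le hPN m) (ic_le hGN _)
    have hPZ : P ≤ normalizer (Z : Set L) := by
      rw [Subgroup.le_normalizer_iff_commutator_le_left]
      refine (sup_comm_aux hPK ((ic_le hPN m).trans hNK)).trans ?_
      exact sup_le (hTK.trans le_sup_right) le_sup_right
    obtain ⟨r, hr, hZr⟩ := inv_eq_chain hN hG hGN n hn hc Z hZN (le_sup_right.trans hPZ)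
    have hri : r ≤ i := by
      by_contra h
      apply hT
      refine le_trans le_sup_left (?_ : Z ≤ K)
      rw [hZr]
      exact ic_anti hGN (by omega)
    have h1 : iterCommutator N G i ≤ Z := by rw [hZr]; exact ic_anti hGN hri
    rw [Subgroup.le_normalizer_iff_commutator_le_left]
    have h2 : ⁅iterCommutator N G i, N⁆ ≤ ⁅Z, P⁆ := Subgroup.commutator_mono h1 le_sup_left
    refine h2.trans ?_
    refine (sup_comm_aux hPK ((ic_le hPN m).trans hNK)).trans ?_
    exact (sup_le hTK le_rfl).trans (ic_succ_le hGN i)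

/-- **S0663** -/
theorem uniserial_main (N G : Subgroup L) (hN : IsPGroup p N) (hG : IsPGroup p G) (hGN : G ≤ Subgroup.normalizer (N : Set L)) (n : ℕ) (hn : Nat.card N = p ^ n) : 
    ((∀ H : Subgroup L, H ≤ N → G ≤ Subgroup.normalizer (H : Set L) → H ≠ ⊥ → (⁅H, G⁆).relIndex H = p) ↔ iterCommutator N G (n - 1) ≠ ⊥ ∨ n = 0) ∧ ((∀ H : Subgroup L, H ≤ N → G ≤ Subgroup.normalizer (H : Set L) → H ≠ ⊥ → (⁅H, G⁆).relIndex H = p) → ∀ H : Subgroup L, H ≤ N → G ≤ Subgroup.normalizer (H : Set L) → (∃ i ≤ n, H = iterCommutator N G i) ∧ N ≤ Subgroup.normalizer (H : Set L)) := by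
  have hto : (∀ H : Subgroup L, H ≤ N → G ≤ Subgroup.normalizer (H : Set L) → H ≠ ⊥ → (⁅H, G⁆).relIndex H = p) → ∀ i ≤ n, Nat.card (iterCommutator N G i) = p ^ (n - i) := by
    intro h i
    induction i with
    | zero => intro _; exact hn
    | succ i ih =>
      intro hi
      have h1 := ih (by omega)
      have hne : iterCommutator N G i ≠ ⊥ := by
        intro h2
        rw [h2, Subgroup.card_bot] at h1
        have h3 : n - i ≠ 0 := by omega
        exact absurd h1.symm (Nat.one_lt_pow h3 hp.out.one_lt).ne'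
      have h2 := h _ (ic_le hGN i) (ic_norm hGN i) hne
      have h3 := Subgroup.card_mul_index ((iterCommutator N G (i + 1)).subgroupOf (iterCommutator N G i))
      have h4 : Nat.card ((iterCommutator N G (i + 1)).subgroupOf (iterCommutator N G i)) = Nat.card (iterCommutator N G (i + 1)) := 
        Nat.card_congr (Subgroup.subgroupOfEquivOfLe (ic_succ_le hGN i)).toEquiv
      rw [h4] at h3
      have h5 : ((iterCommutator N G (i + 1)).subgroupOf (iterCommutator N G i)).index = p := h2
      rw [h5, h1] at h3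
      have h6 : n - i = (n - (i + 1)) + 1 := by omega
      rw [h6, pow_succ] at h3
      exact Nat.eq_of_mul_eq_mul_right hp.out.pos h3
  refine ⟨⟨?_, ?_⟩, ?_⟩
  · intro h
    rcases Nat.eq_zero_or_pos n with h0 | h0
    · right; exact h0
    · left
      intro h1
      have h2 := hto h (n - 1) (by omega)
      rw [h1, Subgroup.card_bot] at h2
      have h3 : n - (n - 1) ≠ 0 := by omega
      exact absurd h2.symm (Nat.one_lt_pow h3 hp.out.one_lt).ne'
  · intro h H hHN hGH hHne
    have hc := ic_card_of_long hN hG hGN n hn h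
    obtain ⟨i, hi, rfl⟩ := inv_eq_chain hN hG hGN n hn hc H hHN hGH
    have hin : i < n := by
      rcases Nat.lt_or_ge i n with h1 | h1
      · exact h1
      · exfalso
        apply hHne
        have : i = n := by omega
        subst this
        exact ic_bot hN hG hGN i hn
    have h1 := hc i hi
    have h2 := hc (i + 1) (by omega)
    have h3 := Subgroup.card_mul_index ((iterCommutator N G (i + 1)).subgroupOf (iterCommutator N G i))
    have h4 : Nat.card ((iterCommutator N G (i + 1)).subgroupOf (iterCommutator N G i)) = Nat.card (iterCommutator N G (i + 1)) := 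
      Nat.card_congr (Subgroup.subgroupOfEquivOfLe (ic_succ_le hGN i)).toEquiv
    rw [h4, h1, h2] at h3
    have h6 : n - i = (n - (i + 1)) + 1 := by omega
    rw [h6, pow_succ] at h3
    exact Nat.eq_of_mul_eq_mul_left (pow_pos hp.out.pos _) h3
  · intro h H hHN hGH
    have hc := hto h
    obtain ⟨i, hi, rfl⟩ := inv_eq_chain hN hG hGN n hn hc H hHN hGH
    refine ⟨⟨i, hi, rfl⟩, ?_⟩
    exact chain_normal hN hG hGN n hn hc (n - i) i (by omega)

end CfsgH1
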