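import Cfsg.Agent.H1.Thomp3
import Cfsg.Agent.H1.Subn

set_option autoImplicit false

/-! The stable normal closure W(S). -/

open Cfsg Subgroup CfsgH3
open scoped Pointwise commutatorElement

namespace CfsgH1

universe u v

section

variable {S : Type u} [Group S] {p : ℕ}

theorem stable_comp {S' : Type u} [Group S'] (η : S ≃* S') {H : Type u} [Group H] {τ : S' →* H} (h : IsStableEmbedding p τ) [Finite S] : 
    IsStableEmbedding p (τ.comp η.toMonoidHom) := by
  obtain ⟨h1, h2, ⟨P, hP⟩, h4, h5, h6⟩ := h
  have hJ : (thompsonSubgroup p S).map η.toMonoidHom = thompsonSubgroup p S' := by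
    rw [thompsonSubgroup_eq_JJ, thompsonSubgroup_eq_JJ]
    rw [← JJ_map η.toMonoidHom ⊤ η.injective.injOn, Subgroup.map_top_of_surjective _ η.surjective]
  have hO : (omegaCenterThompson p S).map η.toMonoidHom = omegaCenterThompson p S' := by
    have h7 := OZ_map p (thompsonSubgroup p S) η.toMonoidHom η.injective.injOn
    rw [hJ] at h7
    exact h7.symm
  refine ⟨h1.comp η.injective, h2, ⟨P, ?_⟩, h4, ?_, ?_⟩
  · rw [hP]
    ext y
    constructor
    · rintro ⟨x, rfl⟩
      exact ⟨η.symm x, by simp⟩
    · rintro ⟨x, rfl⟩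
      exact ⟨η x, rfl⟩
  · rw [← Subgroup.map_map, hJ]; exact h5
  · intro V _ hV
    rw [← Subgroup.map_map, hO] at hV
    exact h6 V hV

theorem omega_center_eq (p : ℕ) : omegaOne p (Subgroup.center S) = OZ p (⊤ : Subgroup S) := by
  unfold OZ
  have : (⊤ : Subgroup S) ⊓ centralizer ((⊤ : Subgroup S) : Set S) = Subgroup.center S := by
    rw [top_inf_eq, Subgroup.coe_top, Subgroup.centralizer_univ]
  rw [this]

theorem snc_map {S' : Type u} [Group S'] [Finite S] (η : S ≃* S') : (stableNormalClosure p S).map η.toMonoidHom = stableNormalClosure p S' := by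
  haveI : Finite S' := Finite.of_equiv _ η.toEquiv
  have hkey : ∀ (A B : Type u) [Group A] [Group B] [Finite A] [Finite B] (ζ : A ≃* B), stableNormalClosure p B ≤ (stableNormalClosure p A).map ζ.toMonoidHom := by
    intro A B _ _ _ _ ζ
    have h1 : (stableNormalClosure p A).map ζ.toMonoidHom = (stableNormalClosure p A).comap ζ.symm.toMonoidHom := by
      ext y
      constructor
      · rintro ⟨x, hx, rfl⟩
        change ζ.symm (ζ x) ∈ stableNormalClosure p A
        rw [ζ.symm_apply_apply]; exact hx
      · intro hy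
        exact ⟨ζ.symm y, hy, ζ.apply_symm_apply y⟩
    rw [h1]
    unfold stableNormalClosure
    intro x hx
    rw [Subgroup.mem_comap, Subgroup.mem_sInf]
    rintro W ⟨hW1, hW2⟩
    have h2 : x ∈ W.map ζ.toMonoidHom := by
      rw [Subgroup.mem_sInf] at hx
      apply hx
      refine ⟨?_, ?_⟩
      · rw [omega_center_eq] at hW1 ⊢
        have h3 := OZ_map p (⊤ : Subgroup A) ζ.toMonoidHom ζ.injective.injOn
        rw [Subgroup.map_top_of_surjective _ ζ.surjective] at h3
        rw [h3]
        exact Subgroup.map_mono hW1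
      · intro H _ τ hτ
        have h3 := hW2 H (τ.comp ζ.toMonoidHom) (stable_comp ζ hτ)
        rwa [← Subgroup.map_map] at h3
    obtain ⟨w, hw, rfl⟩ := h2
    change ζ.symm (ζ w) ∈ W
    rw [ζ.symm_apply_apply]; exact hw
  apply le_antisymm _ (hkey S S' η)
  have h2 := hkey S' S η.symm
  have h3 := Subgroup.map_mono (f := η.toMonoidHom) h2
  rw [Subgroup.map_map] at h3
  have h4 : η.toMonoidHom.comp η.symm.toMonoidHom = MonoidHom.id S' := by ext x; simp
  rw [h4, Subgroup.map_id] at h3
  exact h3

theorem snc_char [Finite S] : (stableNormalClosure p S).Characteristic := by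
  rw [Subgroup.characteristic_iff_map_eq]
  intro φ
  exact snc_map φ

theorem le_snc : omegaOne p (Subgroup.center S) ≤ stableNormalClosure p S := le_sInf fun _ hW => hW.1

theorem omega_le_octh [Finite S] [hp : Fact p.Prime] : omegaOne p (Subgroup.center S) ≤ omegaCenterThompson p S := by
  rw [omega_center_eq]
  intro x hx
  obtain ⟨⟨-, hxc⟩, hxp⟩ := mem_OZ.1 hx
  have hxJ : x ∈ centralizer (thompsonSubgroup p S : Set S) := centralizer_le (show ((thompsonSubgroup p S) : Set S) ⊆ ((⊤ : Subgroup S) : Set S) from fun y _ => mem_top y) hxc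
  change x ∈ OZ p (thompsonSubgroup p S)
  refine mem_OZ.2 ⟨⟨?_, hxJ⟩, hxp⟩
  rw [thompsonSubgroup_eq_JJ] at hxJ ⊢
  obtain ⟨A, hA⟩ := exists_maxGood (e := p) (⊤ : Subgroup S)
  have h2 : Good p (Subgroup.zpowers x) := by
    constructor
    · rintro _ ⟨i, rfl⟩ _ ⟨j, rfl⟩
      exact ((Commute.refl x).zpow_zpow i j).eq
    · rintro _ ⟨i, rfl⟩
      change (x ^ i) ^ p = 1
      rw [← zpow_natCast, ← zpow_mul, mul_comm, zpow_mul, zpow_natCast, hxp, one_zpow]
  apply hA.le_JJ
  apply le_of_maxGood hA le_top h2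
  · rintro a ha _ ⟨i, rfl⟩
    have h3 : a * x = x * a := Subgroup.mem_centralizer_iff.1 hxJ a (hA.le_JJ ha)
    exact ((show Commute a x from h3).zpow_right i).eq
  · exact Subgroup.mem_zpowers x

theorem OZ_normal_of_normal {H : Type*} [Group H] {J : Subgroup H} [hJ : J.Normal] : (OZ p J).Normal := by
  rw [← Subgroup.normalizer_eq_top_iff, eq_top_iff]
  rw [le_normalizer_iff_conj]
  intro g _ x hx
  have h1 : g * x * g⁻¹ ∈ MulAut.conj g • OZ p J := ⟨x, hx, rfl⟩
  rw [← OZ_smul] at h1
  have h2 : MulAut.conj g • J = J := by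
    ext y
    rw [mem_conj_smul]
    constructor
    · intro hy
      have := hJ.conj_mem _ hy g
      have e : g * (g⁻¹ * y * g) * g⁻¹ = y := by group
      rwa [e] at this
    · intro hy
      have := hJ.conj_mem _ hy g⁻¹
      rwa [inv_inv] at this
  rwa [h2] at h1

theorem octh_normal {H : Type u} [Group H] {τ : S →* H} (h : IsStableEmbedding p τ) : ((omegaCenterThompson p S).map τ).Normal := by
  obtain ⟨h1, h2, ⟨P, hP⟩, h4, h5, h6⟩ := h
  have h7 := OZ_map p (thompsonSubgroup p S) τ h1.injOn
  have h8 : (omegaCenterThompson p S).map τ = OZ p ((thompsonSubgroup p S).map τ) := h7.symm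
  rw [h8]
  haveI := h5
  exact OZ_normal_of_normal

theorem snc_le [Finite S] [hp : Fact p.Prime] : stableNormalClosure p S ≤ omegaCenterThompson p S := 
  sInf_le ⟨omega_le_octh, fun _ _ _ hτ => octh_normal hτ⟩

theorem snc_normal [Finite S] [hp : Fact p.Prime] {H : Type u} [Group H] {τ : S →* H} (h : IsStableEmbedding p τ) : ((stableNormalClosure p S).map τ).Normal := by
  refine ⟨fun y hy g => ?_⟩
  obtain ⟨x, hx, rfl⟩ := hy
  have hx' := (Subgroup.mem_sInf.1 hx)
  by_cases hne : ∃ z : S, τ z = g * τ x * g⁻¹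
  · obtain ⟨z, hz⟩ := hne
    refine ⟨z, ?_, hz⟩
    rw [SetLike.mem_coe]
    unfold stableNormalClosure
    rw [Subgroup.mem_sInf]
    rintro W ⟨hW1, hW2⟩
    have h1 := (hW2 H τ h).conj_mem (τ x) ⟨x, hx' W ⟨hW1, hW2⟩, rfl⟩ g
    rw [← hz] at h1
    obtain ⟨w, hw, hwz⟩ := h1
    rw [← h.1 hwz]; exact hw
  · exfalso
    -- the whole group gives an element of the range
    have h9 : ∃ W : Subgroup S, omegaOne p (Subgroup.center S) ≤ W ∧ ∀ (H : Type u) [Group H] (τ : S →* H), IsStableEmbedding p τ → (W.map τ).Normal := 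
      ⟨omegaCenterThompson p S, omega_le_octh, fun _ _ _ hτ => octh_normal hτ⟩
    obtain ⟨W, hW1, hW2⟩ := h9
    have h1 := (hW2 H τ h).conj_mem (τ x) ⟨x, hx' W ⟨hW1, hW2⟩, rfl⟩ g
    obtain ⟨w, hw, hwz⟩ := h1
    exact hne ⟨w, hwz⟩

/-- Frattini modulo the centralizer -/
theorem frat_core {H : Type*} [Group H] [Finite H] [hp : Fact p.Prime] (P : Sylow p H) {V : Subgroup H} [hV : V.Normal] : 
    centralizer (V : Set H) ⊔ normalizer (((P : Subgroup H) ⊓ (pCore p (H ⧸ centralizer (V : Set H))).comap (QuotientGroup.mk' (centralizer (V : Set H))) : Subgroup H) : Set H) = ⊤ := by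
  set D := (pCore p (H ⧸ centralizer (V : Set H))).comap (QuotientGroup.mk' (centralizer (V : Set H))) with hD
  haveI hDn : D.Normal := by rw [hD]; infer_instance
  have hCD : centralizer (V : Set H) ≤ D := by
    intro x hx
    rw [hD, Subgroup.mem_comap]
    have : QuotientGroup.mk' (centralizer (V : Set H)) x = 1 := (QuotientGroup.eq_one_iff x).2 hx
    rw [this]; exact one_mem _
  have h1 : IsSylowOf p ((P : Subgroup H) ⊓ D) D := isSylowOf_inf_of_normal (sylow_isSylowOf P) le_top (by rw [Subgroup.normalizer_eq_top]) 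
  have h2 := sylowOf_sup_of_pow h1 hCD (by rw [Subgroup.normalizer_eq_top]; exact le_top) (by
    intro a ha
    obtain ⟨k, hk⟩ := (CfsgH2.isPGroup_pCore (G := H ⧸ centralizer (V : Set H)) p) ⟨_, ha⟩
    refine ⟨k, ?_⟩
    rw [← QuotientGroup.eq_one_iff]
    exact congrArg Subtype.val hk)
  have h3 := frattini_arg_sup h1
  rw [eq_top_iff]
  have h4 : (⊤ : Subgroup H) ≤ D ⊔ normalizer (((P : Subgroup H) ⊓ D : Subgroup H) : Set H) := by
    rw [← h3]
  refine h4.trans (sup_le ?_ le_sup_right)
  conv_lhs => rw [← h2]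
  exact sup_le (Subgroup.le_normalizer.trans le_sup_right) le_sup_left

theorem snc_quad [Finite S] [hp : Fact p.Prime] (x : S) (hq : ⁅⁅stableNormalClosure p S, zpowers x⁆, zpowers x⁆ = ⊥) : 
    x ∈ centralizer (stableNormalClosure p S : Set S) := by
  set W := stableNormalClosure p S with hW
  set W' := W ⊓ centralizer {y : S | ⁅⁅W, zpowers y⁆, zpowers y⁆ = ⊥} with hW'
  have hmem : W' ∈ {W : Subgroup S | omegaOne p (Subgroup.center S) ≤ W ∧ ∀ (H : Type u) [Group H] (τ : S →* H), IsStableEmbedding p τ → (W.map τ).Normal} := by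
    constructor
    · refine le_inf le_snc ?_
      rw [omega_center_eq]
      refine (OZ_le_cent p _).trans (centralizer_le ?_)
      intro y _; exact mem_top y
    · intro H _ τ hτ
      have hst := hτ
      obtain ⟨hinj, hfin, ⟨P, hP⟩, h4, h5, h6⟩ := hτ
      have hWn := snc_normal hst
      rw [← hW] at hWn
      set N := normalClosure ((W'.map τ : Subgroup H) : Set H) with hN
      haveI : N.Normal := Subgroup.normalClosure_normal
      have hNW : N ≤ W.map τ := Subgroup.normalClosure_le_normal (Subgroup.map_mono inf_le_left)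
      have hstab := h6 N (hNW.trans (Subgroup.map_mono snc_le))
      have hcent : ∀ x : S, ⁅⁅W, zpowers x⁆, zpowers x⁆ = ⊥ → τ x ∈ centralizer (N : Set H) := by
        intro x hx
        have hxq : ⁅⁅W.map τ, zpowers (τ x)⁆, zpowers (τ x)⁆ = ⊥ := by
          rw [← MonoidHom.map_zpowers, ← Subgroup.map_commutator, ← Subgroup.map_commutator, hx, Subgroup.map_bot]
        have h7 := hstab (τ x) (by
          rw [eq_bot_iff, ← hxq]
          exact commutator_mono (commutator_mono hNW le_rfl) le_rfl)
        have hfr := frat_core (p := p) P (V := N)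
        set D := (pCore p (H ⧸ centralizer (N : Set H))).comap (QuotientGroup.mk' (centralizer (N : Set H))) with hD
        have hxD : τ x ∈ (P : Subgroup H) ⊓ D := ⟨by rw [hP]; exact ⟨x, rfl⟩, h7⟩
        suffices h8 : N ≤ centralizer {τ x} by
          rw [Subgroup.mem_centralizer_iff]
          intro y hy
          exact (Subgroup.mem_centralizer_iff.1 (h8 hy) (τ x) rfl).symm
        rw [hN]
        unfold normalClosure
        rw [closure_le]
        intro z hz
        obtain ⟨a, ⟨w, hw, rfl⟩, haz⟩ := Group.mem_conjugatesOfSet_iff.1 hz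
        obtain ⟨g, rfl⟩ := isConj_iff.1 haz
        have hg : g ∈ centralizer (N : Set H) ⊔ normalizer (((P : Subgroup H) ⊓ D : Subgroup H) : Set H) := by rw [hfr]; exact mem_top g
        haveI : (centralizer (N : Set H)).Normal := inferInstance
        obtain ⟨c, hc, n, hn, rfl⟩ := mem_sup_of_normal_left.1 hg
        have hwN : τ w ∈ N := Subgroup.subset_normalClosure ⟨w, hw, rfl⟩
        -- n⁻¹ (τ x) n ∈ P ⊓ D
        have h9 : n⁻¹ * τ x * n ∈ (P : Subgroup H) ⊓ D := by
          have := (Subgroup.mem_normalizer_iff.1 (inv_mem hn) (τ x)).1 hxD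
          rwa [inv_inv] at this
        have h10 : n⁻¹ * τ x * n ∈ τ.range := by rw [← hP]; exact h9.1
        obtain ⟨y, hy⟩ := h10
        have hyq : ⁅⁅W, zpowers y⁆, zpowers y⁆ = ⊥ := by
          have h11 : (⁅⁅W, zpowers y⁆, zpowers y⁆).map τ = ⊥ := by
            rw [Subgroup.map_commutator, Subgroup.map_commutator, MonoidHom.map_zpowers, hy]
            have e1 : zpowers (n⁻¹ * τ x * n) = (zpowers (τ x)).map (MulAut.conj n⁻¹).toMonoidHom := by
              rw [MonoidHom.map_zpowers]
              congr 1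
              simp [MulAut.conj_apply]
            have e2 : (W.map τ).map (MulAut.conj n⁻¹).toMonoidHom = W.map τ := by
              have := (Subgroup.normal_iff_map_conj_eq).1 hWn n⁻¹
              exact this
            rw [e1]
            conv_lhs => rw [← e2]
            rw [← Subgroup.map_commutator, ← Subgroup.map_commutator, hxq, Subgroup.map_bot]
          rw [Subgroup.map_eq_bot_iff_of_injective _ hinj] at h11
          exact h11
        have hwy : y * w = w * y := Subgroup.mem_centralizer_iff.1 hw.2 y hyq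
        have hcomm : Commute (n⁻¹ * τ x * n) (τ w) := by
          rw [← hy]
          change τ y * τ w = τ w * τ y
          rw [← map_mul, ← map_mul, hwy]
        have hcomm2 : Commute (τ x) (n * τ w * n⁻¹) := by
          have := hcomm.map (MulAut.conj n).toMonoidHom
          simp only [MulEquiv.coe_toMonoidHom, MulAut.conj_apply] at this
          have e3 : n * (n⁻¹ * τ x * n) * n⁻¹ = τ x := by group
          rwa [e3] at this
        have hnw : n * τ w * n⁻¹ ∈ N := Subgroup.Normal.conj_mem inferInstance _ hwN n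
        have e4 : c * n * τ w * (c * n)⁻¹ = n * τ w * n⁻¹ := by
          have := Subgroup.mem_centralizer_iff.1 hc _ hnw
          calc c * n * τ w * (c * n)⁻¹ = c * (n * τ w * n⁻¹) * c⁻¹ := by group
            _ = (n * τ w * n⁻¹) * c * c⁻¹ := by rw [this]
            _ = _ := by group
        rw [SetLike.mem_coe, e4, Subgroup.mem_centralizer_iff]
        rintro _ rfl
        exact hcomm2
      have hNle : N ≤ W'.map τ := by
        intro y hy
        obtain ⟨w, hw, rfl⟩ := hNW hy
        refine ⟨w, ⟨hw, ?_⟩, rfl⟩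
        change w ∈ centralizer _
        rw [Subgroup.mem_centralizer_iff]
        intro x hx
        apply hinj
        rw [map_mul, map_mul]
        exact (Subgroup.mem_centralizer_iff.1 (hcent x hx) _ hy).symm
      have : W'.map τ = N := le_antisymm Subgroup.subset_normalClosure hNle
      rw [this]; infer_instance
  have h1 : W ≤ W' := sInf_le hmem
  rw [Subgroup.mem_centralizer_iff]
  intro w hw
  exact (Subgroup.mem_centralizer_iff.1 (h1 hw).2 x hq).symm

end

end CfsgH1
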