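import Cfsg.Agent.H1.WS
import Cfsg.Agent.H1.CopExtra
import Cfsg.Agent.H1.FF4

set_option autoImplicit false

/-! W(S) is normal in action-p-stable groups. -/

open Cfsg Subgroup CfsgH3
open scoped Pointwise commutatorElement

namespace CfsgH1

universe u

variable {G : Type u} [Group G] {p : ℕ}

/-- `W(S)` inside `G` -/
noncomputable def WW (p : ℕ) (S : Subgroup G) : Subgroup G := (stableNormalClosure p ↥S).map S.subtype

theorem WW_le (S : Subgroup G) : WW p S ≤ S := Subgroup.map_subtype_le _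

theorem normalizer_le_WW [Finite G] [hp : Fact p.Prime] (S : Subgroup G) : normalizer (S : Set G) ≤ normalizer (WW p S : Set G) := by
  haveI : (stableNormalClosure p ↥S).Characteristic := snc_char
  exact normalizer_le_map_characteristic (K := S) (stableNormalClosure p ↥S)

theorem snc_embed [Finite G] [hp : Fact p.Prime] (hst : IsActionPStable p G) (hc : centralizer (pCore p G : Set G) ≤ pCore p G) (S : Sylow p G) :
    normalizer (JJ p (S : Subgroup G) : Set G) ≤ normalizer (WW p (S : Subgroup G) : Set G) := by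
  have hTe := thompsonSubgroupOf_eq (p := p) (S : Subgroup G)
  rw [← hTe]
  set N := normalizer (thompsonSubgroupOf p (S : Subgroup G) : Set G) with hN
  have hSN : (S : Subgroup G) ≤ N := by
    rw [hN, hTe]
    exact Subgroup.le_normalizer.trans (normalizer_le_JJ _)
  have hQS : pCore p G ≤ (S : Subgroup G) := pCore_le_sylow S
  have hst' : IsStableEmbedding p (Subgroup.inclusion hSN) := by
    refine ⟨Subgroup.inclusion_injective hSN, inferInstance, ⟨S.subtype hSN, ?_⟩, ?_, ?_, ?_⟩
    · ext y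
      constructor
      · intro hy
        exact ⟨⟨y.1, hy⟩, rfl⟩
      · rintro ⟨z, rfl⟩
        exact z.2
    · have h1 : (pCore p G).subgroupOf N ≤ pCore p N := by
        apply CfsgH2.le_pCore
        · infer_instance
        · exact (CfsgH2.isPGroup_pCore p).comap_of_injective _ (Subgroup.subtype_injective _)
      intro x hx
      apply h1
      rw [Subgroup.mem_subgroupOf]
      apply hc
      rw [Subgroup.mem_centralizer_iff]
      intro y hy
      have h2 := Subgroup.mem_centralizer_iff.1 hx ⟨y, hSN (hQS hy)⟩ (h1 (Subgroup.mem_subgroupOf.2 hy))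
      exact congrArg Subtype.val h2
    · refine ⟨?_⟩
      rintro _ ⟨y, hy, rfl⟩ n
      have h1 : (n : G) * (y : G) * (n : G)⁻¹ ∈ thompsonSubgroupOf p (S : Subgroup G) := 
        (Subgroup.mem_normalizer_iff.1 n.2 (y : G)).1 ⟨y, hy, rfl⟩
      obtain ⟨z, hz, hzy⟩ := h1
      refine ⟨z, hz, ?_⟩
      apply Subtype.ext
      exact hzy
    · intro V _ hV
      apply hst.2.2 S V
      refine (Subgroup.map_mono hV).trans ?_
      rw [Subgroup.map_map]
      exact le_rfl
  have h1 := snc_normal hst'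
  rw [le_normalizer_iff_conj]
  rintro g hg _ ⟨w, hw, rfl⟩
  obtain ⟨w', hw', h2⟩ := h1.conj_mem _ ⟨w, hw, rfl⟩ ⟨g, hg⟩
  refine ⟨w', hw', ?_⟩
  exact congrArg Subtype.val h2

theorem sectionKernel_pgroup [Finite G] [hp : Fact p.Prime] (hc : centralizer (pCore p G : Set G) ≤ pCore p G)
    [hn : ((frattini ↥(pCore p G)).map (pCore p G).subtype).Normal] : 
    IsPGroup p (sectionKernel (pCore p G) ((frattini ↥(pCore p G)).map (pCore p G).subtype)) := by
  set Q := pCore p G with hQ
  have hQn : Q.Normal := by rw [hQ]; infer_instance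
  have hQp : IsPGroup p Q := CfsgH2.isPGroup_pCore p
  intro a
  obtain ⟨a, ha⟩ := a
  set n := orderOf a with hn'
  have hn0 : n ≠ 0 := (orderOf_pos a).ne'
  obtain ⟨k, m, hm, hkm⟩ := Nat.exists_eq_pow_mul_and_not_dvd hn0 p hp.out.ne_one
  refine ⟨k, ?_⟩
  apply Subtype.ext
  change a ^ (p ^ k) = 1
  set b := a ^ (p ^ k) with hb
  have hbm : b ^ m = 1 := by rw [hb, ← pow_mul, ← hkm, hn', pow_orderOf_eq_one]
  have hbK : b ∈ sectionKernel Q ((frattini ↥Q).map Q.subtype) := Subgroup.pow_mem _ ha _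
  have hcop : (Nat.card (Subgroup.zpowers b)).Coprime p := by
    rw [Nat.card_zpowers]
    exact Nat.Coprime.coprime_dvd_left (orderOf_dvd_of_pow_eq_one hbm) ((Nat.Prime.coprime_iff_not_dvd hp.out).2 hm).symm
  have hbc : Subgroup.zpowers b ≤ centralizer (Q : Set G) := by
    apply coprime_trivial_of_frattini
    · rw [Subgroup.normalizer_eq_top_iff.2 hQn]; exact le_top
    · obtain ⟨j, hj⟩ := IsPGroup.iff_card.1 (hQp.to_subgroup (frattini Q))
      rw [hj]
      exact Nat.Coprime.pow_right _ hcop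
    · intro c hcz y hy
      have hcK : c ∈ sectionKernel Q ((frattini ↥Q).map Q.subtype) := (Subgroup.zpowers_le.2 hbK) hcz
      unfold sectionKernel at hcK
      rw [Subgroup.mem_comap, Subgroup.mem_centralizer_iff] at hcK
      have h3 := hcK _ ⟨y, hy, rfl⟩
      rw [← QuotientGroup.eq_one_iff]
      have h4 : (QuotientGroup.mk' ((frattini ↥Q).map Q.subtype)) (c * y * c⁻¹ * y⁻¹) = 1 := by
        rw [map_mul, map_mul, map_mul, map_inv, map_inv, ← h3]
        group
      exact h4
  have hbQ : b ∈ Q := hc (hbc (Subgroup.mem_zpowers b))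
  obtain ⟨j, hj⟩ := hQp ⟨b, hbQ⟩
  have h5 : b ^ (p ^ j) = 1 := congrArg Subtype.val hj
  have h6 : orderOf b ∣ p ^ j := orderOf_dvd_of_pow_eq_one h5
  have h7 : (orderOf b).Coprime p := by rw [← Nat.card_zpowers]; exact hcop
  have h8 : orderOf b = 1 := Nat.Coprime.eq_one_of_dvd (h7.pow_right j) h6
  exact orderOf_eq_one_iff.1 h8

theorem WW_abelian [Finite G] [hp : Fact p.Prime] (S : Subgroup G) : ∀ x ∈ WW p S, ∀ y ∈ WW p S, x * y = y * x := by
  rintro _ ⟨x, hx, rfl⟩ _ ⟨y, hy, rfl⟩
  rw [← map_mul, ← map_mul]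
  congr 1
  exact comm_of_elemAb (OZ_elemAb p (thompsonSubgroup p S)) x (snc_le hx) y (snc_le hy)

theorem WW_good [Finite G] [hp : Fact p.Prime] (S : Subgroup G) : Good p (WW p S) := by
  refine ⟨WW_abelian S, ?_⟩
  rintro _ ⟨x, hx, rfl⟩
  rw [← map_pow]
  have := (mem_OZ.1 (snc_le hx)).2
  rw [this, map_one]

theorem WW_le_core [Finite G] [hp : Fact p.Prime] (hst : IsActionPStable p G) (hc : centralizer (pCore p G : Set G) ≤ pCore p G) (S : Sylow p G) :
    WW p (S : Subgroup G) ≤ pCore p G := by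
  have hab : ⁅WW p (S : Subgroup G), WW p (S : Subgroup G)⁆ = ⊥ := by
    rw [Subgroup.commutator_eq_bot_iff_le_centralizer]
    intro x hx
    rw [Subgroup.mem_centralizer_iff]
    intro y hy
    exact WW_abelian _ y hy x hx
  have hQS : pCore p G ≤ normalizer (WW p (S : Subgroup G) : Set G) := 
    (pCore_le_sylow S).trans (Subgroup.le_normalizer.trans (normalizer_le_WW _))
  haveI hn : ((frattini ↥(pCore p G)).map (pCore p G).subtype).Normal := by
    rw [← Subgroup.normalizer_eq_top_iff, eq_top_iff]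
    refine le_trans ?_ (normalizer_le_map_characteristic (K := pCore p G) (frattini _))
    rw [Subgroup.normalizer_eq_top]
  intro x hx
  obtain ⟨D, hD, hKD, ⟨k, hk⟩, hxD⟩ := hst.2.1 x (by
    refine le_trans ?_ bot_le
    have h1 : ⁅pCore p G, Subgroup.zpowers x⁆ ≤ WW p (S : Subgroup G) := by
      rw [Subgroup.commutator_comm]
      exact (commutator_mono ((Subgroup.zpowers_le).2 hx) le_rfl).trans (commutator_le_self_of_norm hQS)
    exact (commutator_mono h1 ((Subgroup.zpowers_le).2 hx)).trans hab.le)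
  have hDp : IsPGroup p D := by
    rw [IsPGroup.iff_card]
    obtain ⟨j, hj⟩ := IsPGroup.iff_card.1 (sectionKernel_pgroup hc)
    refine ⟨j + k, ?_⟩
    rw [pow_add, ← hj, ← hk, mul_comm]
    rw [mul_comm]
    exact card_mul_relIndex'' hKD
  exact CfsgH2.le_pCore hD hDp hxD

/-- conjugates of `W(S)` commute -/
theorem WW_conj_comm [Finite G] [hp : Fact p.Prime] (hst : IsActionPStable p G) (hc : centralizer (pCore p G : Set G) ≤ pCore p G) (S : Sylow p G) (g : G) :
    WW p (S : Subgroup G) ≤ centralizer ((MulAut.conj g • WW p (S : Subgroup G) : Subgroup G) : Set G) := by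
  set W := WW p (S : Subgroup G) with hW
  have hWc : W ≤ pCore p G := WW_le_core hst hc S
  have hWgc : MulAut.conj g • W ≤ pCore p G := by
    refine (conj_smul_mono g hWc).trans ?_
    rw [conj_smul_of_normal]
  have hQW : pCore p G ≤ normalizer (W : Set G) := 
    (pCore_le_sylow S).trans (Subgroup.le_normalizer.trans (normalizer_le_WW _))
  have hQWg : pCore p G ≤ normalizer ((MulAut.conj g • W : Subgroup G) : Set G) := by
    have h1 := conj_smul_mono g hQW
    rw [conj_smul_of_normal] at h1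
    refine h1.trans ?_
    rw [le_normalizer_iff_conj]
    rintro _ ⟨n, hn, rfl⟩ _ ⟨w, hw, rfl⟩
    refine ⟨n * w * n⁻¹, (Subgroup.mem_normalizer_iff.1 hn w).1 hw, ?_⟩
    change MulAut.conj g (n * w * n⁻¹) = MulAut.conj g n * MulAut.conj g w * (MulAut.conj g n)⁻¹
    rw [map_mul, map_mul, map_inv]
  rw [Subgroup.le_centralizer_iff]
  intro x hx
  have hxS : x ∈ (S : Subgroup G) := pCore_le_sylow S (hWgc hx)
  have hWgab : ⁅MulAut.conj g • W, MulAut.conj g • W⁆ = ⊥ := by
    rw [Subgroup.commutator_eq_bot_iff_le_centralizer]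
    rintro _ ⟨a, ha, rfl⟩
    rw [Subgroup.mem_centralizer_iff]
    rintro _ ⟨b, hb, rfl⟩
    have := WW_abelian _ a ha b hb
    change MulAut.conj g b * MulAut.conj g a = MulAut.conj g a * MulAut.conj g b
    rw [← map_mul, ← map_mul, this]
  have h1 : ⁅⁅W, Subgroup.zpowers x⁆, Subgroup.zpowers x⁆ = ⊥ := by
    rw [eq_bot_iff, ← hWgab]
    refine commutator_mono ?_ ((Subgroup.zpowers_le).2 hx)
    rw [Subgroup.commutator_comm]
    exact (commutator_mono ((Subgroup.zpowers_le).2 hx) le_rfl).trans (commutator_le_self_of_norm (hWc.trans hQWg))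
  have h2 := snc_quad (p := p) (⟨x, hxS⟩ : ↥(S : Subgroup G)) (by
    have h3 : (⁅⁅stableNormalClosure p ↥(S : Subgroup G), zpowers (⟨x, hxS⟩ : ↥(S : Subgroup G))⁆, zpowers (⟨x, hxS⟩ : ↥(S : Subgroup G))⁆).map (S : Subgroup G).subtype = ⊥ := by
      rw [Subgroup.map_commutator, Subgroup.map_commutator, MonoidHom.map_zpowers]
      exact h1
    rwa [Subgroup.map_eq_bot_iff_of_injective _ (Subgroup.subtype_injective _)] at h3)
  rw [Subgroup.mem_centralizer_iff]
  rintro _ ⟨w, hw, rfl⟩
  have h3 := Subgroup.mem_centralizer_iff.1 h2 w hw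
  exact congrArg Subtype.val h3

theorem good_normalClosure [Finite G] [hp : Fact p.Prime] {W : Subgroup G} (hW : Good p W) (h : ∀ g : G, W ≤ centralizer ((MulAut.conj g • W : Subgroup G) : Set G)) : 
    Good p (normalClosure (W : Set G)) := by
  have hcomm : ∀ g k : G, ∀ x ∈ W, ∀ y ∈ W, (g * x * g⁻¹) * (k * y * k⁻¹) = (k * y * k⁻¹) * (g * x * g⁻¹) := by
    intro g k x hx y hy
    have h1 := Subgroup.mem_centralizer_iff.1 (h (g⁻¹ * k) hx) ((g⁻¹ * k) * y * (g⁻¹ * k)⁻¹) ⟨y, hy, rfl⟩
    have h2 : Commute ((g⁻¹ * k) * y * (g⁻¹ * k)⁻¹) x := h1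
    have h3 := h2.map (MulAut.conj g).toMonoidHom
    simp only [MulEquiv.coe_toMonoidHom, MulAut.conj_apply] at h3
    have e : g * (g⁻¹ * k * y * (g⁻¹ * k)⁻¹) * g⁻¹ = k * y * k⁻¹ := by group
    rw [e] at h3
    exact h3.symm
  have hab : normalClosure (W : Set G) ≤ centralizer (normalClosure (W : Set G) : Set G) := by
    unfold normalClosure
    rw [Subgroup.centralizer_closure, closure_le]
    intro z hz
    rw [SetLike.mem_coe, Subgroup.mem_centralizer_iff]
    intro z' hz'
    obtain ⟨a, ha, haz⟩ := Group.mem_conjugatesOfSet_iff.1 hz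
    obtain ⟨g, rfl⟩ := isConj_iff.1 haz
    obtain ⟨b, hb, hbz⟩ := Group.mem_conjugatesOfSet_iff.1 hz'
    obtain ⟨k, rfl⟩ := isConj_iff.1 hbz
    exact hcomm k g b hb a ha
  refine ⟨fun a ha b hb => Subgroup.mem_centralizer_iff.1 (hab hb) a ha, ?_⟩
  intro a ha
  unfold normalClosure at ha
  induction ha using Subgroup.closure_induction with
  | mem x hx => 
    obtain ⟨a, ha, haz⟩ := Group.mem_conjugatesOfSet_iff.1 hx
    obtain ⟨g, rfl⟩ := isConj_iff.1 haz
    rw [conj_pow, hW.2 a ha]; group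
  | one => exact one_pow _
  | mul x y hx hy h1 h2 => 
    have : Commute x y := Subgroup.mem_centralizer_iff.1 (hab hy) x hx
    rw [this.mul_pow, h1, h2, one_mul]
  | inv x hx h1 => rw [inv_pow, h1, inv_one]

/-- **S0624** -/
theorem WW_normal [Finite G] [hp : Fact p.Prime] (hst : IsActionPStable p G) (hc : centralizer (pCore p G : Set G) ≤ pCore p G) (S : Sylow p G) :
    (WW p (S : Subgroup G)).Normal := by
  set W := WW p (S : Subgroup G) with hW
  have hWc : W ≤ pCore p G := WW_le_core hst hc S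
  set P := normalClosure (W : Set G) with hP
  haveI hPn : P.Normal := Subgroup.normalClosure_normal
  have hPg : Good p P := good_normalClosure (WW_good _) (WW_conj_comm hst hc S)
  have hPQ : P ≤ pCore p G := Subgroup.normalClosure_le_normal hWc
  have hPS : P ≤ (S : Subgroup G) := hPQ.trans (pCore_le_sylow S)
  have hWP : W ≤ P := Subgroup.subset_normalClosure
  have hPe : IsElementaryAbelian p P := isElementaryAbelian_iff_good.2 hPg
  have hstP := hst.1 P hPe
  have hWJ : W ≤ centralizer (JJ p (S : Subgroup G) : Set G) := by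
    rintro _ ⟨w, hw, rfl⟩
    have h1 := (mem_OZ.1 (snc_le hw)).1.2
    rw [Subgroup.mem_centralizer_iff]
    intro y hy
    have hTe := thompsonSubgroupOf_eq (p := p) (S : Subgroup G)
    rw [← hTe] at hy
    obtain ⟨z, hz, rfl⟩ := hy
    have := Subgroup.mem_centralizer_iff.1 h1 z hz
    rw [← map_mul, ← map_mul]
    congr 1
  have hfr := frat_core (p := p) S (V := P)
  set D := (pCore p (G ⧸ centralizer (P : Set G))).comap (QuotientGroup.mk' (centralizer (P : Set G))) with hD
  set S0 := (S : Subgroup G) ⊓ D with hS0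
  have hCn : (centralizer (P : Set G)).Normal := inferInstance
  -- anything in S centralizing W with J-property
  have hkey : ∀ T : Subgroup G, normalizer (S0 : Set G) ≤ normalizer (T : Set G) → W ≤ centralizer (T : Set G) → T ≤ centralizer (P : Set G) := by
    intro T hT hWT
    rw [Subgroup.le_centralizer_iff, hP]
    unfold normalClosure
    rw [closure_le]
    intro z hz
    obtain ⟨a, ha, haz⟩ := Group.mem_conjugatesOfSet_iff.1 hz
    obtain ⟨g, rfl⟩ := isConj_iff.1 haz
    have hg : g⁻¹ ∈ centralizer (P : Set G) ⊔ normalizer (S0 : Set G) := by rw [hfr]; exact mem_top _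
    have hg' : g ∈ normalizer (S0 : Set G) ⊔ centralizer (P : Set G) := by rw [sup_comm, hfr]; exact mem_top _
    obtain ⟨n, hn, c, hcc, rfl⟩ := mem_sup_of_normal_right.1 hg'
    have e1 : n * c * a * (n * c)⁻¹ = n * a * n⁻¹ := by
      have := Subgroup.mem_centralizer_iff.1 hcc a (hWP ha)
      calc n * c * a * (n * c)⁻¹ = n * (c * a) * c⁻¹ * n⁻¹ := by group
        _ = n * (a * c) * c⁻¹ * n⁻¹ := by rw [this]
        _ = _ := by group
    rw [SetLike.mem_coe, e1, Subgroup.mem_centralizer_iff]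
    intro t ht
    have h2 : n⁻¹ * t * n ∈ T := by
      have := (Subgroup.mem_normalizer_iff.1 (inv_mem (hT hn)) t).1 ht
      rwa [inv_inv] at this
    have h3 : Commute (n⁻¹ * t * n) a := Subgroup.mem_centralizer_iff.1 (hWT ha) _ h2
    have h4 := h3.map (MulAut.conj n).toMonoidHom
    simp only [MulEquiv.coe_toMonoidHom, MulAut.conj_apply] at h4
    have e3 : n * (n⁻¹ * t * n) * n⁻¹ = t := by group
    rw [e3] at h4
    exact h4
  have hJP : JJ p (S : Subgroup G) ≤ centralizer (P : Set G) := by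
    by_contra hcon
    have : ∃ A, MaxGood p (S : Subgroup G) A ∧ ¬ A ≤ centralizer (P : Set G) := by
      by_contra h2
      push Not at h2
      exact hcon (sSup_le fun A hA => h2 A hA)
    obtain ⟨A, hA, hAP⟩ := this
    have hmaxtop : ∀ B : Subgroup G, MaxGood p (S : Subgroup G) B → MaxGood p ⊤ B := by
      intro B hB
      refine ⟨le_top, hB.2.1, fun C _ hC => ?_⟩
      obtain ⟨S', hS'⟩ := (good_isPGroup hC).exists_le_sylow
      obtain ⟨g, hg⟩ := MulAction.exists_smul_eq G S' S
      have h1 := conj_smul_mono g hS'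
      have h2 : MulAut.conj g • C ≤ (S : Subgroup G) := by
        refine h1.trans ?_
        rw [← hg]; exact le_rfl
      have h3 := hB.2.2 _ h2 (hC.map (MulAut.conj g).toMonoidHom)
      rwa [card_conj_smul] at h3
    obtain ⟨h1, h2, h3⟩ := replacement_maxElem hPg (hmaxtop A hA)
    have hPA : ⁅P, A⁆ ≠ ⊥ := by
      intro h
      apply hAP
      rw [Subgroup.commutator_eq_bot_iff_le_centralizer] at h
      rwa [Subgroup.le_centralizer_iff] at h
    have h4 := h3 hPA
    set B := ⁅P, A⁆ ⊔ (A ⊓ centralizer ((⁅P, A⁆ : Subgroup G) : Set G)) with hB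
    have hBS : B ≤ (S : Subgroup G) := sup_le ((Subgroup.commutator_le_left P A).trans hPS) (inf_le_left.trans hA.1)
    have hBD : B ≤ D := by
      intro b hb
      have h5 := hstP b (by
        rw [eq_bot_iff, ← h2]
        exact commutator_mono (commutator_mono le_rfl ((Subgroup.zpowers_le).2 hb)) ((Subgroup.zpowers_le).2 hb))
      exact h5
    have hB0 : MaxGood p S0 B := ⟨le_inf hBS hBD, h1.2.1, fun C _ hC => h1.2.2 C le_top hC⟩
    have hJ0 : JJ p S0 ≤ JJ p (S : Subgroup G) := by
      apply sSup_le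
      intro C hC
      apply MaxGood.le_JJ
      refine ⟨hC.1.trans inf_le_left, hC.2.1, fun E hE hEg => ?_⟩
      exact (h1.2.2 E le_top hEg).trans (hC.2.2 B hB0.1 hB0.2.1)
    have h6 := hkey (JJ p S0) (normalizer_le_JJ _) (hWJ.trans (centralizer_le hJ0))
    have h7 := hB0.le_JJ.trans h6
    apply h4
    rw [Subgroup.commutator_eq_bot_iff_le_centralizer, Subgroup.le_centralizer_iff]
    exact h7
  -- Frattini
  set C := centralizer (P : Set G) with hC
  have hSC : IsSylowOf p ((S : Subgroup G) ⊓ C) C := isSylowOf_inf_of_normal (sylow_isSylowOf S) le_top (by rw [Subgroup.normalizer_eq_top])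
  have h1 := frattini_arg_sup hSC
  have h2 : JJ p ((S : Subgroup G) ⊓ C) = JJ p (S : Subgroup G) := JJ_eq_of_le (le_inf (JJ_le _) hJP) inf_le_left
  rw [← Subgroup.normalizer_eq_top_iff, eq_top_iff, ← h1]
  refine sup_le ?_ ?_
  · refine le_trans ?_ (centralizer_le_normalizer _)
    rw [Subgroup.le_centralizer_iff]
    exact hWP.trans (by rw [Subgroup.le_centralizer_iff])
  · refine (normalizer_le_JJ (e := p) _).trans ?_
    rw [h2]
    exact snc_embed hst hc S

end CfsgH1
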