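import Cfsg.Agent.H1.WS2
import Cfsg.Agent.H3.Thompson
import Cfsg.Agent.H3.ThCore
import Cfsg.Agent.S0626
import Cfsg.Agent.H1.HHPrime
import Cfsg.Agent.H1.ActStab

set_option autoImplicit false

/-! Normal p-complements and W(S). -/

open Cfsg Subgroup CfsgH3
open scoped Pointwise commutatorElement

namespace CfsgH1

universe u

variable {G : Type u} [Group G] {p : ℕ}

theorem WW_map [Finite G] [hp : Fact p.Prime] {G' : Type u} [Group G'] (f : G →* G') (S : Subgroup G) (hf : Set.InjOn f (S : Set G)) : 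
    WW p (S.map f) = (WW p S).map f := by
  have hinj : Function.Injective (f.subgroupMap S) := by
    intro x y hxy
    exact Subtype.ext (hf x.2 y.2 (congrArg Subtype.val hxy))
  let e : S ≃* S.map f := MulEquiv.ofBijective (f.subgroupMap S) ⟨hinj, f.subgroupMap_surjective S⟩
  have h1 := snc_map (p := p) e
  unfold WW
  rw [← h1, Subgroup.map_map, Subgroup.map_map]
  rfl

theorem WW_ne_bot [Finite G] [hp : Fact p.Prime] {S : Subgroup G} (hS : IsPGroup p S) (hne : S ≠ ⊥) : WW p S ≠ ⊥ := by
  intro hbot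
  unfold WW at hbot
  rw [Subgroup.map_eq_bot_iff_of_injective _ (Subgroup.subtype_injective _)] at hbot
  haveI : Nontrivial S := (Subgroup.nontrivial_iff_ne_bot S).2 hne
  have h1 := (le_snc (S := S) (p := p))
  rw [hbot, le_bot_iff] at h1
  haveI : Nontrivial (Subgroup.center S) := hS.center_nontrivial
  have hcard : p ∣ Nat.card (Subgroup.center S) := by
    have h2 : IsPGroup p (Subgroup.center S) := hS.to_subgroup _
    obtain ⟨n, hn⟩ := IsPGroup.iff_card.1 h2
    have h3 : 1 < Nat.card (Subgroup.center S) := Finite.one_lt_card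
    rw [hn] at h3 ⊢
    rcases Nat.eq_zero_or_pos n with h | h
    · rw [h, pow_zero] at h3; omega
    · exact dvd_pow_self p (by omega)
  obtain ⟨x, hx⟩ := exists_prime_orderOf_dvd_card' p hcard
  have h4 : (x : S) ∈ Cfsg.omegaOne p (Subgroup.center S) := by
    rw [omega_center_eq]
    refine mem_OZ.2 ⟨⟨Subgroup.mem_top _, ?_⟩, ?_⟩
    · change (x : S) ∈ Subgroup.centralizer _
      rw [Subgroup.mem_centralizer_iff]
      intro y _
      exact (Subgroup.mem_center_iff.1 x.2 y)
    · have := pow_orderOf_eq_one x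
      rw [hx] at this
      have h5 := congrArg Subtype.val this
      simpa using h5
  rw [h1, Subgroup.mem_bot] at h4
  have h5 : x = 1 := Subtype.ext h4
  rw [h5, orderOf_one] at hx
  exact (Fact.out : p.Prime).one_lt.ne hx

set_option maxHeartbeats 1000000 in
theorem npc_core [Finite G] [hp : Fact p.Prime] (P : Sylow p G)
    (hno : ¬ HasNPC p G) (hA : ∀ H : Subgroup G, (P : Subgroup G) ≤ H → H ≠ ⊤ → HasNPC p H)
    (hB : ∀ N : Subgroup G, N.Normal → (Nat.card N).Coprime p → N = ⊥)
    (U : Subgroup G) [hUn : U.Normal] (hU : U = Cfsg.pCore p G)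
    (hUbar : HasNPC p (G ⧸ U)) : 
    centralizer (U : Set G) ≤ U ∧ ∃ K : Subgroup G, ∃ kk : ℕ, (∀ g : G, g ^ p ^ kk ∈ K) ∧ ∀ x ∈ K, ∀ y ∈ K, x * y * x⁻¹ * y⁻¹ ∈ U := by
  have hUp : IsPGroup p U := by rw [hU]; exact CfsgH2.isPGroup_pCore p
  have hUP : U ≤ (P : Subgroup G) := by rw [hU]; exact pCore_le_sylow P
  set f := QuotientGroup.mk' U with hf
  have hfs : Function.Surjective f := QuotientGroup.mk'_surjective U
  have hfk : f.ker = U := QuotientGroup.ker_mk' U
  obtain ⟨Kb, hKbn, hKbc, kk, hKbi⟩ := hUbar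
  set K := Kb.comap f with hK
  haveI hKn : K.Normal := hKbn.comap f
  have hUK : U ≤ K := by
    intro x hx
    have : f x = 1 := (QuotientGroup.eq_one_iff x).2 hx
    rw [hK, Subgroup.mem_comap, this]; exact one_mem _
  have hKi : K.index = p ^ kk := by rw [hK, Subgroup.index_comap_of_surjective _ hfs, hKbi]
  have hKmap : K.map f = Kb := Subgroup.map_comap_eq_self_of_surjective hfs Kb
  -- p-elements of K are in U
  have hKU : ∀ x ∈ K, (∃ k, x ^ p ^ k = 1) → x ∈ U := by
    rintro x hx ⟨k, hk⟩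
    rw [← QuotientGroup.eq_one_iff]
    have h1 : orderOf (f x) ∣ p ^ k := orderOf_dvd_of_pow_eq_one (by rw [← map_pow, hk, map_one])
    have hx' : f x ∈ Kb := hx
    have h2 : orderOf (f x) ∣ Nat.card Kb := by
      have := orderOf_dvd_natCard (⟨f x, hx'⟩ : Kb)
      rwa [Subgroup.orderOf_mk] at this
    have h3 : orderOf (f x) = 1 := Nat.eq_one_of_dvd_coprimes (Nat.Coprime.pow_right k hKbc) h2 h1
    exact orderOf_eq_one_iff.1 h3
  have hpowK : ∀ g : G, g ^ p ^ kk ∈ K := by
    intro g
    rw [← hKi]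
    exact Subgroup.pow_index_mem K g
  -- K ⊔ P = ⊤
  have hKP : K ⊔ (P : Subgroup G) = ⊤ := by
    rw [← Subgroup.index_eq_one]
    have h1 : (K ⊔ (P : Subgroup G)).index ∣ p ^ kk := by rw [← hKi]; exact Subgroup.index_dvd_of_le le_sup_left
    have h2 : (K ⊔ (P : Subgroup G)).index ∣ (P : Subgroup G).index := Subgroup.index_dvd_of_le le_sup_right
    obtain ⟨i, -, hi⟩ := (Nat.dvd_prime_pow hp.out).1 h1
    rcases Nat.eq_zero_or_pos i with rfl | h3
    · rw [hi, pow_zero]
    · exfalso
      apply P.not_dvd_index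
      refine dvd_trans ?_ h2
      rw [hi]; exact dvd_pow_self p (by omega)
  -- C_G(U) ≤ U
  have hCU : centralizer (U : Set G) ≤ U := by
    haveI : (centralizer (U : Set G)).Normal := inferInstance
    -- first D = C(U) ⊓ K
    have hD : centralizer (U : Set G) ⊓ K ≤ U := by
      set D := centralizer (U : Set G) ⊓ K with hDdef
      haveI hDn : D.Normal := inferInstance
      have hNPC : HasNPC p D := by
        obtain ⟨T⟩ : Nonempty (Sylow p D) := inferInstance
        apply hasNPC_burnside T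
        intro x _
        change x ∈ centralizer ((T : Subgroup D) : Set D)
        rw [Subgroup.mem_centralizer_iff]
        intro t ht
        apply Subtype.ext
        have htU : (t : G) ∈ U := by
          apply hKU _ (Subgroup.mem_inf.1 t.2).2
          obtain ⟨k, hk⟩ := T.2 ⟨t, ht⟩
          exact ⟨k, congrArg (fun s : T => ((s : D) : G)) hk⟩
        exact Subgroup.mem_centralizer_iff.1 (Subgroup.mem_inf.1 x.2).1 t htU
      have hcop := hasNPC_iff_card.1 hNPC
      haveI : (Cfsg.pResidual p D).Characteristic := by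
        rw [Subgroup.characteristic_iff_map_le]
        intro φ
        rw [Subgroup.map_le_iff_le_comap]
        unfold Cfsg.pResidual
        rw [Subgroup.closure_le]
        intro x hx
        apply Subgroup.subset_closure
        change (orderOf (φ x)).Coprime p
        rw [MulEquiv.orderOf_eq]
        exact hx
      have hbot := hB ((Cfsg.pResidual p D).map D.subtype) (CfsgH2.normal_map_subtype_of_characteristic _) (by
        rw [Subgroup.card_map_of_injective D.subtype_injective]; exact hcop)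
      rw [Subgroup.map_eq_bot_iff_of_injective _ D.subtype_injective] at hbot
      intro x hx
      apply hKU x (Subgroup.mem_inf.1 hx).2
      obtain ⟨a, ha, b, hb, hab, hcop, k, hk⟩ := exists_pPart (p := p) (⟨x, hx⟩ : D) (orderOf_pos _).ne'
      have ha1 : a ∈ Cfsg.pResidual p D := mem_pResidual hcop
      rw [hbot, Subgroup.mem_bot] at ha1
      rw [ha1, one_mul] at hab
      rw [← hab] at hk
      exact ⟨k, congrArg Subtype.val hk⟩
    have hpc : centralizer (U : Set G) ≤ Cfsg.pCore p G := by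
      apply le_pCore_of_forall
      intro x hx
      have h1 : x ^ p ^ kk ∈ U := hD (Subgroup.mem_inf.2 ⟨pow_mem hx _, hpowK x⟩)
      obtain ⟨k, hk⟩ := hUp ⟨_, h1⟩
      refine ⟨kk + k, ?_⟩
      rw [pow_add, pow_mul]
      exact congrArg Subtype.val hk
    rwa [← hU] at hpc
  -- minimality of K over U
  have hF : ∀ L : Subgroup G, U ≤ L → L ≤ K → (P : Subgroup G) ≤ normalizer (L : Set G) → L = K ∨ L = U := by
    intro L hUL hLK hPL
    by_cases htop : L ⊔ (P : Subgroup G) = ⊤
    · left
      apply le_antisymm hLK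
      intro x hx
      have h1 : x ∈ L ⊔ (P : Subgroup G) := by rw [htop]; trivial
      rw [sup_comm] at h1
      obtain ⟨y, hy, l, hl, rfl⟩ := (CfsgH1.mem_sup_of_le_normalizer hPL).1 h1
      have hyK : y ∈ K := by
        have h2 := mul_mem hx (inv_mem (hLK hl))
        rwa [mul_inv_cancel_right] at h2
      exact mul_mem (hUL (hKU y hyK (exists_pow_eq_one_of_mem_sylow P hy))) hl
    · right
      have hpg := pgroup_of_npc U (L ⊔ (P : Subgroup G)) hUp (hUP.trans le_sup_right) hCU (hA _ le_sup_right htop)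
      apply le_antisymm _ hUL
      intro x hx
      exact hKU x (hLK hx) (hpg x ((le_sup_left : L ≤ L ⊔ (P : Subgroup G)) hx))
  have hKneU : K ≠ U := by
    intro h
    apply hno
    apply CfsgH3.hasNPC_of_isPGroup
    intro x
    have h1 : x ^ p ^ kk ∈ U := h ▸ hpowK x
    obtain ⟨k, hk⟩ := hUp ⟨_, h1⟩
    refine ⟨kk + k, ?_⟩
    rw [pow_add, pow_mul]
    exact congrArg Subtype.val hk
  have hKbne : Kb ≠ ⊥ := by
    intro h
    apply hKneU
    rw [hK, h]
    change f.ker = U
    exact hfk
  -- the image of P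
  set Pb : Sylow p (G ⧸ U) := P.mapSurjective hfs with hPb
  have hPbmem : ∀ x ∈ (P : Subgroup G), f x ∈ (Pb : Subgroup (G ⧸ U)) := fun x hx => ⟨x, hx, rfl⟩
  have hPbK : (Pb : Subgroup (G ⧸ U)) ≤ normalizer (Kb : Set (G ⧸ U)) := by
    rw [Subgroup.normalizer_eq_top_iff.2 hKbn]; exact le_top
  have hPcomap : ∀ L : Subgroup (G ⧸ U), (Pb : Subgroup (G ⧸ U)) ≤ normalizer (L : Set (G ⧸ U)) →
      (P : Subgroup G) ≤ normalizer ((L.comap f : Subgroup G) : Set G) := by
    intro L hL x hx
    rw [← Subgroup.comap_normalizer_eq_of_surjective L hfs]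
    exact hL (hPbmem x hx)
  have hFb : ∀ L ≤ Kb, (Pb : Subgroup (G ⧸ U)) ≤ normalizer (L : Set (G ⧸ U)) → L = Kb ∨ L = ⊥ := by
    intro L hL hPL
    rcases hF (L.comap f) (by
      intro x hx
      have : f x = 1 := (QuotientGroup.eq_one_iff x).2 hx
      rw [Subgroup.mem_comap, this]; exact one_mem _) (Subgroup.comap_mono hL) (hPcomap L hPL) with h | h
    · left
      rw [← Subgroup.map_comap_eq_self_of_surjective hfs L, h, hKmap]
    · right
      rw [← Subgroup.map_comap_eq_self_of_surjective hfs L, h, eq_bot_iff]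
      rintro _ ⟨x, hx, rfl⟩
      rw [Subgroup.mem_bot]
      exact (QuotientGroup.eq_one_iff x).2 hx
  -- Kb is abelian
  have hKbab : ⁅Kb, Kb⁆ = ⊥ := by
    have hcard : Nat.card Kb ≠ 1 := fun h => hKbne (Subgroup.eq_bot_of_card_eq _ h)
    obtain ⟨q, hq, hqd⟩ := Nat.exists_prime_and_dvd hcard
    haveI : Fact q.Prime := ⟨hq⟩
    have hcop : (Nat.card (Pb : Subgroup (G ⧸ U))).Coprime (Nat.card Kb) := by
      obtain ⟨k, hk⟩ := IsPGroup.iff_card.1 Pb.2
      rw [show Nat.card (Pb : Subgroup (G ⧸ U)) = p ^ k from hk]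
      exact Nat.Coprime.pow_left k hKbc.symm
    haveI : Group.IsNilpotent (Pb : Subgroup (G ⧸ U)) := Pb.2.isNilpotent
    obtain ⟨⟨Qb, hQb, hPQ⟩, -⟩ := CfsgH1.coprime_sylow hPbK hcop (Or.inl inferInstance) q
    have hQbK : Qb ≤ Kb := CfsgH1.isSylowOf_le hQb
    have hQbp : IsPGroup q Qb := CfsgH1.isSylowOf_isPGroup hQb
    have hQbne : Qb ≠ ⊥ := by
      rintro rfl
      obtain ⟨-, h1⟩ := (CfsgH1.isSylowOf_iff.1 hQb).2
      rw [Subgroup.relIndex_bot_left] at h1
      exact h1 hqd
    rcases hFb Qb hQbK hPQ with h | h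
    · rw [h] at hQbp
      haveI : Group.IsNilpotent Kb := hQbp.isNilpotent
      rcases hFb ⁅Kb, Kb⁆ (Subgroup.commutator_le_left Kb Kb) (by
        have : (⁅Kb, Kb⁆).Normal := Subgroup.commutator_normal Kb Kb
        rw [Subgroup.normalizer_eq_top_iff.2 this]; exact le_top) with h1 | h1
      · exfalso
        apply hKbne
        exact CfsgH1.eq_bot_of_le_commutator (L := Kb) inferInstance le_rfl h1.ge
      · exact h1
    · exact absurd h hQbne
  have hKcomm : ∀ x ∈ K, ∀ y ∈ K, x * y * x⁻¹ * y⁻¹ ∈ U := by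
    intro x hx y hy
    have hx' : f x ∈ Kb := hx
    have hy' : f y ∈ Kb := hy
    have h1 : ⁅f x, f y⁆ ∈ ⁅Kb, Kb⁆ := Subgroup.commutator_mem_commutator hx' hy'
    rw [hKbab, Subgroup.mem_bot, commutatorElement_def] at h1
    rw [← hfk, MonoidHom.mem_ker, map_mul, map_mul, map_mul, map_inv, map_inv]
    exact h1
  exact ⟨hCU, K, kk, hpowK, hKcomm⟩

set_option maxHeartbeats 1000000 in
theorem ww_npc_main [hp : Fact p.Prime] (hp2 : p ≠ 2) (n : ℕ) :
    ∀ (G : Type u) [Group G] [Finite G], Nat.card G = n → ∀ P : Sylow p G,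
      HasNPC p (normalizer (WW p (P : Subgroup G) : Set G)) → HasNPC p G := by
  induction n using Nat.strong_induction_on with
  | _ n ih =>
  intro G _ _ hn P hN
  by_contra hno
  -- (S)
  have hS : ∀ (H : Subgroup G) (S : Sylow p H), H ≠ ⊤ →
      HasNPC p (normalizer (WW p ((S : Subgroup H).map H.subtype) : Set G)) → HasNPC p H := by
    intro H S hH h1
    refine ih (Nat.card H) ?_ H rfl S ?_
    · rw [← hn]
      have := Subgroup.card_mul_index H
      have h3 : 1 < H.index := by
        have h4 : H.index ≠ 1 := fun h => hH (Subgroup.index_eq_one.1 h)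
        have h5 : H.index ≠ 0 := Subgroup.FiniteIndex.index_ne_zero
        omega
      rw [← this]
      exact lt_mul_of_one_lt_right Nat.card_pos h3
    · rw [WW_map H.subtype _ H.subtype_injective.injOn] at h1
      exact npc_normalizer_of_injective H.subtype H.subtype_injective _ h1
  -- all Sylow subgroups
  have hall : ∀ T : Sylow p G, HasNPC p (normalizer (WW p (T : Subgroup G) : Set G)) := by
    intro T
    obtain ⟨g, hg⟩ := MulAction.exists_smul_eq G T P
    have hg' : (T : Subgroup G).map (MulAut.conj g).toMonoidHom = (P : Subgroup G) := by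
      rw [← hg]; rfl
    apply npc_normalizer_of_injective (MulAut.conj g).toMonoidHom (MulAut.conj g).injective
    rw [← WW_map (MulAut.conj g).toMonoidHom _ (MulAut.conj g).injective.injOn, hg']
    exact hN
  -- (A)
  have hA : ∀ (T : Sylow p G) (H : Subgroup G), (T : Subgroup G) ≤ H → H ≠ ⊤ → HasNPC p H := by
    intro T H hTH hH
    have h1 : ((T.subtype hTH : Sylow p H) : Subgroup H).map H.subtype = (T : Subgroup G) := by
      rw [Sylow.coe_subtype, Subgroup.map_subgroupOf_eq_of_le hTH]
    apply hS H (T.subtype hTH) hH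
    rw [h1]; exact hall T
  have hPne : (P : Subgroup G) ≠ ⊥ := by
    intro h
    apply hno
    apply hasNPC_of_coprime
    have h1 := P.not_dvd_index
    rw [h, Subgroup.index_bot] at h1
    exact ((Nat.Prime.coprime_iff_not_dvd hp.out).2 h1).symm
  -- (B)
  have hB : ∀ N : Subgroup G, N.Normal → (Nat.card N).Coprime p → N = ⊥ := by
    intro N hNn hNc
    by_contra hNb
    apply hno
    apply HasNPC.of_quotient N hNc
    set f := QuotientGroup.mk' N with hf
    have hfs : Function.Surjective f := QuotientGroup.mk'_surjective N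
    have hfk : f.ker = N := QuotientGroup.ker_mk' N
    have hfk' : (Nat.card f.ker).Coprime p := by rw [hfk]; exact hNc
    have hinj : Set.InjOn f ((P : Subgroup G) : Set G) := by
      intro x hx y hy hxy
      have h1 : x * y⁻¹ ∈ (P : Subgroup G) := mul_mem hx (inv_mem hy)
      have h2 : x * y⁻¹ ∈ f.ker := by
        rw [MonoidHom.mem_ker, map_mul, map_inv, hxy, mul_inv_cancel]
      obtain ⟨k, hk⟩ := P.2 ⟨_, h1⟩
      have h3 : orderOf (x * y⁻¹) ∣ p ^ k := orderOf_dvd_of_pow_eq_one (congrArg Subtype.val hk)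
      have h4 : orderOf (x * y⁻¹) ∣ Nat.card f.ker := by
        have := orderOf_dvd_natCard (⟨_, h2⟩ : f.ker)
        rwa [Subgroup.orderOf_mk] at this
      have h5 := orderOf_eq_one_iff.1 (Nat.eq_one_of_dvd_coprimes (Nat.Coprime.pow_right k hfk') h4 h3)
      rwa [mul_inv_eq_one] at h5
    have hPc : ((P.mapSurjective hfs : Sylow p (G ⧸ N)) : Subgroup (G ⧸ N)) = (P : Subgroup G).map f := rfl
    refine ih (Nat.card (G ⧸ N)) ?_ (G ⧸ N) rfl (P.mapSurjective hfs) ?_
    · rw [← hn, ← Subgroup.index_eq_card, ← Subgroup.card_mul_index N]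
      apply lt_mul_of_one_lt_left
      · exact Nat.pos_of_ne_zero Subgroup.FiniteIndex.index_ne_zero
      · rw [Finite.one_lt_card_iff_nontrivial, Subgroup.nontrivial_iff_ne_bot]; exact hNb
    · rw [hPc, WW_map f _ hinj, CfsgH7.normalizer_map_coprime hfs hfk' (P.2.to_le (WW_le _))]
      exact HasNPC.map f _ hN
  -- (C)
  obtain ⟨X, hXne, hXp, hXn⟩ : ∃ X : Subgroup G, X ≠ ⊥ ∧ IsPGroup p X ∧ X.Normal := by
    have hbadne : {X : Subgroup G | X ≠ ⊥ ∧ IsPGroup p X ∧ ¬ HasNPC p (normalizer (X : Set G))}.Nonempty := by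
      by_contra hcon
      apply hno
      apply hasNPC_of_local
      intro X h1 h2
      by_contra h3
      exact hcon ⟨X, h1, h2, h3⟩
    obtain ⟨X, hX, hmax⟩ := Set.Finite.exists_maximalFor
      (fun X : Subgroup G => (Nat.card (normalizer (X : Set G))).factorization p) _ (Set.toFinite _) hbadne
    refine ⟨X, hX.1, hX.2.1, ?_⟩
    by_contra hXn
    have htop : normalizer (X : Set G) ≠ ⊤ := fun h => hXn (Subgroup.normalizer_eq_top_iff.1 h)
    obtain ⟨S⟩ : Nonempty (Sylow p (normalizer (X : Set G))) := inferInstance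
    set S' := (S : Subgroup (normalizer (X : Set G))).map (normalizer (X : Set G)).subtype with hS'
    have hS'p : IsPGroup p S' := S.2.map _
    have hS'le : S' ≤ normalizer (X : Set G) := Subgroup.map_subtype_le _
    have hS'card : Nat.card S' = p ^ (Nat.card (normalizer (X : Set G))).factorization p := by
      rw [hS', Subgroup.card_map_of_injective (Subgroup.subtype_injective _)]
      exact S.card_eq_multiplicity
    obtain ⟨P1, hP1⟩ := hS'p.exists_le_sylow
    rcases eq_or_lt_of_le hP1 with h | h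
    · exact hX.2.2 (hA P1 _ (h ▸ hS'le) htop)
    · -- normalizers grow
      have h1 : S' < normalizer (S' : Set G) ⊓ (P1 : Subgroup G) := by
        have := CfsgH7.lt_inf_normalizer P1.2 h
        first | exact this | (rw [inf_comm]; exact this)
      have h2 : ∀ Y : Subgroup G, normalizer (S' : Set G) ≤ normalizer (Y : Set G) → Y ≠ ⊥ → IsPGroup p Y →
          HasNPC p (normalizer (Y : Set G)) := by
        intro Y hY hYne hYp
        by_contra hbad
        have h3 : (Nat.card (normalizer (X : Set G))).factorization p <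
            (Nat.card (normalizer (Y : Set G))).factorization p := by
          have h4 : IsPGroup p (normalizer (S' : Set G) ⊓ (P1 : Subgroup G) : Subgroup G) := P1.2.to_le inf_le_right
          obtain ⟨m, hm⟩ := IsPGroup.iff_card.1 h4
          have h5 : Nat.card S' < Nat.card (normalizer (S' : Set G) ⊓ (P1 : Subgroup G) : Subgroup G) := by
            have h6 := Subgroup.card_le_of_le h1.le
            refine lt_of_le_of_ne h6 fun h7 => h1.ne ?_
            exact Subgroup.eq_of_le_of_card_ge h1.le h7.ge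
          rw [hS'card, hm] at h5
          have h6 := (Nat.pow_lt_pow_iff_right hp.out.one_lt).1 h5
          have h7 : p ^ m ∣ Nat.card (normalizer (Y : Set G)) := by
            rw [← hm]
            exact Subgroup.card_dvd_of_le (inf_le_left.trans hY)
          have h8 := (hp.out.pow_dvd_iff_le_factorization (Nat.card_pos.ne')).1 h7
          exact lt_of_lt_of_le h6 h8
        exact absurd (hmax ⟨hYne, hYp, hbad⟩ h3.le) (not_le.2 h3)
      have hS'ne : S' ≠ ⊥ := by
        intro h3
        rw [h3, Subgroup.card_bot] at hS'card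
        have h4 : (Nat.card (normalizer (X : Set G))).factorization p = 0 := by
          by_contra h5
          have := Nat.one_lt_pow h5 hp.out.one_lt
          omega
        have h5 : ¬ p ∣ Nat.card (normalizer (X : Set G)) := by
          intro h6
          have := (hp.out.dvd_iff_one_le_factorization (Nat.card_pos.ne')).1 h6
          omega
        obtain ⟨m, hm⟩ := IsPGroup.iff_card.1 hX.2.1
        have hm0 : m ≠ 0 := by
          rintro rfl
          rw [pow_zero] at hm
          exact hX.1 (Subgroup.eq_bot_of_card_eq _ hm)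
        apply h5
        refine dvd_trans ?_ (Subgroup.card_dvd_of_le (Subgroup.le_normalizer (H := X)))
        rw [hm]; exact dvd_pow_self p hm0
      apply hX.2.2
      apply hS _ S htop
      exact h2 _ (normalizer_le_WW S') (WW_ne_bot hS'p hS'ne) (hS'p.to_le (WW_le _))
  -- (D)
  haveI := CfsgH7.pCore_normal' p G
  have hUp : IsPGroup p (Cfsg.pCore p G) := CfsgH2.isPGroup_pCore p
  have hXU : X ≤ Cfsg.pCore p G := CfsgH2.le_pCore hXn hXp
  have hUne : Cfsg.pCore p G ≠ ⊥ := fun h => hXne (le_bot_iff.1 (h ▸ hXU))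
  have hJ : ¬ (WW p (P : Subgroup G)).Normal := by
    intro h
    rw [Subgroup.normalizer_eq_top_iff.2 h] at hN
    exact hno (hasNPC_top hN)
  have hUbar : HasNPC p (G ⧸ Cfsg.pCore p G) := by
    set f := QuotientGroup.mk' (Cfsg.pCore p G) with hf
    have hfs : Function.Surjective f := QuotientGroup.mk'_surjective _
    have hfk : f.ker = Cfsg.pCore p G := QuotientGroup.ker_mk' _
    have hPc : ((P.mapSurjective hfs : Sylow p (G ⧸ Cfsg.pCore p G)) : Subgroup (G ⧸ Cfsg.pCore p G)) =
        (P : Subgroup G).map f := rfl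
    set Pb := (P : Subgroup G).map f with hPb
    have hPbp : IsPGroup p Pb := P.2.map f
    have hPbne : Pb ≠ ⊥ := by
      intro h
      apply hJ
      have h1 : (P : Subgroup G) ≤ Cfsg.pCore p G := by
        intro x hx
        rw [← hfk]
        have : f x ∈ Pb := ⟨x, hx, rfl⟩
        rw [h, Subgroup.mem_bot] at this
        exact this
      have h2 : (P : Subgroup G) = Cfsg.pCore p G := le_antisymm h1 (pCore_le_sylow P)
      rw [← Subgroup.normalizer_eq_top_iff, eq_top_iff]
      refine le_trans ?_ (normalizer_le_WW _)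
      rw [h2, Subgroup.normalizer_eq_top]
    have key : ∀ Y : Subgroup (G ⧸ Cfsg.pCore p G), IsPGroup p Y → Y ≠ ⊥ →
        normalizer (Pb : Set (G ⧸ Cfsg.pCore p G)) ≤ normalizer (Y : Set (G ⧸ Cfsg.pCore p G)) →
        HasNPC p (normalizer (Y : Set (G ⧸ Cfsg.pCore p G))) := by
      intro Y hYp hYne hYn
      have h1 : (P : Subgroup G) ≤ (normalizer (Y : Set (G ⧸ Cfsg.pCore p G))).comap f := by
        rw [← Subgroup.map_le_iff_le_comap]
        exact Subgroup.le_normalizer.trans hYn
      have h2 : (normalizer (Y : Set (G ⧸ Cfsg.pCore p G))).comap f ≠ ⊤ := by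
        intro h
        rw [Subgroup.comap_normalizer_eq_of_surjective Y hfs, Subgroup.normalizer_eq_top_iff] at h
        have h3 : IsPGroup p (Y.comap f) := comap_normal_isPGroup (by rw [hfk]; exact hUp) hYp
        have h4 : Y.comap f ≤ Cfsg.pCore p G := CfsgH2.le_pCore h h3
        apply hYne
        rw [eq_bot_iff]
        intro y hy
        obtain ⟨x, rfl⟩ := hfs y
        have h5 : x ∈ f.ker := by rw [hfk]; exact h4 hy
        rw [Subgroup.mem_bot]
        exact h5
      have h3 := HasNPC.map f _ (hA P _ h1 h2)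
      rwa [Subgroup.map_comap_eq_self_of_surjective hfs] at h3
    refine ih (Nat.card (G ⧸ Cfsg.pCore p G)) ?_ (G ⧸ Cfsg.pCore p G) rfl (P.mapSurjective hfs) ?_
    · rw [← hn, ← Subgroup.index_eq_card, ← Subgroup.card_mul_index (Cfsg.pCore p G)]
      apply lt_mul_of_one_lt_left
      · exact Nat.pos_of_ne_zero Subgroup.FiniteIndex.index_ne_zero
      · rw [Finite.one_lt_card_iff_nontrivial, Subgroup.nontrivial_iff_ne_bot]; exact hUne
    · rw [hPc]
      exact key _ (hPbp.to_le (WW_le _)) (WW_ne_bot hPbp hPbne) (normalizer_le_WW _)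
  obtain ⟨hCU, K, kk, hpowK, hKcomm⟩ := npc_core P hno (hA P) hB (Cfsg.pCore p G) rfl hUbar
  apply hJ
  apply WW_normal _ hCU P
  apply Cfsg.Agent.S0626.result hp2
  intro T
  have hTK : ∀ t ∈ (T : Subgroup G), t ∈ K := by
    intro t ht
    obtain ⟨j, hj⟩ := T.2 ⟨t, ht⟩
    have hj' : t ^ 2 ^ j = 1 := congrArg Subtype.val hj
    have hcop : (orderOf t).Coprime (p ^ kk) := by
      apply Nat.Coprime.coprime_dvd_left (orderOf_dvd_of_pow_eq_one hj')
      apply Nat.Coprime.pow
      exact (Nat.coprime_primes Nat.prime_two hp.out).2 (Ne.symm hp2)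
    have h1 : Subgroup.zpowers (t ^ p ^ kk) = Subgroup.zpowers t := by
      apply le_antisymm
      · rw [Subgroup.zpowers_le]; exact Subgroup.pow_mem _ (Subgroup.mem_zpowers t) _
      · rw [Subgroup.zpowers_le]
        exact mem_zpowers_pow_iff.2 hcop.symm
    have h2 : Subgroup.zpowers (t ^ p ^ kk) ≤ K := by rw [Subgroup.zpowers_le]; exact hpowK t
    rw [h1, Subgroup.zpowers_le] at h2
    exact h2
  constructor
  constructor
  rintro ⟨x, hx⟩ ⟨y, hy⟩
  apply Subtype.ext
  change x * y = y * x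
  have h1 := hKcomm x (hTK x hx) y (hTK y hy)
  have h2 : x * y * x⁻¹ * y⁻¹ ∈ (T : Subgroup G) := mul_mem (mul_mem (mul_mem hx hy) (inv_mem hx)) (inv_mem hy)
  obtain ⟨j, hj⟩ := T.2 ⟨_, h2⟩
  obtain ⟨k, hk⟩ := hUp ⟨_, h1⟩
  have hj' : (x * y * x⁻¹ * y⁻¹) ^ 2 ^ j = 1 := congrArg Subtype.val hj
  have hk' : (x * y * x⁻¹ * y⁻¹) ^ p ^ k = 1 := congrArg Subtype.val hk
  have h3 := orderOf_eq_one_iff.1 (Nat.eq_one_of_dvd_coprimes (Nat.Coprime.pow j k ((Nat.coprime_primes Nat.prime_two hp.out).2 (Ne.symm hp2))) (orderOf_dvd_of_pow_eq_one hj') (orderOf_dvd_of_pow_eq_one hk'))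
  rw [mul_inv_eq_one, mul_inv_eq_iff_eq_mul] at h3
  exact h3

/-- **S0628** -/
theorem ww_npc {G : Type u} [Group G] [Finite G] {p : ℕ} [hp : Fact p.Prime] (hp2 : p ≠ 2) (P : Sylow p G) 
    (hN : HasNPC p (normalizer (WW p (P : Subgroup G) : Set G))) : HasNPC p G := 
  ww_npc_main hp2 (Nat.card G) G rfl P hN

/-- **S0627** -/
theorem ww_factor {G : Type u} [Group G] [Finite G] {p : ℕ} [hp : Fact p.Prime] (hp5 : 5 ≤ p) (hsep : IsPSolvable p G) (S : Sylow p G) :
    pPrimeCore p G ⊔ normalizer (WW p (S : Subgroup G) : Set G) = ⊤ := by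
  set N := pPrimeCore p G with hN
  haveI hNn : N.Normal := by rw [hN]; infer_instance
  have hNc : (Nat.card N).Coprime p := CfsgH2.coprime_card_pPrimeCore p
  set f := QuotientGroup.mk' N with hf
  have hfs : Function.Surjective f := QuotientGroup.mk'_surjective N
  have hfk : f.ker = N := QuotientGroup.ker_mk' N
  have hfk' : (Nat.card f.ker).Coprime p := by rw [hfk]; exact hNc
  have hinj : Set.InjOn f ((S : Subgroup G) : Set G) := by
    intro x hx y hy hxy
    have h1 : x * y⁻¹ ∈ (S : Subgroup G) := mul_mem hx (inv_mem hy)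
    have h2 : x * y⁻¹ ∈ f.ker := by
      rw [MonoidHom.mem_ker, map_mul, map_inv, hxy, mul_inv_cancel]
    obtain ⟨k, hk⟩ := S.2 ⟨_, h1⟩
    have h3 : orderOf (x * y⁻¹) ∣ p ^ k := orderOf_dvd_of_pow_eq_one (congrArg Subtype.val hk)
    have h4 : orderOf (x * y⁻¹) ∣ Nat.card f.ker := by
      have := orderOf_dvd_natCard (⟨_, h2⟩ : f.ker)
      rwa [Subgroup.orderOf_mk] at this
    have h5 := orderOf_eq_one_iff.1 (Nat.eq_one_of_dvd_coprimes (Nat.Coprime.pow_right k hfk') h4 h3)
    rwa [mul_inv_eq_one] at h5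
  have hPc : ((S.mapSurjective hfs : Sylow p (G ⧸ N)) : Subgroup (G ⧸ N)) = (S : Subgroup G).map f := rfl
  have hsb : IsPSolvable p (G ⧸ N) := IsPSolvable.map hsep f hfs
  have hO : pPrimeCore p (G ⧸ N) = ⊥ := CfsgH2.pPrimeCore_quotient_pPrimeCore p
  have hst : IsActionPStable p (G ⧸ N) := isActionPStable_of_free (by omega) (sl2Free_of_psolvable hp5 hsb)
  have h1 := WW_normal hst (psolv_centralizer_pCore_le hsb hO) (S.mapSurjective hfs)
  rw [hPc, WW_map f _ hinj] at h1
  have h2 := CfsgH7.normalizer_map_coprime hfs hfk' (R := WW p (S : Subgroup G)) (S.2.to_le (WW_le _))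
  rw [Subgroup.normalizer_eq_top_iff.2 h1] at h2
  rw [eq_top_iff]
  intro g _
  have h3 : f g ∈ (normalizer (WW p (S : Subgroup G) : Set G)).map f := by rw [← h2]; exact Subgroup.mem_top _
  obtain ⟨n, hn, hng⟩ := h3
  have h4 : g * n⁻¹ ∈ N := by rw [← hfk, MonoidHom.mem_ker, map_mul, map_inv, hng, mul_inv_cancel]
  have e : g = (g * n⁻¹) * n := by group
  rw [e]
  exact Subgroup.mul_mem_sup h4 hn

end CfsgH1
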