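import Cfsg.Agent.H1.Zipper

set_option autoImplicit false

open scoped Pointwise commutatorElement

namespace CfsgH1

universe u v w
variable {G : Type u} [Group G]

open Subgroup Cfsg

theorem exists_mem_le_normalizer_internal [Finite G] {K : Subgroup G} {S S₀ : Set (Subgroup G)} 
    (hS : ∀ U ∈ S, U ≤ K ∧ (U.subgroupOf K).IsSubnormal) 
    (hconj : ∀ U ∈ S, ∀ g ∈ K, MulAut.conj g • U ∈ S) (h₀ : S₀ ⊂ S) : 
    ∃ X ∈ S, X ∉ S₀ ∧ X ≤ normalizer ((sSup S₀ : Subgroup G) : Set G) := by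
  have h1 := exists_mem_le_normalizer_sSup (G := K) (S := (fun U : Subgroup G => U.subgroupOf K) '' S) 
    (S₀ := (fun U : Subgroup G => U.subgroupOf K) '' S₀) ?_ ?_ ?_
  · obtain ⟨X, ⟨U, hU, rfl⟩, hX₀, hXn⟩ := h1
    refine ⟨U, hU, fun h => hX₀ ⟨U, h, rfl⟩, ?_⟩
    have hmap : (sSup ((fun U : Subgroup G => U.subgroupOf K) '' S₀)).map K.subtype = sSup S₀ := by
      apply le_antisymm
      · rw [Subgroup.map_le_iff_le_comap]
        refine sSup_le ?_
        rintro _ ⟨V, hV, rfl⟩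
        rw [← Subgroup.map_le_iff_le_comap, map_subgroupOf_eq_of_le (hS V (h₀.subset hV)).1]
        exact le_sSup hV
      · refine sSup_le fun V hV => ?_
        have h2 : V.subgroupOf K ≤ sSup ((fun U : Subgroup G => U.subgroupOf K) '' S₀) := le_sSup ⟨V, hV, rfl⟩
        have h3 := Subgroup.map_mono (f := K.subtype) h2
        rwa [map_subgroupOf_eq_of_le (hS V (h₀.subset hV)).1] at h3
    rw [← hmap]
    rw [le_normalizer_iff_conj] at hXn ⊢
    rintro x hx _ ⟨y, hy, rfl⟩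
    exact ⟨⟨x, (hS U hU).1 hx⟩ * y * ⟨x, (hS U hU).1 hx⟩⁻¹, hXn ⟨x, (hS U hU).1 hx⟩ hx y hy, rfl⟩
  · rintro _ ⟨U, hU, rfl⟩
    exact (hS U hU).2
  · rintro _ ⟨U, hU, rfl⟩ g
    exact ⟨MulAut.conj (g : G) • U, hconj U hU g g.2, (conj_smul_subgroupOf g U).symm⟩
  · rw [Set.ssubset_iff_subset_ne]
    refine ⟨Set.image_mono h₀.subset, ?_⟩
    intro he
    obtain ⟨X, hX, hX₀⟩ := Set.exists_of_ssubset h₀
    have h2 : X.subgroupOf K ∈ (fun U : Subgroup G => U.subgroupOf K) '' S₀ := by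
      rw [he]; exact ⟨X, hX, rfl⟩
    obtain ⟨V, hV, hVX⟩ := h2
    apply hX₀
    have h3 : V = X := by
      have h4 := congrArg (Subgroup.map K.subtype) hVX
      rwa [map_subgroupOf_eq_of_le (hS V (h₀.subset hV)).1, map_subgroupOf_eq_of_le (hS X hX).1] at h4
    rw [← h3]; exact hV

theorem zip_unique [Finite G] (A : Subgroup G) (U : Set (Subgroup G)) (hU : U.Nonempty) (S : Subgroup G → Set (Subgroup G)) 
    (hS : ∀ V B : Subgroup G, B ∈ S V ↔ (∃ g : G, B = MulAut.conj g • A) ∧ B ≤ V ∧ (B.subgroupOf V).IsSubnormal) 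
    (h2 : ∀ V ∈ U, ∀ W ∈ U, ∀ B ∈ S W, B ≤ V → B ∈ S V) 
    (h3 : ∀ V ∈ U, ∀ W ∈ U, ∃ X ∈ U, Subgroup.normalizer ((sSup (S V ∩ S W) : Subgroup G) : Set G) ≤ X) : 
    ∃ M ∈ U, ∀ V ∈ U, V ≤ M := by
  classical
  -- conjugation invariance
  have hconj : ∀ V B : Subgroup G, B ∈ S V → ∀ g ∈ V, MulAut.conj g • B ∈ S V := by
    intro V B hB g hg
    obtain ⟨⟨x, rfl⟩, hBV, hBs⟩ := (hS V _).1 hB
    refine (hS V _).2 ⟨⟨g * x, by rw [map_mul, mul_smul]⟩, ?_, ?_⟩
    · have h4 := conj_smul_mono g hBV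
      rwa [conj_smul_of_mem hg] at h4
    · have h4 := isSubnormal_subgroupOf_conj hBs g
      rwa [conj_smul_of_mem hg] at h4
  have hmaxex : ∀ V ∈ U, ∃ M ∈ U, V ≤ M ∧ ∀ N ∈ U, M ≤ N → N = M := by
    intro V hV
    obtain ⟨M, ⟨hM, hVM⟩, hMmax⟩ := exists_maximal_of_set {M : Subgroup G | M ∈ U ∧ V ≤ M} ⟨V, hV, le_rfl⟩
    exact ⟨M, hM, hVM, fun N hN hMN => hMmax N ⟨hN, hVM.trans hMN⟩ hMN⟩
  obtain ⟨V₀, hV₀⟩ := hU
  obtain ⟨M₀, hM₀, -, hM₀max⟩ := hmaxex V₀ hV₀
  -- uniqueness of maximal elements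
  suffices key : ∀ (k : ℕ) (M N : Subgroup G), M ∈ U → N ∈ U → (∀ L ∈ U, M ≤ L → L = M) → (∀ L ∈ U, N ≤ L → L = N) → 
      Nat.card (Subgroup G) - (S M ∩ S N).ncard = k → M = N by
    refine ⟨M₀, hM₀, fun V hV => ?_⟩
    obtain ⟨M, hM, hVM, hMmax⟩ := hmaxex V hV
    rw [key _ M₀ M hM₀ hM hM₀max hMmax rfl]
    exact hVM
  intro k
  induction k using Nat.strong_induction_on with
  | _ k ih =>
  intro M N hM hN hMmax hNmax hk
  by_contra hMN
  obtain ⟨X₀, hX₀, hX₀n⟩ := h3 M hM N hN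
  obtain ⟨X, hX, hX₀X, hXmax⟩ := hmaxex X₀ hX₀
  have hDX := hX₀n.trans hX₀X
  set D := sSup (S M ∩ S N) with hD
  have hDD : D ≤ X := le_normalizer.trans hDX
  have hfin : ∀ T : Set (Subgroup G), T.Finite := fun T => Set.toFinite T
  -- elements of Σ are in S X
  have hsub : S M ∩ S N ⊆ S X := by
    intro B hB
    exact h2 X hX M hM B hB.1 ((le_sSup hB).trans hDD)
  have main : ∀ K : Subgroup G, K ∈ U → (∀ L ∈ U, K ≤ L → L = K) → S M ∩ S N ⊆ S K → X = K := by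
    intro K hK hKmax hSK
    by_cases hss : S M ∩ S N = S K
    · -- K normalizes D
      have h4 : K ≤ normalizer (D : Set G) := by
        intro g hg
        rw [← conj_smul_eq_self_iff]
        apply eq_of_le_of_card_le
        · change D.map (MulAut.conj g).toMonoidHom ≤ D
          rw [Subgroup.map_le_iff_le_comap, hD]
          refine sSup_le fun B hB => ?_
          rw [← Subgroup.map_le_iff_le_comap]
          rw [hss] at hB ⊢
          exact le_sSup (hconj K B hB g hg)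
        · rw [card_conj_smul]
      exact hKmax X hX (h4.trans hDX)
    · obtain ⟨B, hB, hB₀, hBn⟩ := exists_mem_le_normalizer_internal (K := K) (S := S K) (S₀ := S M ∩ S N) 
        (fun B hB => ((hS K B).1 hB).2) (fun B hB g hg => hconj K B hB g hg) 
        ((Set.ssubset_iff_subset_ne).2 ⟨hSK, hss⟩)
      have hBX : B ∈ S X := h2 X hX K hK B hB (hBn.trans hDX)
      have hlt : (S M ∩ S N).ncard < (S X ∩ S K).ncard := by
        apply Set.ncard_lt_ncard _ (hfin _)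
        rw [Set.ssubset_iff_subset_ne]
        refine ⟨Set.subset_inter hsub hSK, ?_⟩
        intro he
        apply hB₀
        rw [he]
        exact ⟨hBX, hB⟩
      have hle : (S X ∩ S K).ncard ≤ Nat.card (Subgroup G) := by
        rw [← Set.ncard_univ]
        exact Set.ncard_le_ncard (Set.subset_univ _) (hfin _)
      exact ih (Nat.card (Subgroup G) - (S X ∩ S K).ncard) (by omega) X K hX hK hXmax hKmax rfl
  have e1 := main M hM hMmax Set.inter_subset_left
  have e2 := main N hN hNmax Set.inter_subset_right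
  exact hMN (e1.symm.trans e2)

end CfsgH1
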